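import Cfsg.Agent.OTensor96.Forms

/-!
Linear maps which nearly commute with the Siegel maps of an orthogonal space.
-/

set_option autoImplicit false
set_option linter.unusedSectionVars false
set_option linter.unusedVariables false
set_option linter.unusedSimpArgs false

namespace CfsgLib.OTensor96

open Module

variable {F W : Type*} [Field F] [AddCommGroup W] [Module F W] [FiniteDimensional F W] [Finite F]
  {b : LinearMap.BilinForm F W}

namespace Nice

/-- A form vanishing on singular vectors pairs a singular vector trivially with the orthogonal of a pair. -/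
lemma sym_zero (hb : Nice b) (hk : 4 ≤ finrank F W ∨ ∃ k : F, k ≠ 0 ∧ k ^ 2 ≠ 1) {P : W →ₗ[F] W}
    (hP : ∀ s, b s s = 0 → b (P s) s = 0) {s e : W} (hss : b s s = 0) (hee : b e e = 0)
    (hse : b s e = 1) {y : W} (hys : b s y = 0) (hye : b e y = 0) :
    b (P s) y + b (P y) s = 0 := by
  have h2 := hb.two
  set h : W → F := fun y => b (P s) y + b (P y) s with hh
  set k : W → F := fun y => b (P e) y + b (P y) e with hk'
  have eq : ∀ (r : F), r ≠ 0 → ∀ y, b s y = 0 → b e y = 0 → 2 * r ^ 2 * h y = b y y * k y := by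
    intro r hr y hys hye
    have hx : ∀ t : F, t * t = 1 → b (P (r • s - (b y y / (2 * r)) • e + t • y))
        (r • s - (b y y / (2 * r)) • e + t • y) = 0 := fun t ht => hP _ (by
      simp only [map_add, map_sub, map_smul, LinearMap.add_apply, LinearMap.sub_apply, LinearMap.smul_apply,
        smul_eq_mul, hss, hee, hse, hys, hye, hb.symm y s, hb.symm y e, hb.symm e s]
      linear_combination (norm := (field_simp; ring)) (b y y) * ht)
    have e1 := hx 1 (by ring)
    have e2 := hx (-1) (by ring)
    simp only [map_add, map_sub, map_smul, LinearMap.add_apply, LinearMap.sub_apply, LinearMap.smul_apply,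
      smul_eq_mul, hP s hss, hP e hee] at e1 e2
    simp only [hh, hk']
    linear_combination (norm := (field_simp; ring)) r * (e1 - e2)
  rcases hk with h4 | ⟨r, hr0, hr⟩
  · -- two orthogonal anisotropic vectors
    have key : ∀ y, b s y = 0 → b e y = 0 → b y y ≠ 0 → k y = 0 := by
      intro y hys hye hyy
      obtain ⟨z, hzs, hze, hyz, hzz⟩ := hb.exists_aniso_pair_two hss hee hse h4 hys hye hyy
      have h1 := eq 1 one_ne_zero y hys hye
      have h3 := eq 1 one_ne_zero z hzs hze
      have h5 := eq 1 one_ne_zero (y + z) (by simp [hys, hzs]) (by simp [hye, hze])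
      have h6 := eq 1 one_ne_zero (y - z) (by simp [hys, hzs]) (by simp [hye, hze])
      simp only [hh, hk', map_add, map_sub, LinearMap.add_apply, LinearMap.sub_apply, hyz, hb.symm z y] at h1 h3 h5 h6
      have : 2 * (b z z * k y) = 0 := by
        simp only [hk']
        linear_combination 2 * h1 - h5 - h6
      exact ((mul_eq_zero.1 ((mul_eq_zero.1 this).resolve_left h2)).resolve_left hzz)
    have h1 := eq 1 one_ne_zero y hys hye
    by_cases hyy : b y y = 0
    · rw [hyy, zero_mul] at h1
      simpa [h2] using h1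
    · rw [key y hys hye hyy, mul_zero] at h1
      simpa [h2] using h1
  · have h1 := eq 1 one_ne_zero y hys hye
    have h3 := eq r hr0 y hys hye
    have : 2 * ((r ^ 2 - 1) * h y) = 0 := by linear_combination h3 - h1
    exact (mul_eq_zero.1 ((mul_eq_zero.1 this).resolve_left h2)).resolve_left (sub_ne_zero.2 hr)

/-- A vector orthogonal to `s` and to the orthogonal of the pair is a multiple of `s`. -/
lemma eq_smul_of_pair (hb : Nice b) {s e z : W} (hss : b s s = 0) (hee : b e e = 0) (hse : b s e = 1)
    (hzs : b z s = 0) (h : ∀ y, b s y = 0 → b e y = 0 → b z y = 0) : z = b z e • s := by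
  refine hb.ext_left fun x => ?_
  obtain ⟨h1, h2⟩ := hb.split_pair hss hee hse x
  have := h _ h1 h2
  simp [hzs, hb.symm s x] at this ⊢
  linear_combination this

/-- A symmetric map whose form vanishes on singular vectors is scalar. -/
lemma scalar_of_vanish (hb : Nice b) (h3 : 3 ≤ finrank F W)
    (hk : 4 ≤ finrank F W ∨ ∃ k : F, k ≠ 0 ∧ k ^ 2 ≠ 1) {P : W →ₗ[F] W}
    (hsym : ∀ x y, b (P x) y = b x (P y)) (hP : ∀ s, b s s = 0 → b (P s) s = 0) :
    ∃ c : F, ∀ z, P z = c • z := by
  obtain ⟨s, e, hss, hee, hse⟩ := hb.exists_pair h3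
  have eig : ∀ {s e}, b s s = 0 → b e e = 0 → b s e = 1 → P s = b (P s) e • s := by
    intro s e hss hee hse
    refine hb.eq_smul_of_pair hss hee hse (hP s hss) fun y hys hye => ?_
    have := hb.sym_zero hk hP hss hee hse hys hye
    rw [hsym y s, hb.symm y, ← two_mul] at this
    exact (mul_eq_zero.1 this).resolve_left hb.two
  have hes : b e s = 1 := by rw [hb.symm, hse]
  refine ⟨b (P s) e, fun z => LinearMap.congr_fun (f := P) (g := b (P s) e • LinearMap.id)
    (hb.ext_pair hss hee hse ?_ ?_ fun x hxx hxe => ?_) z⟩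
  · simp only [LinearMap.smul_apply, LinearMap.id_apply]; exact eig hss hee hse
  · simp only [LinearMap.smul_apply, LinearMap.id_apply]
    rw [hsym s, hb.symm s]; exact eig hee hss hes
  · simp only [LinearMap.smul_apply, LinearMap.id_apply]
    have h1 := eig hxx hee hxe
    have h4 := eig hee hss hes
    rw [hsym x, hb.symm x, h4, map_smul, LinearMap.smul_apply, smul_eq_mul] at h1
    rw [hb.symm e x, hxe, mul_one] at h1
    rw [h1, hsym s, hb.symm s]

/-- A skew map fixing all singular points is zero. -/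
lemma eq_zero_of_skew_eigen (hb : Nice b) (h3 : 3 ≤ finrank F W) {P : W →ₗ[F] W}
    (hsk : ∀ x y, b (P x) y = - b x (P y)) (hP : ∀ s, s ≠ 0 → b s s = 0 → ∃ k : F, P s = k • s) :
    P = 0 := by
  obtain ⟨s, e, hss, hee, hse⟩ := hb.exists_pair h3
  have h2 := hb.two
  have rel : ∀ {x y : W} {k l : F}, P x = k • x → P y = l • y → b x y ≠ 0 → l = -k := by
    intro x y k l hx hy hxy
    have := hsk x y
    simp only [hx, hy, map_smul, LinearMap.smul_apply, smul_eq_mul] at this
    exact mul_right_cancel₀ hxy (by linear_combination this)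
  obtain ⟨hs0, he0⟩ := hb.ne_zero_of_pair hse
  obtain ⟨ks, hks⟩ := hP s hs0 hss
  obtain ⟨ke, hke⟩ := hP e he0 hee
  obtain ⟨y, hys, hye, hyy⟩ := hb.exists_aniso_pair hss hee hse h3
  have hxx : b (s - (b y y / 2) • e + y) (s - (b y y / 2) • e + y) = 0 := by
    simp only [map_add, map_sub, map_smul, LinearMap.add_apply, LinearMap.sub_apply, LinearMap.smul_apply,
      smul_eq_mul, hss, hee, hse, hys, hye, hb.symm y s, hb.symm y e, hb.symm e s]
    field_simp
    ring
  have hxe : b (s - (b y y / 2) • e + y) e = 1 := by simp [hse, hee, hb.symm y e, hye]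
  have hxs : b (s - (b y y / 2) • e + y) s ≠ 0 := by
    simp [hss, hb.symm e s, hse, hb.symm y s, hys, hyy, h2]
  obtain ⟨kx, hkx⟩ := hP _ (hb.ne_zero_of_pair hxe).1 hxx
  have r1 := rel hks hke (by rw [hse]; exact one_ne_zero)
  have r2 := rel hkx hke (by rw [hxe]; exact one_ne_zero)
  have r3 := rel hkx hks hxs
  have hks0 : ks = 0 := by
    have : (2 : F) * ks = 0 := by linear_combination r1 - r2 + r3
    exact (mul_eq_zero.1 this).resolve_left h2
  refine hb.ext_pair hss hee hse (by simp [hks, hks0]) (by simp [hke, r1, hks0]) fun x hx hxe => ?_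
  obtain ⟨k, hk⟩ := hP x (hb.ne_zero_of_pair hxe).1 hx
  have r := rel hk hke (by rw [hxe]; exact one_ne_zero)
  rw [r1, hks0, neg_zero, eq_comm, neg_eq_zero] at r
  simp [hk, r]

/-- A map commuting with the Siegel maps modulo scalars is scalar. -/
lemma scalar_of_conj (hb : Nice b) (h3 : 3 ≤ finrank F W)
    (hk : 4 ≤ finrank F W ∨ ∃ k : F, k ≠ 0 ∧ k ^ 2 ≠ 1) {P : W →ₗ[F] W}
    (hP : ∀ s d, s ≠ 0 → b s s = 0 → b s d = 0 →
      ∃ l : F, ∀ z, sie b s d (P z) - P (sie b s d z) = l • sie b s d z) :
    ∃ c : F, ∀ z, P z = c • z := by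
  have h2 := hb.two
  have van : ∀ s, b s s = 0 → b (P s) s = 0 := by
    intro s hss
    rcases eq_or_ne s 0 with rfl | hs
    · simp
    obtain ⟨d, hd, hdd⟩ := hb.exists_aniso_perp hs hss h3
    obtain ⟨l, hl⟩ := hP s d hs hss hd
    have := congrArg (fun v => b v d) (hl s)
    simp [hb.sie_self hss hd, hd] at this
    exact this.resolve_right hdd
  have eig : ∀ {s e}, b s s = 0 → b e e = 0 → b s e = 1 →
      P s = b (P s) e • s ∧ ∀ d, b s d = 0 → b e d = 0 → ∀ z, sie b s d (P z) = P (sie b s d z) := by
    intro s e hss hee hse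
    obtain ⟨hs, -⟩ := hb.ne_zero_of_pair hse
    have hz : ∀ y, b s y = 0 → b e y = 0 → b (P s) y = 0 := by
      intro y hys hye
      obtain ⟨l, hl⟩ := hP s y hs hss hys
      have e1 := congrArg (fun v => b v e) (hl s)
      have e2 := congrArg (fun v => b v s) (hl e)
      simp [hb.sie_self hss hys, hb.symm y e, hye, hse, van s hss] at e1
      simp [hb.symm y s, hys, hss, hb.symm e s, hse, van s hss, hye] at e2
      have hsum := hb.sym_zero hk van hss hee hse hys hye
      have : (2 : F) * b (P s) y = 0 := by linear_combination hsum + e2 - e1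
      exact (mul_eq_zero.1 this).resolve_left h2
    refine ⟨hb.eq_smul_of_pair hss hee hse (van s hss) hz, fun d hd hde z => ?_⟩
    obtain ⟨l, hl⟩ := hP s d hs hss hd
    have e1 := congrArg (fun v => b v e) (hl s)
    simp [hb.sie_self hss hd, hb.symm d e, hde, hse, van s hss, hz d hd hde] at e1
    have := hl z
    rwa [← e1, zero_smul, sub_eq_zero] at this
  obtain ⟨s, e, hss, hee, hse⟩ := hb.exists_pair h3
  have hes : b e s = 1 := by rw [hb.symm, hse]
  set ks := b (P s) e
  set ke := b (P e) s
  obtain ⟨hPs', hEs⟩ := eig hss hee hse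
  obtain ⟨hPe', hEe⟩ := eig hee hss hes
  have hPs : P s = ks • s := hPs'
  have hPe : P e = ke • e := hPe'
  have hPy : ∀ y, b s y = 0 → b e y = 0 → P y = ks • y + (b y y / 2) • (ke - ks) • e := by
    intro y hys hye
    have h1 := hEe y hye hys s
    simp only [sie_apply, hPs, map_add, map_sub, map_smul, LinearMap.smul_apply, smul_eq_mul, hse, hys, hPe,
      one_mul, mul_one, one_smul] at h1
    rw [← sub_eq_zero] at h1 ⊢
    linear_combination (norm := module) -h1
  obtain ⟨y₀, hys, hye, hyy⟩ := hb.exists_aniso_pair hss hee hse h3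
  have hkk : ke = ks := by
    have h1 := hPy y₀ hys hye
    have h1' := hPy (-y₀) (by simp [hys]) (by simp [hye])
    rw [map_neg, h1] at h1'
    have h4 : (2 * (b y₀ y₀ / 2) * (ke - ks)) • e = 0 := by
      simp only [map_neg, LinearMap.neg_apply, neg_neg] at h1'
      linear_combination (norm := module) -h1'
    have h5 := (smul_eq_zero.1 h4).resolve_right (hb.ne_zero_of_pair hse).2
    simpa [h2, hyy, sub_eq_zero] using h5
  refine ⟨ks, fun z => ?_⟩
  have hz : z = (z - b z e • s - b z s • e) + b z e • s + b z s • e := by abel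
  obtain ⟨h1, h1'⟩ := hb.split_pair hss hee hse z
  have := hPy _ h1 h1'
  rw [hkk, sub_self, zero_smul, smul_zero, add_zero] at this
  rw [hz, map_add, map_add, map_smul, map_smul, this, hPs, hPe, hkk]
  module

/-- The bracket with the map of a Siegel element. -/
lemma bracket_eq (hb : Nice b) {τ : W →ₗ[F] W} (hτ : ∀ x y, b (τ x) y = - b x (τ y)) {s d : W}
    (hss : b s s = 0) (hsd : b s d = 0) (z : W) :
    sie b s ((2⁻¹ : F) • d) (τ (sie b s (-((2⁻¹ : F) • d)) z)) -
        sie b s (-((2⁻¹ : F) • d)) (τ (sie b s ((2⁻¹ : F) • d) z)) =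
      wedge b s d (τ z) - τ (wedge b s d z) := by
  have h2 := hb.two
  have f1 : b (τ z) s = - b z (τ s) := hτ z s
  have f2 : b (τ z) d = - b z (τ d) := hτ z d
  have f3 : b (τ s) s = 0 := by
    have := hτ s s; rw [hb.symm s (τ s)] at this
    exact (mul_eq_zero.1 (show (2 : F) * b (τ s) s = 0 by linear_combination this)).resolve_left h2
  have f4 : b (τ d) d = 0 := by
    have := hτ d d; rw [hb.symm d (τ d)] at this
    exact (mul_eq_zero.1 (show (2 : F) * b (τ d) d = 0 by linear_combination this)).resolve_left h2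
  have f5 : b (τ d) s = - b (τ s) d := by rw [hτ d s, hb.symm d]
  simp only [sie_apply, wedge_apply, map_add, map_sub, map_smul, map_neg, LinearMap.add_apply,
    LinearMap.sub_apply, LinearMap.smul_apply, LinearMap.neg_apply, smul_eq_mul, f1, f2, f3, f4, f5,
    hb.symm s (τ z), hb.symm d (τ z), hb.symm s z, hb.symm d z]
  match_scalars <;> field_simp <;> ring

/-- The skew maps form a single orbit of the Lie algebra in small Witt index or dimension at least five. -/
theorem wedge_mem (hb : Nice b) (h3 : 3 ≤ finrank F W)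
    (hA : 5 ≤ finrank F W ∨ ∀ s y, s ≠ 0 → b s s = 0 → b y y = 0 → b s y = 0 → ∃ k : F, y = k • s)
    {T : AddSubgroup (W →ₗ[F] W)} (hT : ∀ τ ∈ T, ∀ x y, b (τ x) y = - b x (τ y))
    (hconj : ∀ τ ∈ T, ∀ s d, s ≠ 0 → b s s = 0 → b s d = 0 →
      sie b s d ∘ₗ τ ∘ₗ sie b s (-d) ∈ T)
    {τ : W →ₗ[F] W} (hτ : τ ∈ T) (hτ0 : τ ≠ 0) : ∀ a c, wedge b a c ∈ T := by
  have h2 := hb.two
  have br : ∀ τ ∈ T, ∀ s d, s ≠ 0 → b s s = 0 → b s d = 0 →
      wedge b s d ∘ₗ τ - τ ∘ₗ wedge b s d ∈ T := by
    intro τ hτ s d hs hss hsd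
    have h1 := hconj τ hτ s ((2⁻¹ : F) • d) hs hss (by simp [hsd])
    have h1' := hconj τ hτ s (-((2⁻¹ : F) • d)) hs hss (by simp [hsd])
    have : wedge b s d ∘ₗ τ - τ ∘ₗ wedge b s d = sie b s ((2⁻¹ : F) • d) ∘ₗ τ ∘ₗ sie b s (-((2⁻¹ : F) • d))
        - sie b s (-((2⁻¹ : F) • d)) ∘ₗ τ ∘ₗ sie b s (- -((2⁻¹ : F) • d)) := by
      refine LinearMap.ext fun z => ?_
      rw [neg_neg]
      exact (hb.bracket_eq (hT τ hτ) hss hsd z).symm
    rw [this]
    exact T.sub_mem h1 h1'
  -- the wedges all of whose multiples lie in `T`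
  set S : W → W → Prop := fun a c => ∀ k : F, k • wedge b a c ∈ T with hS
  have S_add : ∀ {a c c'}, S a c → S a c' → S a (c + c') := fun {a c c'} h h' k => by
    have := T.add_mem (h k) (h' k)
    convert this using 1
    refine LinearMap.ext fun z => ?_
    simp
    module
  have S_smul : ∀ {a c} (l : F), S a c → S a (l • c) := fun {a c} l h k => by
    have := h (k * l)
    convert this using 1
    refine LinearMap.ext fun z => ?_
    simp
    module
  have S_comm : ∀ {a c}, S a c → S c a := fun {a c} h k => by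
    have := T.neg_mem (h k)
    convert this using 1
    refine LinearMap.ext fun z => ?_
    simp
    module
  have S_self : ∀ a, S a a := fun a k => by
    convert T.zero_mem using 1
    refine LinearMap.ext fun z => ?_
    simp
  -- brackets of a wedge
  have br' : ∀ {a c}, S a c → ∀ s d, s ≠ 0 → b s s = 0 → b s d = 0 → ∀ k : F,
      k • (wedge b (wedge b s d a) c + wedge b a (wedge b s d c)) ∈ T := by
    intro a c h s d hs hss hsd k
    have h1 := br _ (h k) s d hs hss hsd
    convert h1 using 1
    refine LinearMap.ext fun z => ?_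
    simp only [LinearMap.sub_apply, LinearMap.comp_apply, LinearMap.smul_apply, map_smul,
      LinearMap.add_apply]
    rw [← smul_sub, hb.wedge_comp (hb.wedge_skew s d) a c z]
  -- a singular wedge
  obtain ⟨s, hs, hss, hns⟩ : ∃ s, s ≠ 0 ∧ b s s = 0 ∧ ∀ k : F, τ s ≠ k • s := by
    by_contra! h
    exact hτ0 (hb.eq_zero_of_skew_eigen h3 (hT τ hτ) h)
  obtain ⟨e, hee, hse⟩ := hb.exists_partner hs hss
  obtain ⟨hs', he⟩ := hb.ne_zero_of_pair hse
  obtain ⟨d, hds, hde, hdd⟩ := hb.exists_aniso_pair hss hee hse h3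
  have hls : b s (τ s) = 0 := by
    have := hT τ hτ s s; rw [hb.symm s (τ s)] at this
    rw [hb.symm]
    exact (mul_eq_zero.1 (show (2 : F) * b (τ s) s = 0 by linear_combination this)).resolve_left h2
  set y₁ := (2 * b (τ s) d) • d - b d d • τ s with hy₁
  have hSy₁ : S s y₁ := by
    intro k
    have h1 := br _ (br τ hτ s d hs hss hds) s (k • d) hs hss (by simp [hds])
    convert h1 using 1
    refine LinearMap.ext fun z => ?_
    simp only [LinearMap.sub_apply, LinearMap.comp_apply, wedge_apply, LinearMap.smul_apply, map_sub, map_smul,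
      LinearMap.add_apply, smul_eq_mul, hy₁, hss, hds, hb.symm d s, hls, hT τ hτ z s, hT τ hτ z d,
      hb.symm s (τ z), hb.symm d (τ z), hb.symm s z, hb.symm d z, hb.symm z (τ s), hb.symm z (τ d),
      hb.symm (τ s) d]
    have f4 : b d (τ d) = 0 := by
      have := hT τ hτ d d; rw [hb.symm (τ d) d] at this
      exact (mul_eq_zero.1 (show (2 : F) * b d (τ d) = 0 by linear_combination this)).resolve_left h2
    have f5 : b s (τ d) = - b d (τ s) := by rw [← hb.symm (τ s) d, hT τ hτ s d, neg_neg]
    have f6 : b (τ s) z = b z (τ s) := hb.symm _ _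
    simp only [f4, f5, f6, hb.symm (τ d) z]
    module
  set y := y₁ - b e y₁ • s with hy
  have hy1s : b s y₁ = 0 := by simp [hy₁, hds, hls]
  have hys : b s y = 0 := by simp [hy, hy1s, hss]
  have hye : b e y = 0 := by simp [hy, hb.symm e s, hse]
  have hy0 : y ≠ 0 := by
    intro h0
    rw [hy, sub_eq_zero, hy₁] at h0
    have h4 := congrArg (b d) h0
    simp [hb.symm d s, hds, hb.symm d (τ s)] at h4
    have h5 : b (τ s) d = 0 :=
      (mul_eq_zero.1 (show b d d * b (τ s) d = 0 by linear_combination h4)).resolve_left hdd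
    rw [h5] at h0
    simp only [mul_zero, zero_smul, zero_sub] at h0
    set r := b e (-(b d d • τ s))
    refine hns (-r / b d d) ?_
    rw [neg_div, neg_smul, div_eq_inv_mul, ← smul_smul, ← h0, smul_neg, neg_neg, inv_smul_smul₀ hdd]
  have hSy : S s y := by
    have : S s ((-(b e y₁)) • s) := S_smul _ (S_self s)
    simpa [hy, sub_eq_add_neg] using S_add hSy₁ this
  -- an anisotropic partner of `s`
  obtain ⟨u, hus, hue, huu, hSu⟩ : ∃ u, b s u = 0 ∧ b e u = 0 ∧ b u u ≠ 0 ∧ S s u := by
    by_cases hyy : b y y = 0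
    swap
    · exact ⟨y, hys, hye, hyy, hSy⟩
    rcases hA with h5 | hA
    swap
    · obtain ⟨k, hk⟩ := hA s y hs hss hyy hys
      have := congrArg (b e) hk
      simp [hye, hb.symm e s, hse] at this
      exact absurd (by rw [hk, ← this, zero_smul]) hy0
    obtain ⟨d, hds, hde, hdy⟩ : ∃ d, b s d = 0 ∧ b e d = 0 ∧ b d y = 1 := by
      obtain ⟨x, hx1, hx2, hx⟩ : ∃ x, b s x = 0 ∧ b e x = 0 ∧ b y x ≠ 0 := by
        by_contra! h
        exact hy0 (hb.eq_zero_of_pair hss hee hse hys hye h)
      exact ⟨(b y x)⁻¹ • x, by simp [hx1], by simp [hx2], by simp [hb.symm x y, inv_mul_cancel₀ hx]⟩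
    obtain ⟨u, hus, hue, huy, huu⟩ : ∃ u, b s u = 0 ∧ b e u = 0 ∧ b u y = 0 ∧ b u u ≠ 0 := by
      classical
      by_contra! h
      set q := d - (b d d / 2) • y with hq
      have hqs : b s q = 0 := by simp [hq, hds, hys]
      have hqe : b e q = 0 := by simp [hq, hde, hye]
      have hqy : b y q = 1 := by simp [hq, hyy, hb.symm y d, hdy]
      have hqq : b q q = 0 := by
        simp [hq, hyy, hb.symm y d, hdy]
        field_simp
        ring
      obtain ⟨x, hx0, hx⟩ := hb.exists_perp_ne (Submodule.span F {s, e, y, q}) (by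
        have := finrank_span_le_card (R := F) (M := W) ({s, e, y, q} : Set W)
        have h' : ({s, e, y, q} : Set W).toFinset.card ≤ 4 := by
          simp only [Set.toFinset_insert, Set.toFinset_singleton]; exact Finset.card_le_four
        omega)
      have hxs := hx s (Submodule.subset_span (by simp))
      have hxe := hx e (Submodule.subset_span (by simp))
      have hxy := hx y (Submodule.subset_span (by simp))
      have hxq := hx q (Submodule.subset_span (by simp))
      refine hx0 (hb.eq_zero_of_pair hss hee hse hxs hxe fun w hws hwe => ?_)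
      set w' := w - b y w • q - b q w • y with hw'
      have g1 : b s w' = 0 := by simp [hw', hws, hqs, hys]
      have g2 : b e w' = 0 := by simp [hw', hwe, hqe, hye]
      have g3 : b w' y = 0 := by rw [hb.symm]; simp [hw', hyy, hqy]
      have h1 := h (x + w') (by simp [hxs, g1]) (by simp [hxe, g2]) (by simp [hb.symm x y, hxy, g3])
      simp only [map_add, LinearMap.add_apply, h x hxs hxe (by rw [hb.symm]; exact hxy), h w' g1 g2 g3,
        hb.symm w' x, zero_add, add_zero, ← two_mul] at h1
      have h4 := (mul_eq_zero.1 h1).resolve_left h2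
      simpa [hw', hb.symm x y, hxy, hb.symm x q, hxq] using h4
    refine ⟨u, hus, hue, huu, fun k => ?_⟩
    have h1 := br _ (br _ (hSy k) e d he hee hde) s u hs hss hus
    have h4 := hSy (-(k * b u d))
    have h6 := T.sub_mem h4 h1
    convert h6 using 1
    refine LinearMap.ext fun z => ?_
    simp only [LinearMap.smul_apply, LinearMap.sub_apply, LinearMap.comp_apply, wedge_apply, map_sub, map_smul,
      smul_eq_mul, hss, hee, hse, hys, hye, hus, hue, hds, hde, hyy, huy, hdy, hb.symm e s, hb.symm y s,
      hb.symm y e, hb.symm u s, hb.symm u e, hb.symm d s, hb.symm d e, hb.symm y u, hb.symm y d, hb.symm u d]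
    module
  have hsE : S s e := by
    intro k
    have h1 := br' hSu e u he hee hue (-(k / b u u))
    convert h1 using 1
    refine LinearMap.ext fun z => ?_
    simp only [LinearMap.smul_apply, LinearMap.add_apply, wedge_apply, map_sub, map_smul, smul_eq_mul, hse, hus,
      hue, hb.symm e s, hb.symm u s, hb.symm u e, LinearMap.sub_apply]
    match_scalars <;> field_simp <;> ring
  have hsd : ∀ w, b s w = 0 → b e w = 0 → S s w := fun w hws hwe k => by
    have h1 := br' hsE s w hs hss hws k
    convert h1 using 1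
    refine LinearMap.ext fun z => ?_
    simp [hss, hse, hb.symm e s, hb.symm w e, hwe, hb.symm w s, hws]
  have hed : ∀ w, b s w = 0 → b e w = 0 → S e w := fun w hws hwe => S_comm fun k => by
    have h1 := br' hsE e w he hee hwe k
    convert h1 using 1
    refine LinearMap.ext fun z => ?_
    simp [hee, hse, hb.symm e s, hb.symm w e, hwe, hb.symm w s, hws]
  have hdd' : ∀ w w', b s w = 0 → b e w = 0 → b s w' = 0 → b e w' = 0 → S w' w := by
    intro w w' hws hwe hws' hwe' k
    have h1 := br' (hsd w hws hwe) e w' he hee hwe' k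
    have h4 := hsE (k * b w' w)
    have h6 := T.add_mem h1 h4
    convert h6 using 1
    refine LinearMap.ext fun z => ?_
    simp only [LinearMap.smul_apply, LinearMap.add_apply, wedge_apply, map_sub, map_smul, smul_eq_mul, hse, hee,
      hws, hwe, hws', hwe', hb.symm e s, hb.symm w' s, hb.symm w' e, hb.symm w s, hb.symm w e, LinearMap.sub_apply]
    module
  have hrow : ∀ a, b s a = 0 → b e a = 0 → ∀ c, S a c := fun a ha ha' c => by
    obtain ⟨h1, h1'⟩ := hb.split_pair hss hee hse c
    have := S_add (S_add (hdd' _ a h1 h1' ha ha') (S_smul (b c e) (S_comm (hsd a ha ha'))))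
      (S_smul (b c s) (S_comm (hed a ha ha')))
    rwa [show c - b c e • s - b c s • e + b c e • s + b c s • e = c by abel] at this
  intro a c
  obtain ⟨g1, g1'⟩ := hb.split_pair hss hee hse a
  obtain ⟨g2, g2'⟩ := hb.split_pair hss hee hse c
  have col : ∀ v, (v = s ∨ v = e) → S v c := fun v hv => by
    have hvc : S v (c - b c e • s - b c s • e) := by
      rcases hv with rfl | rfl
      · exact hsd _ g2 g2'
      · exact hed _ g2 g2'
    have hvs : S v s ∧ S v e := by
      rcases hv with rfl | rfl
      · exact ⟨S_self v, hsE⟩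
      · exact ⟨S_comm hsE, S_self v⟩
    have := S_add (S_add hvc (S_smul (b c e) hvs.1)) (S_smul (b c s) hvs.2)
    rwa [show c - b c e • s - b c s • e + b c e • s + b c s • e = c by abel] at this
  have h1 := hrow _ g1 g1' c
  have := S_add (S_add (S_comm h1) (S_smul (b a e) (S_comm (col s (Or.inl rfl)))))
    (S_smul (b a s) (S_comm (col e (Or.inr rfl))))
  rw [show a - b a e • s - b a s • e + b a e • s + b a s • e = a by abel] at this
  simpa using S_comm this 1

end Nice

end CfsgLib.OTensor96
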