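import Cfsg.Agent.OTensor96.Commute
import Cfsg.Agent.FieldExtMax.Basic

/-!
A vector space carrying the tensor product of two symmetric forms: contractions and tensor maps.
-/

set_option autoImplicit false
set_option linter.unusedSectionVars false
set_option linter.unusedVariables false
set_option linter.unusedSimpArgs false

namespace CfsgLib.OTensor96

open Module CfsgLib.FieldExtMax

/-- The data of a tensor decomposition of a symmetric form into symmetric forms. -/
structure Setting (F A B V : Type*) [Field F] [AddCommGroup A] [Module F A] [AddCommGroup B]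
    [Module F B] [AddCommGroup V] [Module F V] where
  /-- the first factor -/
  f : LinearMap.BilinForm F A
  /-- the second factor -/
  be : LinearMap.BilinForm F B
  /-- the form -/
  form : LinearMap.BilinForm F V
  /-- the pure tensors -/
  tp : A →ₗ[F] B →ₗ[F] V
  fN : Nice f
  beN : Nice be
  form_symm : ∀ X Y, form X Y = form Y X
  form_tp : ∀ a w a' w', form (tp a w) (tp a' w') = f a a' * be w w'
  form_ext : ∀ X, (∀ a w, form X (tp a w) = 0) → X = 0

variable {F A B V : Type*} [Field F] [AddCommGroup A] [Module F A] [AddCommGroup B]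
  [Module F B] [AddCommGroup V] [Module F V]

namespace Setting

variable (S : Setting F A B V)

lemma form_eq_of_forall {X Y : V} (h : ∀ a w, S.form X (S.tp a w) = S.form Y (S.tp a w)) : X = Y :=
  sub_eq_zero.1 (S.form_ext _ fun a w => by simp [h])

variable [FiniteDimensional F A] [FiniteDimensional F B]

/-- The contraction with a vector of the second factor. -/
noncomputable def con : B →ₗ[F] V →ₗ[F] A :=
  LinearMap.mk₂ F (fun w X => (S.f.toDual S.fN.nondeg).symm ((S.form X).comp (S.tp.flip w)))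
    (fun a a' X => by simp [LinearMap.comp_add])
    (fun c a X => by simp [LinearMap.comp_smul])
    (fun a X X' => by simp [LinearMap.add_comp])
    (fun c a X => by simp [LinearMap.smul_comp])

/-- The contraction with a vector of the first factor. -/
noncomputable def pi : A →ₗ[F] V →ₗ[F] B :=
  LinearMap.mk₂ F (fun a X => (S.be.toDual S.beN.nondeg).symm ((S.form X).comp (S.tp a)))
    (fun a a' X => by simp [LinearMap.comp_add])
    (fun c a X => by simp [LinearMap.comp_smul])
    (fun a X X' => by simp [LinearMap.add_comp])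
    (fun c a X => by simp [LinearMap.smul_comp])

lemma f_con (w : B) (X : V) (a : A) : S.f (S.con w X) a = S.form X (S.tp a w) := by
  rw [← LinearMap.BilinForm.toDual_def S.fN.nondeg]
  simp [con]

lemma be_pi (a : A) (X : V) (w : B) : S.be (S.pi a X) w = S.form X (S.tp a w) := by
  rw [← LinearMap.BilinForm.toDual_def S.beN.nondeg]
  simp [pi]

lemma be_pi_con (X : V) (a : A) (w : B) : S.be (S.pi a X) w = S.f (S.con w X) a := by
  rw [S.be_pi, S.f_con]

@[simp] lemma con_tp (v w : B) (c : A) : S.con v (S.tp c w) = S.be w v • c :=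
  S.fN.ext_left fun x => by
    rw [S.f_con, S.form_tp, map_smul, LinearMap.smul_apply, smul_eq_mul, mul_comm]

@[simp] lemma pi_tp (a c : A) (w : B) : S.pi a (S.tp c w) = S.f c a • w :=
  S.beN.ext_left fun v => by rw [S.be_pi, S.form_tp, map_smul, LinearMap.smul_apply, smul_eq_mul]

lemma ext_con {X Y : V} (h : ∀ w, S.con w X = S.con w Y) : X = Y :=
  S.form_eq_of_forall fun a w => by rw [← S.f_con, ← S.f_con, h]

/-- The expansion of a vector along a basis of the second factor. -/
lemma expand {κ : Type*} [Fintype κ] [DecidableEq κ] (b : Basis κ F B) (X : V) :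
    X = ∑ i, S.tp (S.con (b i) X) (S.be.dualBasis S.beN.nondeg b i) := by
  refine S.form_eq_of_forall fun a w => ?_
  rw [map_sum, LinearMap.sum_apply]
  simp only [S.form_tp, ← S.be_pi_con]
  conv_lhs => rw [← S.be_pi, ← (S.be.dualBasis S.beN.nondeg b).sum_repr (S.pi a X)]
  simp [LinearMap.BilinForm.dualBasis_repr_apply]

/-- Linear maps agreeing on pure tensors are equal. -/
lemma hom_ext {W : Type*} [AddCommGroup W] [Module F W] {g h : V →ₗ[F] W}
    (e : ∀ a w, g (S.tp a w) = h (S.tp a w)) : g = h := by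
  classical
  refine LinearMap.ext fun X => ?_
  rw [S.expand (Module.finBasis F B) X, map_sum, map_sum]
  exact Finset.sum_congr rfl fun i _ => e _ _

lemma finiteDimensional (S : Setting F A B V) : FiniteDimensional F V := by
  classical
  let g : (Fin (finrank F B) → A) →ₗ[F] V :=
    ∑ i, (S.tp.flip (S.be.dualBasis S.beN.nondeg (Module.finBasis F B) i)) ∘ₗ LinearMap.proj i
  refine Module.Finite.of_surjective g fun X => ⟨fun i => S.con (Module.finBasis F B i) X, ?_⟩
  simp only [g, LinearMap.sum_apply, LinearMap.comp_apply, LinearMap.proj_apply, LinearMap.flip_apply]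
  exact (S.expand (Module.finBasis F B) X).symm

/-- A tensor map. -/
def IsT (g : V ≃ₗ[F] V) : Prop :=
  ∃ (x : A ≃ₗ[F] A) (y : B ≃ₗ[F] B), ∀ a w, g (S.tp a w) = S.tp (x a) (y w)

lemma isT_mul {g h : V ≃ₗ[F] V} (hg : S.IsT g) (hh : S.IsT h) : S.IsT (g * h) := by
  obtain ⟨x, y, hg⟩ := hg
  obtain ⟨x', y', hh⟩ := hh
  exact ⟨x'.trans x, y'.trans y, fun a w => by simp [hh, hg]⟩

lemma isT_inv {g : V ≃ₗ[F] V} (hg : S.IsT g) : S.IsT g⁻¹ := by
  obtain ⟨x, y, hg⟩ := hg
  refine ⟨x.symm, y.symm, fun a w => g.injective ?_⟩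
  rw [hg, x.apply_symm_apply, y.apply_symm_apply]
  exact g.apply_symm_apply _

/-- The tensor product of two linear maps. -/
noncomputable def tmap (x : A →ₗ[F] A) (y : B →ₗ[F] B) : V →ₗ[F] V :=
  ∑ i, (S.tp.flip (y (S.be.dualBasis S.beN.nondeg (Module.finBasis F B) i))) ∘ₗ x ∘ₗ
    S.con (Module.finBasis F B i)

@[simp] lemma tmap_tp (x : A →ₗ[F] A) (y : B →ₗ[F] B) (a : A) (w : B) :
    S.tmap x y (S.tp a w) = S.tp (x a) (y w) := by
  conv_rhs => rw [← (S.be.dualBasis S.beN.nondeg (Module.finBasis F B)).sum_repr w, map_sum, map_sum]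
  rw [tmap, LinearMap.sum_apply]
  refine Finset.sum_congr rfl fun i _ => ?_
  simp [LinearMap.BilinForm.dualBasis_repr_apply]

/-- The tensor product of two automorphisms. -/
noncomputable def tequiv (x : A ≃ₗ[F] A) (y : B ≃ₗ[F] B) : V ≃ₗ[F] V :=
  LinearEquiv.ofLinearMap (S.tmap (x : A →ₗ[F] A) (y : B →ₗ[F] B))
    (S.tmap (x.symm : A →ₗ[F] A) (y.symm : B →ₗ[F] B))
    (S.hom_ext fun a w => by simp) (S.hom_ext fun a w => by simp)

@[simp] lemma tequiv_tp (x : A ≃ₗ[F] A) (y : B ≃ₗ[F] B) (a : A) (w : B) :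
    S.tequiv x y (S.tp a w) = S.tp (x a) (y w) := by simp [tequiv]

lemma isT_tequiv (x : A ≃ₗ[F] A) (y : B ≃ₗ[F] B) : S.IsT (S.tequiv x y) :=
  ⟨x, y, S.tequiv_tp x y⟩

lemma equiv_ext {g h : V ≃ₗ[F] V} (e : ∀ a w, g (S.tp a w) = h (S.tp a w)) : g = h :=
  LinearEquiv.ext fun X => LinearMap.congr_fun
    (S.hom_ext (g := (g : V →ₗ[F] V)) (h := (h : V →ₗ[F] V)) e) X

lemma preserves_of_tp {g : V ≃ₗ[F] V}
    (h : ∀ a w a' w', S.form (g (S.tp a w)) (g (S.tp a' w')) = S.f a a' * S.be w w') (X Y : V) :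
    S.form (g X) (g Y) = S.form X Y := by
  have h1 : S.form.compl₁₂ (g : V →ₗ[F] V) (g : V →ₗ[F] V) = S.form :=
    S.hom_ext fun a w => S.hom_ext fun a' w' => by simp [h, S.form_tp]
  exact LinearMap.congr_fun₂ h1 X Y

lemma tp_injective {w : B} (hw : w ≠ 0) : Function.Injective fun a => S.tp a w := by
  obtain ⟨v, hv⟩ : ∃ v, S.be w v ≠ 0 := by
    by_contra! h
    exact hw (S.beN.nd w h)
  intro a a' h
  exact smul_right_injective A hv (by simpa using congrArg (S.con v) h)

lemma tp_eq_zero {a : A} {w : B} (hw : w ≠ 0) (h : S.tp a w = 0) : a = 0 :=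
  S.tp_injective hw (by simp [h])

lemma tp_ne_zero {a : A} {w : B} (ha : a ≠ 0) (hw : w ≠ 0) : S.tp a w ≠ 0 :=
  fun h => ha (S.tp_eq_zero hw h)

/-- The member `A ⊗ w`. -/
def mem (w : B) : Submodule F V := LinearMap.range (S.tp.flip w)

omit [FiniteDimensional F A] [FiniteDimensional F B] in
lemma mem_mem {w : B} {X : V} : X ∈ S.mem w ↔ ∃ a, S.tp a w = X := LinearMap.mem_range

omit [FiniteDimensional F A] [FiniteDimensional F B] in
lemma tp_mem (a : A) (w : B) : S.tp a w ∈ S.mem w := S.mem_mem.2 ⟨a, rfl⟩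

lemma finrank_mem {w : B} (hw : w ≠ 0) : finrank F (S.mem w) = finrank F A := by
  rw [mem, LinearMap.finrank_range_of_inj]
  exact S.tp_injective hw

lemma con_tequiv (x : A ≃ₗ[F] A) (y : B ≃ₗ[F] B) (w : B) (hy : ∀ v, S.be (y v) (y w) = S.be v w) (X : V) :
    S.con (y w) (S.tequiv x y X) = x (S.con w X) :=
  LinearMap.congr_fun (S.hom_ext (g := S.con (y w) ∘ₗ (S.tequiv x y : V →ₗ[F] V))
    (h := (x : A →ₗ[F] A) ∘ₗ S.con w) fun a v => by simp [hy]) X

lemma con_left (x : A ≃ₗ[F] A) (w : B) (X : V) :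
    S.con w (S.tequiv x (LinearEquiv.refl F B) X) = x (S.con w X) :=
  S.con_tequiv x (LinearEquiv.refl F B) w (fun v => rfl) X

lemma form_con (X : V) (a : A) (w : B) : S.form X (S.tp a w) = S.f (S.con w X) a := (S.f_con w X a).symm

lemma form_tp_left (X : V) (a : A) (w : B) : S.form (S.tp a w) X = S.f a (S.con w X) := by
  rw [S.form_symm, S.form_con, S.fN.symm]

/-- Vectors killed by all contractions orthogonal to `w` lie in its member. -/
lemma eq_tp_of_con {w w' : B} (h : S.be w w' = 1) {X : V} (hX : ∀ c, S.be w c = 0 → S.con c X = 0) :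
    X = S.tp (S.con w' X) w := by
  refine S.ext_con fun c => ?_
  have h1 := hX (c - S.be w c • w') (by simp [h])
  rw [map_sub, map_smul, LinearMap.sub_apply, LinearMap.smul_apply, sub_eq_zero] at h1
  rw [h1, con_tp]

end Setting

/-- The standing hypotheses on a group of isometries. -/
structure Ctx [Finite F] [FiniteDimensional F A] [FiniteDimensional F B] (S : Setting F A B V)
    (M : Subgroup (V ≃ₗ[F] V)) : Prop where
  iso : ∀ g ∈ M, ∀ X Y, S.form (g X) (g Y) = S.form X Y
  left : ∀ s d (hs : S.f s s = 0) (hd : S.f s d = 0), S.tequiv (S.fN.sieE hs hd) (LinearEquiv.refl F B) ∈ M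
  right : ∀ s d (hs : S.be s s = 0) (hd : S.be s d = 0), S.tequiv (LinearEquiv.refl F A) (S.beN.sieE hs hd) ∈ M
  hA3 : 3 ≤ finrank F A
  hB5 : 5 ≤ finrank F B
  hk : 4 ≤ finrank F A ∨ ∃ k : F, k ≠ 0 ∧ k ^ 2 ≠ 1
  hAI : 5 ≤ finrank F A ∨ ∀ s y, s ≠ 0 → S.f s s = 0 → S.f y y = 0 → S.f s y = 0 → ∃ k : F, y = k • s
  hdvd : ¬ finrank F B ∣ finrank F A

end CfsgLib.OTensor96
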