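import Cfsg.Agent.OTensor96.Basic

/-!
Root coefficients of a member, and the unipotent elements fixing a member when there are none.
-/

set_option autoImplicit false
set_option linter.unusedSectionVars false
set_option linter.unusedVariables false
set_option linter.unusedSimpArgs false

namespace CfsgLib.OTensor96

open Module CfsgLib.FieldExtMax

variable {F A B V : Type*} [Field F] [AddCommGroup A] [Module F A] [AddCommGroup B]
  [Module F B] [AddCommGroup V] [Module F V] [FiniteDimensional F A] [FiniteDimensional F B]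
  {S : Setting F A B V}

namespace Nice

variable {W : Type*} [AddCommGroup W] [Module F W] [FiniteDimensional F W] {b : LinearMap.BilinForm F W}

/-- A hyperbolic pair orthogonal to a hyperbolic pair. -/
lemma exists_pair_perp [Finite F] (hb : Nice b) (h5 : 5 ≤ finrank F W) {w w' : W} (hww : b w w = 0)
    (hw'w' : b w' w' = 0) (hw : b w w' = 1) :
    ∃ u u', b w u = 0 ∧ b w' u = 0 ∧ b w u' = 0 ∧ b w' u' = 0 ∧ b u u = 0 ∧ b u' u' = 0 ∧ b u u' = 1 := by
  set P : Submodule F W := LinearMap.ker (b w) ⊓ LinearMap.ker (b w') with hP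
  have hfr : 3 ≤ finrank F P := by
    have h1 := Submodule.finrank_sup_add_finrank_inf_eq (LinearMap.ker (b w)) (LinearMap.ker (b w'))
    have h2 := Submodule.finrank_le (LinearMap.ker (b w) ⊔ LinearMap.ker (b w'))
    have h3 := LinearMap.finrank_range_add_finrank_ker (b w)
    have h4 := LinearMap.finrank_range_add_finrank_ker (b w')
    have g1 := Submodule.finrank_le (LinearMap.range (b w))
    have g2 := Submodule.finrank_le (LinearMap.range (b w'))
    rw [finrank_self] at g1 g2
    rw [hP]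
    omega
  obtain ⟨⟨u, hu⟩, hu0, huu⟩ := CfsgLib.C3Max.Orth.exists_isotropic hb.two
    (b.compl₁₂ P.subtype P.subtype) (fun x y => hb.symm _ _) hfr
  obtain ⟨huw, huw'⟩ := Submodule.mem_inf.1 hu
  rw [LinearMap.mem_ker] at huw huw'
  have huu : b u u = 0 := huu
  have hu0 : u ≠ 0 := fun h => hu0 (Subtype.ext h)
  obtain ⟨e, hee, hue⟩ := hb.exists_partner hu0 huu
  obtain ⟨h1, h2⟩ := hb.split_pair hww hw'w' hw e
  set e₁ := e - b e w' • w - b e w • w'
  have h3 : b u e₁ = 1 := by simp [e₁, hue, hb.symm u w, hb.symm u w', huw, huw']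
  refine ⟨u, e₁ - (b e₁ e₁ / 2) • u, huw, huw', by simp [h1, huw], by simp [h2, huw'], huu, ?_, by simp [h3, huu]⟩
  have := hb.two
  simp only [map_sub, map_smul, LinearMap.sub_apply, LinearMap.smul_apply, smul_eq_mul, huu, hb.symm e₁ u, h3]
  field_simp
  ring

/-- The orthogonal of a hyperbolic pair is spanned by its singular vectors. -/
lemma perp_induction [Finite F] (hb : Nice b) (h5 : 5 ≤ finrank F W) {w w' : W} (hww : b w w = 0)
    (hw'w' : b w' w' = 0) (hw : b w w' = 1) (p : W → Prop) (hadd : ∀ x y, p x → p y → p (x + y))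
    (hsmul : ∀ (c : F) x, p x → p (c • x))
    (h : ∀ u, b w u = 0 → b w' u = 0 → b u u = 0 → p u) {z : W} (hz : b w z = 0) (hz' : b w' z = 0) :
    p z := by
  obtain ⟨u, u', a1, a2, a3, a4, huu, hu'u', huu'⟩ := hb.exists_pair_perp h5 hww hw'w' hw
  obtain ⟨h1, h2⟩ := hb.split_pair huu hu'u' huu' z
  set y := z - b z u' • u - b z u • u' with hy
  have hy1 : b w y = 0 := by simp [hy, hz, a1, a3]
  have hy2 : b w' y = 0 := by simp [hy, hz', a2, a4]
  have hp : p (u - (b y y / 2) • u' + y) := h _ (by simp [a1, a3, hy1]) (by simp [a2, a4, hy2]) (by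
    have := hb.two
    simp only [map_add, map_sub, map_smul, LinearMap.add_apply, LinearMap.sub_apply, LinearMap.smul_apply,
      smul_eq_mul, huu, hu'u', huu', h1, h2, hb.symm y u, hb.symm y u', hb.symm u' u]
    field_simp
    ring)
  have hzd : z = (u - (b y y / 2) • u' + y) + (b z u' - 1) • u + (b z u + b y y / 2) • u' := by
    rw [hy]; module
  rw [hzd]
  exact hadd _ _ (hadd _ _ hp (hsmul _ _ (h u a1 a2 huu))) (hsmul _ _ (h u' a3 a4 hu'u'))

end Nice

namespace Setting

/-- The map `X ↦ τ(con w X) ⊗ w`. -/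
noncomputable def rootW (S : Setting F A B V) (w : B) (τ : A →ₗ[F] A) : V →ₗ[F] V :=
  S.tp.flip w ∘ₗ τ ∘ₗ S.con w

@[simp] lemma rootW_apply (w : B) (τ : A →ₗ[F] A) (X : V) :
    S.rootW w τ X = S.tp (τ (S.con w X)) w := rfl

/-- A Siegel map of the second factor on the whole space. -/
lemma right_sie_apply {s d : B} (hs : S.be s s = 0) (hd : S.be s d = 0) (X : V) :
    S.tequiv (LinearEquiv.refl F A) (S.beN.sieE hs hd) X =
      X + S.tp (S.con s X) d - S.tp (S.con d X + (S.be d d / 2) • S.con s X) s := by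
  have := S.hom_ext (g := (S.tequiv (LinearEquiv.refl F A) (S.beN.sieE hs hd) : V →ₗ[F] V))
    (h := LinearMap.id + S.tp.flip d ∘ₗ S.con s - S.tp.flip s ∘ₗ (S.con d + (S.be d d / 2) • S.con s))
    fun a w => by
      simp [smul_smul, add_smul]
  exact LinearMap.congr_fun this X

end Setting

section

variable [Finite F] {M : Subgroup (V ≃ₗ[F] V)}

/-- The coefficients of the root elements of a singular member. -/
def Coef (S : Setting F A B V) (M : Subgroup (V ≃ₗ[F] V)) (w : B) (hw : S.be w w = 0) :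
    AddSubgroup (A →ₗ[F] A) where
  carrier := {τ | InM M (S.rootW w τ)}
  zero_mem' := InM.zero.congr fun X => by simp
  add_mem' := fun {τ τ'} h h' => (h.add h' fun X => by simp [hw]).congr fun X => by simp
  neg_mem' := fun {τ} h => (h.neg fun X => by simp [hw]).congr fun X => by simp

/-- No member has a root coefficient. -/
def Clean (S : Setting F A B V) (M : Subgroup (V ≃ₗ[F] V)) : Prop :=
  ∀ w (hw : S.be w w = 0), w ≠ 0 → ∀ τ ∈ Coef S M w hw, τ = 0

namespace Ctx

variable (H : Ctx S M)
include H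

lemma coef_skew {w : B} {hw : S.be w w = 0} (hw0 : w ≠ 0) {τ : A →ₗ[F] A} (hτ : τ ∈ Coef S M w hw)
    (a a' : A) : S.f (τ a) a' = - S.f a (τ a') := by
  obtain ⟨g, hg, hgX⟩ := hτ
  obtain ⟨w', hw', hww'⟩ := S.beN.exists_partner hw0 hw
  have h1 := H.iso g hg (S.tp a w') (S.tp a' w')
  rw [hgX, hgX] at h1
  simp [S.form_tp, hw, hw', hww', S.beN.symm w' w] at h1
  linear_combination h1

lemma coef_conj {w : B} {hw : S.be w w = 0} {τ : A →ₗ[F] A} (hτ : τ ∈ Coef S M w hw) {s d : A}
    (hs : S.f s s = 0) (hd : S.f s d = 0) : sieConj S.f s d τ ∈ Coef S M w hw := by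
  refine (hτ.conj (H.left s d hs hd)).congr fun X => ?_
  obtain ⟨Y, rfl⟩ := (S.tequiv (S.fN.sieE hs hd) (LinearEquiv.refl F B)).surjective X
  change _ = S.tequiv (S.fN.sieE hs hd) (LinearEquiv.refl F B) (S.rootW w τ
    ((S.tequiv (S.fN.sieE hs hd) (LinearEquiv.refl F B)).symm _))
  rw [LinearEquiv.symm_apply_apply, Setting.rootW_apply, Setting.rootW_apply, S.con_left, sieConj_apply,
    S.tequiv_tp, Nice.sieE_apply, S.fN.sie_neg_comp hs hd, Nice.sieE_apply, LinearEquiv.refl_apply]

/-- A root coefficient gives all of them. -/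
lemma roots_of_not_clean (h : ¬ Clean S M) {v : B} (hv0 : v ≠ 0) (hv : S.be v v = 0) (a a' : A) :
    InM M (S.rootW v (wedge S.f a a')) := by
  unfold Clean at h
  push Not at h
  obtain ⟨w, hw, hw0, τ, hτ, hτ0⟩ := h
  have hall : ∀ a a', InM M (S.rootW w (wedge S.f a a')) :=
    S.fN.wedge_mem H.hA3 H.hAI (T := Coef S M w hw) (fun τ hτ => H.coef_skew hw0 hτ)
      (fun τ hτ s d _ hs hd => H.coef_conj hτ hs hd) hτ hτ0
  have move : ∀ {u v z : B}, S.be u u = 0 → S.be v v = 0 → S.be z z = 0 → S.be z u ≠ 0 → S.be z v ≠ 0 →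
      (∀ a a', InM M (S.rootW u (wedge S.f a a'))) → ∀ a a', InM M (S.rootW v (wedge S.f a a')) := by
    intro u v z hu hv hz hzu hzv hU a a'
    obtain ⟨d, hd, c, hc, hdc⟩ := S.beN.exists_step hu hv hz hzu hzv
    refine ((hU (c⁻¹ • a) (c⁻¹ • a')).conj (H.right z d hz hd)).congr fun X => ?_
    obtain ⟨Y, rfl⟩ := (S.tequiv (LinearEquiv.refl F A) (S.beN.sieE hz hd)).surjective X
    change _ = S.tequiv (LinearEquiv.refl F A) (S.beN.sieE hz hd) (S.rootW u _
      ((S.tequiv (LinearEquiv.refl F A) (S.beN.sieE hz hd)).symm _))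
    have hcon := S.con_tequiv (LinearEquiv.refl F A) (S.beN.sieE hz hd) u
      (fun x => S.beN.b_sie hz hd x u) Y
    rw [Nice.sieE_apply, hdc, map_smul, LinearMap.smul_apply, LinearEquiv.refl_apply] at hcon
    rw [LinearEquiv.symm_apply_apply, Setting.rootW_apply, Setting.rootW_apply, S.tequiv_tp, Nice.sieE_apply,
      hdc, ← hcon]
    simp only [wedge_apply, map_smul, map_sub, LinearEquiv.refl_apply, LinearMap.smul_apply,
      LinearMap.sub_apply, smul_eq_mul]
    match_scalars <;> field_simp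
  by_cases hind : ∀ k : F, v ≠ k • w
  · obtain ⟨z, hz, hzw, hzv⟩ := S.beN.exists_common H.hB5 hw0 hv0 hw hv hind
    exact move hw hv hz hzw hzv hall a a'
  · push Not at hind
    obtain ⟨k, hk⟩ := hind
    have hk0 : k ≠ 0 := fun h => hv0 (by rw [hk, h, zero_smul])
    subst hk
    refine (hall (k • a) (k • a')).congr fun X => ?_
    simp only [Setting.rootW_apply, wedge_apply, map_smul, map_sub, LinearMap.smul_apply, LinearMap.sub_apply,
      smul_eq_mul]
    match_scalars <;> ring

end Ctx

end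

/-- An element fixing a member and acting trivially on its orthogonal modulo it. -/
structure Triv (S : Setting F A B V) (w : B) (g : V ≃ₗ[F] V) : Prop where
  iso : ∀ X Y, S.form (g X) (g Y) = S.form X Y
  fix : ∀ a, g (S.tp a w) = S.tp a w
  low : ∀ X, S.con w X = 0 → ∀ c, S.be w c = 0 → S.con c (g X) = S.con c X

namespace Triv

variable {w : B} {g h : V ≃ₗ[F] V}

lemma con_fix (hg : Triv S w g) (X : V) : S.con w (g X) = S.con w X :=
  S.fN.ext_left fun a => by
    rw [S.f_con, S.f_con]
    conv_lhs => rw [← hg.fix a]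
    exact hg.iso _ _

lemma mul (hg : Triv S w g) (hh : Triv S w h) : Triv S w (g * h) where
  iso X Y := by rw [LinearEquiv.mul_apply, LinearEquiv.mul_apply, hg.iso, hh.iso]
  fix a := by rw [LinearEquiv.mul_apply, hh.fix, hg.fix]
  low X hX c hc := by
    rw [LinearEquiv.mul_apply, hg.low _ (by rw [hh.con_fix, hX]) c hc, hh.low X hX c hc]

lemma one : Triv S w 1 := ⟨fun _ _ => rfl, fun _ => rfl, fun _ _ _ _ => rfl⟩

lemma inv (hg : Triv S w g) : Triv S w g⁻¹ where
  iso X Y := by
    conv_lhs => rw [← hg.iso]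
    rw [← LinearEquiv.mul_apply, ← LinearEquiv.mul_apply, mul_inv_cancel]; rfl
  fix a := g.injective (by rw [← LinearEquiv.mul_apply, mul_inv_cancel, hg.fix]; rfl)
  low X hX c hc := by
    have h0 : S.con w (g⁻¹ X) = 0 := by
      rw [← hg.con_fix, ← LinearEquiv.mul_apply, mul_inv_cancel]; exact hX
    have := hg.low _ h0 c hc
    rw [← LinearEquiv.mul_apply, mul_inv_cancel] at this
    exact this.symm

/-- Conjugation by a tensor isometry fixing the vector. -/
lemma conj (hg : Triv S w g) (x : A ≃ₗ[F] A) (y : B ≃ₗ[F] B) (hx : ∀ a a', S.f (x a) (x a') = S.f a a')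
    (hy : ∀ u v, S.be (y u) (y v) = S.be u v) (hyw : y w = w) :
    Triv S w (S.tequiv x y * g * (S.tequiv x y)⁻¹) := by
  set k := S.tequiv x y
  have hk : ∀ X Y, S.form (k X) (k Y) = S.form X Y :=
    S.preserves_of_tp fun a u a' u' => by rw [S.tequiv_tp, S.tequiv_tp, S.form_tp, hx, hy]
  have hcon : ∀ X, S.con w (k X) = x (S.con w X) := fun X => by
    have := S.con_tequiv x y w (fun v => hy v w) X
    rwa [hyw] at this
  refine ⟨fun X Y => ?_, fun a => ?_, fun X hX c hc => ?_⟩
  · rw [LinearEquiv.mul_apply, LinearEquiv.mul_apply, LinearEquiv.mul_apply, LinearEquiv.mul_apply, hk, hg.iso,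
      ← hk]
    rw [← LinearEquiv.mul_apply, ← LinearEquiv.mul_apply, mul_inv_cancel]; rfl
  · obtain ⟨a, rfl⟩ := x.surjective a
    rw [LinearEquiv.mul_apply, LinearEquiv.mul_apply,
      show k⁻¹ (S.tp (x a) w) = S.tp a w from k.injective (by
        rw [← LinearEquiv.mul_apply, mul_inv_cancel, S.tequiv_tp, hyw]; rfl),
      hg.fix, S.tequiv_tp, hyw]
  · obtain ⟨Y, rfl⟩ := k.surjective X
    obtain ⟨c, rfl⟩ := y.surjective c
    rw [hcon, LinearEquiv.map_eq_zero_iff] at hX
    rw [LinearEquiv.mul_apply, LinearEquiv.mul_apply, ← LinearEquiv.mul_apply k⁻¹, inv_mul_cancel,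
      LinearEquiv.coe_one, id_eq, S.con_tequiv x y c (fun v => hy v c), S.con_tequiv x y c (fun v => hy v c),
      hg.low Y hX c (by rwa [← hyw, hy] at hc)]

lemma of_right {d : B} (hw : S.be w w = 0) (hd : S.be w d = 0) :
    Triv S w (S.tequiv (LinearEquiv.refl F A) (S.beN.sieE hw hd)) where
  iso := S.preserves_of_tp fun a u a' u' => by
    rw [S.tequiv_tp, S.tequiv_tp, S.form_tp, LinearEquiv.refl_apply, LinearEquiv.refl_apply, Nice.sieE_apply,
      Nice.sieE_apply, S.beN.b_sie hw hd]
  fix a := by rw [S.tequiv_tp, LinearEquiv.refl_apply, Nice.sieE_apply, S.beN.sie_self hw hd]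
  low X hX c hc := by simp [S.right_sie_apply, hX, hc]

/-- The pairing of the two differences. -/
lemma pairing {w' : B} (hww' : S.be w w' = 1) (hg : Triv S w g) {Y : V} (hY : S.con w Y = 0) (X : V) :
    S.form (g Y - Y) X = - S.form Y (g X - X) := by
  have hs : g Y - Y = S.tp (S.con w' (g Y - Y)) w :=
    S.eq_tp_of_con hww' fun c hc => by rw [map_sub, hg.low Y hY c hc, sub_self]
  have h1 := hg.iso Y X
  have h2 : S.form (g Y - Y) (g X - X) = 0 := by
    rw [hs, S.form_symm, S.form_con, map_sub, hg.con_fix, sub_self]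
    simp
  simp only [map_sub, LinearMap.sub_apply] at h2 ⊢
  linear_combination h1 - h2

end Triv

variable [Finite F] {M : Subgroup (V ≃ₗ[F] V)}

/-- The components of the difference of an element of the unipotent radical. -/
noncomputable def comp (S : Setting F A B V) (w' c : B) (g : V ≃ₗ[F] V) : A →ₗ[F] A :=
  S.con c ∘ₗ ((g : V →ₗ[F] V) - LinearMap.id) ∘ₗ S.tp.flip w'

@[simp] lemma comp_apply (w' c : B) (g : V ≃ₗ[F] V) (a : A) :
    comp S w' c g a = S.con c (g (S.tp a w') - S.tp a w') := rfl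

/-- An element of the unipotent radical with scalar components is a translation followed by a root element. -/
lemma Triv.exists_translation (h3 : 3 ≤ finrank F A) {w w' : B} (hw : S.be w w = 0)
    (hw' : S.be w' w' = 0) (hww' : S.be w w' = 1) {g : V ≃ₗ[F] V} (tg : Triv S w g)
    (hall : ∀ c, S.be w c = 0 → ∃ l : F, ∀ a, comp S w' c g a = l • a) :
    ∃ c, ∃ hc : S.be w c = 0, ∃ τ : A →ₗ[F] A, ∀ Y,
      ((S.tequiv (LinearEquiv.refl F A) (S.beN.sieE hw hc))⁻¹ * g) Y = Y + S.rootW w τ Y := by
  have hw'w : S.be w' w = 1 := by rw [S.beN.symm, hww']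
  -- the translation
  obtain ⟨a₀, a₁, -, -, ha⟩ := S.fN.exists_pair h3
  let L : B →ₗ[F] F :=
    { toFun := fun z => S.f (comp S w' (z - S.be w z • w') g a₀) a₁
      map_add' := fun z z' => by
        simp only [comp_apply, map_add, map_sub, map_smul, add_smul, LinearMap.add_apply, LinearMap.sub_apply]
        abel
      map_smul' := fun k z => by
        simp only [comp_apply, map_sub, map_smul, LinearMap.sub_apply, LinearMap.smul_apply, smul_eq_mul,
          RingHom.id_apply]
        ring }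
  set c₀ := (S.be.toDual S.beN.nondeg).symm L with hc₀
  have hL : ∀ z, S.be c₀ z = L z := fun z => by
    rw [← LinearMap.BilinForm.toDual_def S.beN.nondeg, hc₀, LinearEquiv.apply_symm_apply]
  have hlam : ∀ c, S.be w c = 0 → ∀ a, comp S w' c g a = S.be c₀ c • a := fun c hc a => by
    obtain ⟨l, hl⟩ := hall c hc
    have : S.be c₀ c = l := by
      rw [hL]
      change S.f (comp S w' (c - S.be w c • w') g a₀) a₁ = l
      rw [hc, zero_smul, sub_zero, hl, map_smul, LinearMap.smul_apply, ha, smul_eq_mul, mul_one]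
    rw [this, hl]
  have hc0w : S.be w c₀ = 0 := by
    rw [S.beN.symm, hL]
    change S.f (comp S w' (w - S.be w w • w') g a₀) a₁ = 0
    rw [hw, zero_smul, sub_zero, comp_apply, map_sub, tg.con_fix, sub_self]
    simp
  set e := S.tequiv (LinearEquiv.refl F A) (S.beN.sieE hw hc0w) with he
  have te := Triv.of_right (S := S) hw hc0w
  have t' := te.inv.mul tg
  have hcomp : ∀ c, S.be w c = 0 → ∀ a, comp S w' c (e⁻¹ * g) a = 0 := by
    intro c hc a
    have hz : S.con w (e⁻¹ (g (S.tp a w')) - S.tp a w') = 0 := by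
      rw [map_sub, te.inv.con_fix, tg.con_fix, sub_self]
    have h1 := te.low _ hz c hc
    rw [map_sub e, ← LinearEquiv.mul_apply e, mul_inv_cancel, LinearEquiv.coe_one, id_eq] at h1
    have h2 := hlam c hc a
    simp only [comp_apply, LinearEquiv.mul_apply, map_sub] at h1 h2 ⊢
    rw [← h1, sub_eq_zero]
    simp only [he, S.right_sie_apply, S.con_tp, map_add, map_sub, map_smul, LinearMap.add_apply,
      LinearMap.sub_apply, LinearMap.smul_apply, hc, hw'w, one_smul, zero_smul, sub_zero] at h2 ⊢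
    linear_combination (norm := module) h2
  have hX : ∀ a, (e⁻¹ * g) (S.tp a w') - S.tp a w' =
      S.tp (S.con w' ((e⁻¹ * g) (S.tp a w') - S.tp a w')) w :=
    fun a => S.eq_tp_of_con hww' fun c hc => hcomp c hc a
  have hker : ∀ Y, S.con w Y = 0 → (e⁻¹ * g) Y = Y := fun Y hY => by
    refine sub_eq_zero.1 (S.form_ext _ fun a z => ?_)
    have hz : z = (z - S.be w z • w') + S.be w z • w' := by abel
    rw [hz, map_add, map_smul, map_add, map_smul, smul_eq_mul]
    have h1 : S.form ((e⁻¹ * g) Y - Y) (S.tp a (z - S.be w z • w')) = 0 := by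
      rw [S.form_con, map_sub (S.con _) ((e⁻¹ * g) Y), t'.low Y hY _ (by simp [hww']), sub_self]
      simp
    rw [h1, t'.pairing hww' hY, hX, S.form_con, hY]
    simp
  set τ : A →ₗ[F] A := comp S w' w' (e⁻¹ * g) with hτ
  have hroot : ∀ Y, (e⁻¹ * g) Y = Y + S.rootW w τ Y := fun Y => by
    have h1 := hker (Y - S.tp (S.con w Y) w') (by rw [map_sub, S.con_tp, hw'w, one_smul, sub_self])
    rw [map_sub, sub_eq_iff_eq_add, sub_add_eq_add_sub, add_sub_assoc] at h1
    rw [h1, Setting.rootW_apply]
    congr 1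
    exact hX _
  exact ⟨c₀, hc0w, τ, hroot⟩

namespace Ctx

variable (H : Ctx S M)
include H

/-- Two elements of the unipotent radical pair symmetrically. -/
lemma symm_pair (hcl : Clean S M) {w w' : B} (hw : S.be w w = 0) (hww' : S.be w w' = 1) {g h : V ≃ₗ[F] V}
    (hg : g ∈ M) (hh : h ∈ M) (tg : Triv S w g) (th : Triv S w h) (a a' : A) :
    S.form (h (S.tp a w') - S.tp a w') (g (S.tp a' w') - S.tp a' w') =
      S.form (g (S.tp a w') - S.tp a w') (h (S.tp a' w') - S.tp a' w') := by
  have hw0 : w ≠ 0 := (S.beN.ne_zero_of_pair hww').1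
  set R : V →ₗ[F] V := ((g * h : V ≃ₗ[F] V) : V →ₗ[F] V) - ((h * g : V ≃ₗ[F] V) : V →ₗ[F] V) with hR
  have hker : ∀ Y, S.con w Y = 0 → R Y = 0 := fun Y hY => by
    obtain ⟨u₁, e1⟩ : ∃ u, g Y = Y + S.tp u w := ⟨_, sub_eq_iff_eq_add'.1 (S.eq_tp_of_con hww'
      (X := g Y - Y) fun c hc => by rw [map_sub, tg.low Y hY c hc, sub_self])⟩
    obtain ⟨u₂, e2⟩ : ∃ u, h Y = Y + S.tp u w := ⟨_, sub_eq_iff_eq_add'.1 (S.eq_tp_of_con hww'
      (X := h Y - Y) fun c hc => by rw [map_sub, th.low Y hY c hc, sub_self])⟩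
    simp only [hR, LinearMap.sub_apply, LinearEquiv.coe_coe, LinearEquiv.mul_apply]
    rw [e2, e1, map_add, map_add, tg.fix, th.fix, e1, e2]
    abel
  set X : A → V := fun a => S.tp a w' with hX
  have hRX : ∀ a, R (X a) = (g (h (X a) - X a) - (h (X a) - X a)) - (h (g (X a) - X a) - (g (X a) - X a)) := by
    intro a
    simp only [hR, LinearMap.sub_apply, LinearEquiv.coe_coe, LinearEquiv.mul_apply, map_sub]
    abel
  have hconD : ∀ {g : V ≃ₗ[F] V}, Triv S w g → ∀ a, S.con w (g (X a) - X a) = 0 := fun tg a => by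
    rw [map_sub, tg.con_fix, sub_self]
  have hmem : ∀ a, R (X a) = S.tp (S.con w' (R (X a))) w := fun a => S.eq_tp_of_con hww' fun c hc => by
    have l1 := tg.low _ (hconD th a) c hc
    have l2 := th.low _ (hconD tg a) c hc
    rw [hRX]
    simp only [map_sub] at l1 l2 ⊢
    linear_combination (norm := module) l1 - l2
  set τ : A →ₗ[F] A := S.con w' ∘ₗ R ∘ₗ S.tp.flip w' with hτ
  have hroot : ∀ Y, R Y = S.rootW w τ Y := fun Y => by
    have h0 : R (Y - S.tp (S.con w Y) w') = 0 :=
      hker _ (by rw [map_sub, S.con_tp, S.beN.symm, hww', one_smul, sub_self])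
    rw [map_sub, sub_eq_zero] at h0
    rw [h0, Setting.rootW_apply]
    exact hmem _
  have hτ0 : τ = 0 := hcl w hw hw0 τ ⟨g * h * g⁻¹ * h⁻¹,
    M.mul_mem (M.mul_mem (M.mul_mem hg hh) (M.inv_mem hg)) (M.inv_mem hh), fun Y => by
      obtain ⟨Z, rfl⟩ := (h * g).surjective Y
      have hcon : S.con w ((h * g) Z) = S.con w Z := by rw [LinearEquiv.mul_apply, th.con_fix, tg.con_fix]
      rw [Setting.rootW_apply, hcon, ← Setting.rootW_apply, ← hroot]
      have : (g * h * g⁻¹ * h⁻¹) ((h * g) Z) = (g * h) Z := by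
        rw [← LinearEquiv.mul_apply]
        congr 1
        group
      rw [this, hR, LinearMap.sub_apply]
      simp only [LinearEquiv.coe_coe]
      abel⟩
  have h0 : R (X a) = 0 := by rw [hroot, hτ0, Setting.rootW_apply, LinearMap.zero_apply, map_zero]; simp
  have := congrArg (fun Y => S.form Y (X a')) h0
  simp only [hRX, map_sub, LinearMap.sub_apply, LinearMap.map_zero₂] at this
  have p1 := tg.pairing hww' (hconD th a) (X a')
  have p2 := th.pairing hww' (hconD tg a) (X a')
  simp only [hX, map_sub, LinearMap.sub_apply] at this p1 p2 ⊢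
  linear_combination p1 - p2 - this

/-- Without root coefficients, the unipotent radical of a member lies in the second factor. -/
theorem eq_sie_of_triv (hcl : Clean S M) {w : B} (hw : S.be w w = 0) (hw0 : w ≠ 0) {g : V ≃ₗ[F] V}
    (hg : g ∈ M) (tg : Triv S w g) :
    ∃ c, ∃ hc : S.be w c = 0, g = S.tequiv (LinearEquiv.refl F A) (S.beN.sieE hw hc) := by
  obtain ⟨w', hw', hww'⟩ := S.beN.exists_partner hw0 hw
  have hw'w : S.be w' w = 1 := by rw [S.beN.symm, hww']
  -- symmetry
  have hsym : ∀ g ∈ M, Triv S w g → ∀ c, S.be w c = 0 → ∀ a a',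
      S.f (comp S w' c g a) a' = S.f a (comp S w' c g a') := by
    intro g hg tg c hc a a'
    have h1 := H.symm_pair hcl hw hww' hg (H.right w c hw hc) tg (Triv.of_right hw hc) a a'
    have hd : ∀ u, S.tequiv (LinearEquiv.refl F A) (S.beN.sieE hw hc) (S.tp u w') - S.tp u w' =
        S.tp u c - S.tp ((S.be w' c + S.be c c / 2) • u) w := fun u => by
      simp [S.right_sie_apply, hw'w, add_smul]
      abel
    have g1 : ∀ u, S.con w (g (S.tp u w') - S.tp u w') = 0 := fun u => by rw [map_sub, tg.con_fix, sub_self]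
    rw [hd, hd, map_sub S.form, LinearMap.sub_apply, map_sub (S.form _) (S.tp a' c), S.form_tp_left,
      S.form_tp_left, S.form_con, S.form_con, g1, g1] at h1
    simp only [map_zero, LinearMap.zero_apply, sub_zero] at h1
    rw [comp_apply, comp_apply]
    exact h1.symm
  -- scalar components at singular vectors
  have hsc : ∀ u, S.be w u = 0 → S.be w' u = 0 → S.be u u = 0 → ∃ l : F, ∀ a, comp S w' u g a = l • a := by
    intro u huw huw' huu
    rcases eq_or_ne u 0 with rfl | hu0
    · exact ⟨0, fun a => by simp⟩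
    let K : AddSubgroup (A →ₗ[F] A) :=
      { carrier := {σ | ∃ h ∈ M, Triv S w h ∧ comp S w' u h = σ}
        zero_mem' := ⟨1, M.one_mem, Triv.one, LinearMap.ext fun a => by simp⟩
        add_mem' := by
          rintro _ _ ⟨g₁, hg₁, t₁, rfl⟩ ⟨g₂, hg₂, t₂, rfl⟩
          refine ⟨g₁ * g₂, M.mul_mem hg₁ hg₂, t₁.mul t₂, LinearMap.ext fun a => ?_⟩
          have h0 : S.con w (g₂ (S.tp a w') - S.tp a w') = 0 := by rw [map_sub, t₂.con_fix, sub_self]
          have := t₁.low _ h0 u huw
          simp only [comp_apply, LinearMap.add_apply, LinearEquiv.mul_apply, map_sub] at this ⊢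
          linear_combination (norm := module) this
        neg_mem' := by
          rintro _ ⟨g₁, hg₁, t₁, rfl⟩
          refine ⟨g₁⁻¹, M.inv_mem hg₁, t₁.inv, LinearMap.ext fun a => ?_⟩
          have h0 : S.con w (g₁ (S.tp a w') - S.tp a w') = 0 := by rw [map_sub, t₁.con_fix, sub_self]
          have := t₁.inv.low _ h0 u huw
          rw [map_sub (g₁⁻¹ : V ≃ₗ[F] V), ← LinearEquiv.mul_apply, inv_mul_cancel] at this
          simp only [comp_apply, LinearMap.neg_apply, map_sub, LinearEquiv.coe_one, id_eq] at this ⊢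
          linear_combination (norm := module) -this }
    refine S.fN.scalar_of_commute H.hA3 H.hk (K := K) ?_ ?_ ?_ ⟨g, hg, tg, rfl⟩
    · rintro _ ⟨h, hh, th, rfl⟩
      exact hsym h hh th u huw
    · rintro _ ⟨g₁, hg₁, t₁, rfl⟩ _ ⟨g₂, hg₂, t₂, rfl⟩ a
      obtain ⟨v, hvu, hvw, hvw', hvv⟩ : ∃ v, S.be u v = 0 ∧ S.be w v = 0 ∧ S.be w' v = 0 ∧ S.be v v ≠ 0 := by
        by_contra! h0
        classical
        obtain ⟨e, hee, hue⟩ := S.beN.exists_partner hu0 huu
        obtain ⟨x, hx0, hx⟩ := S.beN.exists_perp_ne (Submodule.span F {w, w', u, e}) (by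
          have := finrank_span_le_card (R := F) (M := B) ({w, w', u, e} : Set B)
          have h' : ({w, w', u, e} : Set B).toFinset.card ≤ 4 := by
            simp only [Set.toFinset_insert, Set.toFinset_singleton]; exact Finset.card_le_four
          have := H.hB5
          omega)
        have hxw := hx w (Submodule.subset_span (by simp))
        have hxw' := hx w' (Submodule.subset_span (by simp))
        have hxu := hx u (Submodule.subset_span (by simp))
        have hxe := hx e (Submodule.subset_span (by simp))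
        refine hx0 (S.beN.nd x fun z => ?_)
        obtain ⟨g1, g2⟩ := S.beN.split_pair hw hw' hww' z
        set z' := z - S.be z w' • w - S.be z w • w'
        set e' := e - S.be e w' • w - S.be e w • w'
        have hue' : S.be u e' = 1 := by simp [e', hue, S.beN.symm u w, S.beN.symm u w', huw, huw']
        set z'' := z' - S.be u z' • e'
        have q1 : S.be u z'' = 0 := by simp [z'', hue']
        have q2 : S.be w z'' = 0 := by
          have := (S.beN.split_pair hw hw' hww' e).1
          simp [z'', e', g1, this]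
        have q3 : S.be w' z'' = 0 := by
          have := (S.beN.split_pair hw hw' hww' e).2
          simp [z'', e', g2, this]
        have h1 := h0 (x + z'') (by simp [hxu, q1]) (by simp [hxw, q2]) (by simp [hxw', q3])
        simp only [map_add, LinearMap.add_apply, h0 x hxu hxw hxw', h0 z'' q1 q2 q3, S.beN.symm z'' x,
          zero_add, add_zero, ← two_mul] at h1
        have h2 := (mul_eq_zero.1 h1).resolve_left S.beN.two
        have hxe' : S.be x e' = 0 := by
          simp [e', S.beN.symm x e, hxe, S.beN.symm x w, hxw, S.beN.symm x w', hxw']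
        simpa [z'', z', hxe', S.beN.symm x w, hxw, S.beN.symm x w', hxw'] using h2
      have hv' : S.be u (-v) = 0 := by simp [hvu]
      have key : ∀ (v : B) (hv : S.be u v = 0), S.be w v = 0 → S.be w' v = 0 → ∀ a a',
          S.form (S.tequiv (LinearEquiv.refl F A) (S.beN.sieE huu hv) (g₂ (S.tp a w') - S.tp a w'))
              (g₁ (S.tp a' w') - S.tp a' w') =
            S.form (g₁ (S.tp a w') - S.tp a w')
              (S.tequiv (LinearEquiv.refl F A) (S.beN.sieE huu hv) (g₂ (S.tp a' w') - S.tp a' w')) := by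
        intro v hv hvw hvw' a a'
        set y := S.beN.sieE huu hv
        set k := S.tequiv (LinearEquiv.refl F A) y
        have hk := H.right u v huu hv
        have hyw : y w = w := by simp [y, huw, hvw]
        have hfix : ∀ b, k⁻¹ (S.tp b w') = S.tp b w' := fun b => k.injective (by
          rw [← LinearEquiv.mul_apply, mul_inv_cancel, S.tequiv_tp]
          simp [y, huw', hvw'])
        have th := t₂.conj (LinearEquiv.refl F A) y (fun _ _ => rfl) (S.beN.b_sie huu hv) hyw
        have h1 := H.symm_pair hcl hw hww' hg₁ (M.mul_mem (M.mul_mem hk hg₂) (M.inv_mem hk)) t₁ th a a'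
        have hd : ∀ b, (k * g₂ * k⁻¹) (S.tp b w') - S.tp b w' = k (g₂ (S.tp b w') - S.tp b w') := fun b => by
          have hfix' : k (S.tp b w') = S.tp b w' := by
            conv_lhs => rw [← hfix b]
            rw [← LinearEquiv.mul_apply, mul_inv_cancel]
            rfl
          rw [LinearEquiv.mul_apply, LinearEquiv.mul_apply, hfix, map_sub k, hfix']
        rw [hd, hd] at h1
        exact h1
      refine S.fN.ext_left fun a' => ?_
      have k1 := key v hvu hvw hvw' a a'
      have k2 := key (-v) hv' (by simp [hvw]) (by simp [hvw']) a a'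
      have k3 := H.symm_pair hcl hw hww' hg₁ hg₂ t₁ t₂ a a'
      rw [hsym g₁ hg₁ t₁ u huw (comp S w' u g₂ a) a', hsym g₂ hg₂ t₂ u huw (comp S w' u g₁ a) a']
      simp only [comp_apply]
      generalize g₂ (S.tp a w') - S.tp a w' = p at k1 k2 k3 ⊢
      generalize g₁ (S.tp a' w') - S.tp a' w' = q at k1 k2 k3 ⊢
      generalize g₁ (S.tp a w') - S.tp a w' = r at k1 k2 k3 ⊢
      generalize g₂ (S.tp a' w') - S.tp a' w' = t at k1 k2 k3 ⊢
      simp only [S.right_sie_apply, map_add, map_sub, map_neg, map_smul, LinearMap.add_apply, LinearMap.sub_apply,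
        LinearMap.neg_apply, LinearMap.smul_apply, smul_eq_mul, neg_neg, S.form_tp_left, S.form_con] at k1 k2
      have := S.beN.two
      have : S.be v v * (S.f (S.con u p) (S.con u q) - S.f (S.con u r) (S.con u t)) = 0 := by
        linear_combination (norm := (field_simp; ring)) 2 * k3 - k1 - k2
      exact sub_eq_zero.1 ((mul_eq_zero.1 this).resolve_left hvv)
    · rintro _ ⟨g₁, hg₁, t₁, rfl⟩ s d hs hss hsd
      set x := S.fN.sieE hss hsd
      set k := S.tequiv x (LinearEquiv.refl F B)
      refine ⟨k * g₁ * k⁻¹, M.mul_mem (M.mul_mem (H.left s d hss hsd) hg₁) (M.inv_mem (H.left s d hss hsd)),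
        t₁.conj x _ (S.fN.b_sie hss hsd) (fun _ _ => rfl) rfl, LinearMap.ext fun a => ?_⟩
      have h1 : k⁻¹ (S.tp a w') = S.tp (sie S.f s (-d) a) w' := k.injective (by
        rw [← LinearEquiv.mul_apply, mul_inv_cancel, S.tequiv_tp, Nice.sieE_apply, S.fN.sie_comp_neg hss hsd]
        rfl)
      have h2 : S.tp a w' = k (S.tp (sie S.f s (-d) a) w') := by
        rw [S.tequiv_tp, Nice.sieE_apply, S.fN.sie_comp_neg hss hsd]; rfl
      simp only [comp_apply, sieConj_apply, LinearEquiv.mul_apply, h1]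
      conv_lhs => rw [h2, ← map_sub k, S.con_left]
      rfl
  -- all components are scalar
  have hall : ∀ c, S.be w c = 0 → ∃ l : F, ∀ a, comp S w' c g a = l • a := by
    intro c hc
    have hw0' : ∀ a, comp S w' w g a = 0 := fun a => by rw [comp_apply, map_sub, tg.con_fix, sub_self]
    have := S.beN.perp_induction H.hB5 hw hw' hww' (fun c => ∃ l : F, ∀ a, comp S w' c g a = l • a)
      (fun x y ⟨l, hl⟩ ⟨m, hm⟩ => ⟨l + m, fun a => by
        rw [comp_apply] at *
        rw [map_add, LinearMap.add_apply, ← comp_apply, ← comp_apply, hl, hm, add_smul]⟩)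
      (fun k x ⟨l, hl⟩ => ⟨k * l, fun a => by
        rw [comp_apply, map_smul, LinearMap.smul_apply, ← comp_apply, hl, smul_smul]⟩)
      hsc (z := c - S.be w' c • w) (by simp [hw, hc]) (by simp [hw'w])
    obtain ⟨l, hl⟩ := this
    refine ⟨l, fun a => ?_⟩
    simp only [comp_apply] at hw0' hl ⊢
    rw [← hl, map_sub S.con, map_smul S.con, LinearMap.sub_apply, LinearMap.smul_apply, hw0', smul_zero,
      sub_zero]
  obtain ⟨c₀, hc0w, τ, hroot⟩ := tg.exists_translation H.hA3 hw hw' hww' hall
  refine ⟨c₀, hc0w, ?_⟩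
  set e := S.tequiv (LinearEquiv.refl F A) (S.beN.sieE hw hc0w) with he
  have hmem : e⁻¹ * g ∈ M := M.mul_mem (M.inv_mem (H.right w c₀ hw hc0w)) hg
  have h0 := hcl w hw hw0 τ ⟨e⁻¹ * g, hmem, hroot⟩
  have h1 : e⁻¹ * g = 1 := LinearEquiv.ext fun Y => by
    rw [hroot, h0, Setting.rootW_apply, LinearMap.zero_apply, map_zero, LinearMap.zero_apply, add_zero]; rfl
  exact (inv_mul_eq_one.1 h1).symm

end Ctx

end CfsgLib.OTensor96
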