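import Cfsg.Agent.OTensor96.Alg

/-!
Commuting families of symmetric maps invariant under the Siegel maps consist of scalars.
-/

set_option autoImplicit false
set_option linter.unusedSectionVars false
set_option linter.unusedVariables false
set_option linter.unusedSimpArgs false

namespace CfsgLib.OTensor96

open Module

variable {F W : Type*} [Field F] [AddCommGroup W] [Module F W] [FiniteDimensional F W] [Finite F]
  {b : LinearMap.BilinForm F W}

/-- Conjugation by a Siegel map, as a linear map. -/
noncomputable def sieConj (b : LinearMap.BilinForm F W) (s d : W) : (W →ₗ[F] W) →ₗ[F] (W →ₗ[F] W) :=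
  (LinearMap.llcomp F W W W (sie b s d)) ∘ₗ (LinearMap.lcomp F W (sie b s (-d)))

@[simp] lemma sieConj_apply (s d : W) (σ : W →ₗ[F] W) (z : W) :
    sieConj b s d σ z = sie b s d (σ (sie b s (-d) z)) := rfl

namespace Nice

lemma sieConj_comp (hb : Nice b) {s d d' : W} (hs : b s s = 0) (hd : b s d = 0) (hd' : b s d' = 0)
    (σ : W →ₗ[F] W) : sieConj b s d (sieConj b s d' σ) = sieConj b s (d + d') σ := by
  refine LinearMap.ext fun z => ?_
  simp only [sieConj_apply]
  rw [hb.sie_comp hs hd hd', hb.sie_comp hs (by simp [hd']) (by simp [hd]), neg_add_rev]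

lemma sieConj_scalar (hb : Nice b) {s d : W} (hs : b s s = 0) (hd : b s d = 0) {σ : W →ₗ[F] W} {l : F}
    (h : ∀ z, σ z = l • z) : sieConj b s d σ = σ := by
  refine LinearMap.ext fun z => ?_
  rw [sieConj_apply, h, map_smul, hb.sie_comp_neg hs hd, h]

/-- Iterating the differences along the Siegel maps of one singular vector ends at a fixed non-scalar map. -/
lemma exists_fixed_mod_scalar (hb : Nice b) {K : AddSubgroup (W →ₗ[F] W)}
    (hconj : ∀ σ ∈ K, ∀ s d, s ≠ 0 → b s s = 0 → b s d = 0 → sieConj b s d σ ∈ K)
    {s : W} (hs : s ≠ 0) (hss : b s s = 0) {σ₀ : W →ₗ[F] W} (hσ₀ : σ₀ ∈ K)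
    (hns : ∀ l : F, ∃ z, σ₀ z ≠ l • z) :
    ∃ σ ∈ K, (∀ l : F, ∃ z, σ z ≠ l • z) ∧
      ∀ d, b s d = 0 → ∃ l : F, ∀ z, sieConj b s d σ z - σ z = l • z := by
  classical
  have : Finite W := Module.finite_of_finite F
  let _ := Fintype.ofFinite W
  obtain ⟨p, hp⟩ := CharP.exists F
  have hp0 : p ≠ 0 := by
    rintro rfl
    have := CharP.charP_to_charZero F
    exact (not_finite_iff_infinite.2 inferInstance) (inferInstance : Finite F)
  have hprime : p.Prime := (CharP.char_is_prime_or_zero F p).resolve_right hp0
  have := Fact.mk hprime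
  suffices key : ∀ L : List W, ∃ σ ∈ K, (∀ l : F, ∃ z, σ z ≠ l • z) ∧
      ∀ d ∈ L, b s d = 0 → ∃ l : F, ∀ z, sieConj b s d σ z - σ z = l • z by
    obtain ⟨σ, h1, h2, h3⟩ := key Finset.univ.toList
    exact ⟨σ, h1, h2, fun d hd => h3 d (by simp) hd⟩
  intro L
  induction L with
  | nil => exact ⟨σ₀, hσ₀, hns, by simp⟩
  | cons d L ih =>
    obtain ⟨σ, hσ, hns, hL⟩ := ih
    by_cases hd : b s d = 0
    swap
    · exact ⟨σ, hσ, hns, fun d' hd' h' => by
        rcases List.mem_cons.1 hd' with rfl | h
        · exact absurd h' hd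
        · exact hL d' h h'⟩
    set T : Module.End F (Module.End F W) := sieConj b s d with hT
    have hTn : ∀ n : ℕ, T ^ n = sieConj b s ((n : F) • d) := by
      intro n
      induction n with
      | zero => exact LinearMap.ext fun σ => LinearMap.ext fun z => by simp
      | succ n ihn =>
        refine LinearMap.ext fun σ => ?_
        rw [pow_succ', Module.End.mul_apply, ihn, hT, hb.sieConj_comp hss hd (by simp [hd])]
        rw [show d + (n : F) • d = ((n + 1 : ℕ) : F) • d by push_cast; module]
    have hTp : T ^ p = 1 := by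
      rw [hTn, CharP.cast_eq_zero, zero_smul]
      exact LinearMap.ext fun σ => LinearMap.ext fun z => by simp
    have hnil : (T - 1) ^ p = 0 := by
      have : Nontrivial W := ⟨⟨s, 0, hs⟩⟩
      have : CharP (Module.End F (Module.End F W)) p :=
        charP_of_injective_algebraMap (FaithfulSMul.algebraMap_injective F _) p
      rw [sub_pow_char_of_commute p (Commute.one_right T), hTp, one_pow, sub_self]
    -- the last non-scalar difference
    set D : Module.End F (Module.End F W) := T - 1 with hD
    have hex : ∃ j, ∃ l : F, ∀ z, (D ^ j) σ z = l • z :=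
      ⟨p, 0, fun z => by rw [hD, hnil]; simp⟩
    obtain ⟨i, hi⟩ : ∃ i, Nat.find hex = i + 1 := Nat.exists_eq_succ_of_ne_zero fun h0 => by
      obtain ⟨l, hl⟩ := Nat.find_spec hex
      obtain ⟨z, hz⟩ := hns l
      exact hz (by simpa [h0] using hl z)
    have hmem : ∀ j, (D ^ j) σ ∈ K := by
      intro j
      induction j with
      | zero => simpa using hσ
      | succ j ihj =>
        rw [pow_succ', Module.End.mul_apply, hD, LinearMap.sub_apply, Module.End.one_apply, ← hD]
        exact K.sub_mem (hconj _ ihj s d hs hss hd) ihj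
    refine ⟨(D ^ i) σ, hmem i, fun l => ?_, fun d' hd' hsd' => ?_⟩
    · by_contra! h
      exact Nat.find_min hex (by omega) ⟨l, h⟩
    rcases List.mem_cons.1 hd' with rfl | h
    · obtain ⟨l, hl⟩ := Nat.find_spec hex
      refine ⟨l, fun z => ?_⟩
      rw [hi, pow_succ', Module.End.mul_apply] at hl
      exact hl z
    obtain ⟨l, hl⟩ := hL d' h hsd'
    have hcomm : ∀ j, sieConj b s d' ((D ^ j) σ) - (D ^ j) σ =
        (D ^ j) (l • LinearMap.id) := by
      intro j
      induction j with
      | zero => exact LinearMap.ext fun z => by simpa using hl z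
      | succ j ihj =>
        rw [pow_succ', Module.End.mul_apply, Module.End.mul_apply, ← ihj]
        simp only [hD, LinearMap.sub_apply, Module.End.one_apply, map_sub, hT]
        rw [hb.sieConj_comp hss hsd' hd, hb.sieConj_comp hss hd hsd', add_comm d']
    rcases i with _ | j
    · exact ⟨l, fun z => by simpa using hl z⟩
    refine ⟨0, fun z => ?_⟩
    have h1 := LinearMap.congr_fun (hcomm (j + 1)) z
    rw [pow_succ, Module.End.mul_apply, Module.End.mul_apply, LinearMap.sub_apply] at h1
    rw [pow_succ, Module.End.mul_apply, h1]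
    have : D (l • LinearMap.id) = 0 := by
      rw [hD, LinearMap.sub_apply, Module.End.one_apply, hT,
        hb.sieConj_scalar hss hd (l := l) (fun z => rfl), sub_self]
    rw [this, map_zero, LinearMap.zero_apply, zero_smul]

/-- A commuting family of symmetric maps which is invariant under the Siegel maps consists of scalars. -/
theorem scalar_of_commute (hb : Nice b) (h3 : 3 ≤ finrank F W)
    (hk : 4 ≤ finrank F W ∨ ∃ k : F, k ≠ 0 ∧ k ^ 2 ≠ 1) {K : AddSubgroup (W →ₗ[F] W)}
    (hsym : ∀ σ ∈ K, ∀ x y, b (σ x) y = b x (σ y))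
    (hcomm : ∀ σ ∈ K, ∀ σ' ∈ K, ∀ z, σ (σ' z) = σ' (σ z))
    (hconj : ∀ σ ∈ K, ∀ s d, s ≠ 0 → b s s = 0 → b s d = 0 → sieConj b s d σ ∈ K)
    {σ : W →ₗ[F] W} (hσ : σ ∈ K) : ∃ c : F, ∀ z, σ z = c • z := by
  have h2 := hb.two
  by_contra hns
  push Not at hns
  rcases hk with h4 | ⟨k, hk0, hk1⟩
  · -- a fixed point of the unipotent group of a singular vector
    obtain ⟨s, e, hss, hee, hse⟩ := hb.exists_pair h3
    obtain ⟨hs, he⟩ := hb.ne_zero_of_pair hse
    obtain ⟨P, hP, hPns, hPd⟩ := hb.exists_fixed_mod_scalar hconj hs hss hσ hns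
    have eqn : ∀ d, b s d = 0 → ∃ l : F, ∀ z, sie b s d (P z) - P (sie b s d z) = l • sie b s d z := by
      intro d hd
      obtain ⟨l, hl⟩ := hPd d hd
      refine ⟨l, fun z => ?_⟩
      have := hl (sie b s d z)
      rwa [sieConj_apply, hb.sie_neg_comp hss hd] at this
    have hsym' := hsym P hP
    have hlam : ∀ d, b s d = 0 → b e d = 0 → ∀ z, sie b s d (P z) = P (sie b s d z) := by
      intro d hd hde z
      by_cases hdd : b d d = 0
      · -- split a singular vector into two anisotropic ones
        obtain ⟨k₀, hk1, hk2, hkk⟩ := hb.exists_aniso_pair hss hee hse h3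
        obtain ⟨k', hk', hdk⟩ := hb.exists_aniso_shift hdd hkk
        have hk's : b s k' = 0 ∧ b e k' = 0 ∧ b k' k' ≠ 0 := by
          rcases hk' with rfl | rfl <;> simp [hk1, hk2, hkk]
        have main : ∀ d, b s d = 0 → b e d = 0 → b d d ≠ 0 → ∀ z, sie b s d (P z) = P (sie b s d z) := by
          intro d hd hde hdd z
          obtain ⟨l, hl⟩ := eqn d hd
          obtain ⟨w, hws, hwe, hdw, hww⟩ := hb.exists_aniso_pair_two hss hee hse h4 hd hde hdd
          have h1 := congrArg (fun v => b v w) (hl w)
          simp [hws, hdw, hb.symm w s, hb.symm w d, hww] at h1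
          have := hl z
          rwa [h1, zero_smul, sub_eq_zero] at this
        have g1 := main (d - k') (by simp [hd, hk's.1]) (by simp [hde, hk's.2.1]) hdk
        have g2 := main k' hk's.1 hk's.2.1 hk's.2.2
        rw [show d = (d - k') + k' by abel, ← hb.sie_comp hss (by simp [hd, hk's.1]) hk's.1, g2, g1,
          hb.sie_comp hss (by simp [hd, hk's.1]) hk's.1]
      · obtain ⟨l, hl⟩ := eqn d hd
        obtain ⟨w, hws, hwe, hdw, hww⟩ := hb.exists_aniso_pair_two hss hee hse h4 hd hde hdd
        have h1 := congrArg (fun v => b v w) (hl w)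
        simp [hws, hdw, hb.symm w s, hb.symm w d, hww] at h1
        have := hl z
        rwa [h1, zero_smul, sub_eq_zero] at this
    obtain ⟨y, hys, hye, hyy⟩ := hb.exists_aniso_pair hss hee hse h3
    have hPs0 : b (P s) s = 0 := by
      have := congrArg (fun v => b v y) (hlam y hys hye s)
      simp [hb.sie_self hss hys, hys] at this
      exact this.resolve_right hyy
    set c := b (P s) e
    have hPs : P s = c • s := hb.eq_smul_of_pair hss hee hse hPs0 fun d hd hde => by
      have := congrArg (fun v => b v e) (hlam d hd hde s)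
      simp [hb.sie_self hss hd, hb.symm d e, hde, hse, hPs0] at this
      exact this
    have hPy : ∀ z, b s z = 0 → b e z = 0 → ∀ d, b s d = 0 → b e d = 0 → b (P z) d = c * b z d := by
      intro z hzs hze d hd hde
      have h1 := congrArg (fun v => b v e) (hlam d hd hde z)
      simp only [sie_apply, map_add, map_sub, map_smul, LinearMap.add_apply, LinearMap.sub_apply,
        LinearMap.smul_apply, smul_eq_mul, hPs, hb.symm d e, hde, hse, hb.symm z s, hzs, hsym' z s] at h1
      linear_combination -h1
    have hPe : P e = c • e + b (P e) e • s := by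
      refine hb.ext_left fun x => ?_
      obtain ⟨h1, h1'⟩ := hb.split_pair hss hee hse x
      have g1 : b (P e) s = c := by rw [hsym', hb.symm]
      have g2 : ∀ d, b s d = 0 → b e d = 0 → b (P e) d = 0 := by
        intro d hd hde
        have h6 := congrArg (fun v => b v e) (hlam d hd hde e)
        simp only [sie_apply, map_add, map_sub, map_smul, LinearMap.add_apply, LinearMap.sub_apply,
          LinearMap.smul_apply, smul_eq_mul, hPs, hb.symm d e, hde, hse, hb.symm e s, g1, hsym' d e,
          hb.symm d (P e)] at h6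
        have : (2 : F) * b (P e) d = 0 := by
          linear_combination (norm := (field_simp; ring)) -h6
        exact (mul_eq_zero.1 this).resolve_left h2
      have := g2 _ h1 h1'
      simp [g1, hb.symm e x, hb.symm s x] at this ⊢
      linear_combination this
    set μ := b (P e) e
    have hμ : μ ≠ 0 := by
      intro h0
      obtain ⟨z, hz⟩ := hPns c
      refine hz (LinearMap.congr_fun (f := P) (g := c • LinearMap.id) (hb.ext_pair hss hee hse ?_ ?_ ?_) z)
      · simpa using hPs
      · simpa [h0] using hPe
      intro x hxx hxe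
      refine hb.ext_left fun w => ?_
      obtain ⟨g1, g1'⟩ := hb.split_pair hss hee hse x
      obtain ⟨g2, g2'⟩ := hb.split_pair hss hee hse w
      have hPw := hPy _ g1 g1' _ g2 g2'
      simp only [map_sub, map_smul, LinearMap.sub_apply, LinearMap.smul_apply, smul_eq_mul, hPs, hPe, h0,
        zero_smul, add_zero, hsym' x s, hsym' x e, hss, hee, hse, hb.symm e s, hb.symm w s, hb.symm w e,
        hb.symm x s, hb.symm x e] at hPw
      simp only [LinearMap.smul_apply, LinearMap.id_apply, smul_eq_mul, map_smul]
      linear_combination hPw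
    -- a conjugate
    have hes : b e s = 1 := by rw [hb.symm, hse]
    have hQ := hconj P hP e y he hee hye
    set E := sie b e y with hE
    have hEinv : sie b e (-y) s = s - y - (b y y / 2) • e := by
      simp [hse, hb.symm y s, hys]
      module
    have hPy' : P y = c • y := hb.ext_left fun w => by
      obtain ⟨g2, g2'⟩ := hb.split_pair hss hee hse w
      have := hPy y hys hye _ g2 g2'
      simp only [map_sub, map_smul, LinearMap.sub_apply, LinearMap.smul_apply, smul_eq_mul, hsym' y s, hsym' y e,
        hPs, hPe, hb.symm y s, hb.symm y e, hys, hye, map_add, LinearMap.add_apply] at this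
      simp only [LinearMap.smul_apply, smul_eq_mul, map_smul]
      linear_combination this
    set γ := -(b y y / 2) with hγ
    have hγ0 : γ ≠ 0 := neg_ne_zero.2 (div_ne_zero hyy h2)
    have hQs : sieConj b e y P s = c • s + (μ * γ) • E s := by
      rw [sieConj_apply, hEinv]
      simp only [map_sub P, map_smul P, hPs, hPy', hPe]
      rw [show c • s - c • y - (b y y / 2) • (c • e + μ • s) =
        c • (s - y - (b y y / 2) • e) + (μ * γ) • s by simp only [hγ]; module]
      rw [map_add, map_smul, map_smul, ← hEinv, hb.sie_comp_neg hee hye]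
    have hEs : P (E s) = c • E s + (μ * γ) • s := by
      have : E s = s + y - (b y y / 2) • e := by simp [hE, hse, hb.symm y s, hys]
      rw [this, map_sub, map_add, map_smul, hPs, hPy', hPe]
      simp only [hγ]
      module
    have h1 := hcomm P hP _ hQ s
    rw [hQs, map_add, map_smul, map_smul, hPs, map_smul, hQs, hEs] at h1
    have h5 : (μ * γ) • (μ * γ) • s = 0 := by linear_combination (norm := module) h1
    simp [hμ, hγ0, hs] at h5
  · -- polynomial identities in the parameter
    have van : ∀ s, b s s = 0 → b (σ s) s = 0 := by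
      intro s hss
      rcases eq_or_ne s 0 with rfl | hs
      · simp
      obtain ⟨e, hee, hse⟩ := hb.exists_partner hs hss
      obtain ⟨d, hds, hde, hdd⟩ := hb.exists_aniso_pair hss hee hse h3
      have hsy := hsym σ hσ
      have G : ∀ c : F, b (sie b s (c • d) (σ (sie b s (-(c • d)) e))) (σ s) -
          b (σ (sie b s (-(c • d)) (σ e))) (sie b s (-(c • d)) s) = 0 := by
        intro c
        have h1 := congrArg (fun v => b v s)
          (hcomm σ hσ _ (hconj σ hσ s (c • d) hs hss (by simp [hds])) e)
        simp only [sieConj_apply] at h1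
        rw [hsy] at h1
        rw [h1, sub_eq_zero, ← hb.b_sie hss (d := c • d) (by simp [hds])
          (σ (sie b s (-(c • d)) (σ e))) (sie b s (-(c • d)) s),
          hb.sie_comp_neg hss (by simp [hds])]
      have e1 := G k
      have e2 := G (-k)
      have e3 := G 1
      have e4 := G (-1)
      have e5 := G 0
      have n1 : b (σ s) d = b (σ d) s := by rw [hsy, hb.symm]
      have n2 : b (σ s) e = b (σ e) s := by rw [hsy, hb.symm]
      have n3 : b (σ d) e = b (σ e) d := by rw [hsy, hb.symm]
      simp only [sie_apply, map_add, map_sub, map_smul, map_neg, neg_smul, neg_neg, LinearMap.add_apply,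
        LinearMap.sub_apply, LinearMap.smul_apply, LinearMap.neg_apply, smul_eq_mul, hss, hee, hse, hds, hde,
        hb.symm e s, hb.symm d s, hb.symm d e, ← hsy, n1, n2, n3,
        one_mul, zero_mul, mul_zero, add_zero, zero_add, sub_zero, zero_smul, one_smul, neg_zero, zero_div, map_zero,
        smul_zero, LinearMap.zero_apply] at e1 e2 e3 e4 e5
      have : (k ^ 4 - k ^ 2) * (b d d ^ 2 * b (σ s) s ^ 2) = 0 := by
        linear_combination (norm := (field_simp; ring))
          2 * ((e1 + e2 - 2 * e5) - k ^ 2 * (e3 + e4 - 2 * e5))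
      have hk4 : k ^ 4 - k ^ 2 ≠ 0 := by
        rw [show k ^ 4 - k ^ 2 = k ^ 2 * (k ^ 2 - 1) by ring]
        exact mul_ne_zero (pow_ne_zero _ hk0) (sub_ne_zero.2 hk1)
      simpa [hk4, hdd] using this
    obtain ⟨c, hc⟩ := hb.scalar_of_vanish h3 (Or.inr ⟨k, hk0, hk1⟩) (hsym σ hσ) van
    obtain ⟨z, hz⟩ := hns c
    exact hz (hc z)

end Nice

end CfsgLib.OTensor96
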