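import Cfsg.Agent.OTensor96.Forms
import Cfsg.Agent.FormTensor91.Even

/-!
Two totally singular subspaces with root elements in general position give an involution.
-/

set_option autoImplicit false
set_option linter.unusedSectionVars false
set_option linter.unusedVariables false
set_option linter.unusedSimpArgs false

namespace CfsgLib.OTensor96

open Module
open scoped MatrixGroups

variable {F V : Type*} [Field F] [AddCommGroup V] [Module F V] [FiniteDimensional F V]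
  {b : LinearMap.BilinForm F V}

/-- Two totally singular subspaces with square-zero maps onto them, in general position. -/
structure Pos (b : LinearMap.BilinForm F V) (T U : Submodule F V) (P N : V →ₗ[F] V) : Prop where
  dimTU : finrank F T = finrank F U
  kerP : LinearMap.ker P = b.orthogonal T
  kerN : LinearMap.ker N = b.orthogonal U
  imP : ∀ Y, P Y ∈ T
  imN : ∀ Y, N Y ∈ U
  isoT : T ≤ b.orthogonal T
  isoU : U ≤ b.orthogonal U
  meetT : ∀ t ∈ T, N t = 0 → t ∈ U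
  meetU : ∀ u ∈ U, P u = 0 → u ∈ T
  backT : ∀ t ∈ T, N t ∈ T → t ∈ U
  backU : ∀ u ∈ U, P u ∈ U → u ∈ T
  ne : ¬ T ≤ U

namespace Pos

variable {T U : Submodule F V} {P N : V →ₗ[F] V}

lemma symm (h : Pos b T U P N) : Pos b U T N P where
  dimTU := h.dimTU.symm
  kerP := h.kerN
  kerN := h.kerP
  imP := h.imN
  imN := h.imP
  isoT := h.isoU
  isoU := h.isoT
  meetT := h.meetU
  meetU := h.meetT
  backT := h.backU
  backU := h.backT
  ne := fun hle => h.ne (Submodule.eq_of_le_of_finrank_eq hle h.dimTU.symm).ge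

lemma P_T (h : Pos b T U P N) {t : V} (ht : t ∈ T) : P t = 0 := by
  rw [← LinearMap.mem_ker, h.kerP]; exact h.isoT ht

lemma N_U (h : Pos b T U P N) {u : V} (hu : u ∈ U) : N u = 0 := by
  rw [← LinearMap.mem_ker, h.kerN]; exact h.isoU hu

/-- The orthogonal of one subspace splits over the subspace. -/
lemma exists_split (h : Pos b T U P N) (hb : Nice b) {Y : V} (hY : N Y = 0) :
    ∃ u ∈ U, N (Y - u) = 0 ∧ P (Y - u) = 0 := by
  set O := b.orthogonal U ⊓ b.orthogonal T with hO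
  have hsum : b.orthogonal U = U ⊔ O := by
    symm
    refine Submodule.eq_of_le_of_finrank_le (sup_le h.isoU inf_le_left) ?_
    have h1 := Submodule.finrank_sup_add_finrank_inf_eq U O
    have hUO : finrank F ↥(U ⊓ O) = finrank F ↥(T ⊓ U) := by
      have : U ⊓ O = T ⊓ U := by
        ext Z
        simp only [hO, ← h.kerN, ← h.kerP, Submodule.mem_inf, LinearMap.mem_ker]
        exact ⟨fun ⟨h1, _, h3⟩ => ⟨h.meetU Z h1 h3, h1⟩, fun ⟨h1, h2⟩ => ⟨h2, h.N_U h2, h.P_T h1⟩⟩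
      rw [this]
    have hOdim : O = b.orthogonal (U ⊔ T) := by
      ext Z
      simp only [hO, Submodule.mem_inf]
      refine ⟨fun ⟨h1, h2⟩ X hX => ?_, fun h0 => ⟨fun X hX => h0 X (Submodule.mem_sup_left hX),
        fun X hX => h0 X (Submodule.mem_sup_right hX)⟩⟩
      obtain ⟨p, hp, q, hq, rfl⟩ := Submodule.mem_sup.1 hX
      have g1 : b p Z = 0 := h1 p hp
      have g2 : b q Z = 0 := h2 q hq
      change b (p + q) Z = 0
      rw [map_add, LinearMap.add_apply, g1, g2, add_zero]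
    have h2 := LinearMap.BilinForm.finrank_orthogonal hb.nondeg U
    have h3 := LinearMap.BilinForm.finrank_orthogonal hb.nondeg (U ⊔ T)
    rw [← hOdim] at h3
    have h4 := Submodule.finrank_sup_add_finrank_inf_eq U T
    rw [inf_comm U T] at h4
    have := h.dimTU
    have g1 := Submodule.finrank_le (U ⊔ T)
    omega
  have hmem : Y ∈ U ⊔ O := by rw [← hsum, ← h.kerN]; exact hY
  obtain ⟨u, hu, o, ho, rfl⟩ := Submodule.mem_sup.1 hmem
  refine ⟨u, hu, ?_, ?_⟩ <;> rw [add_sub_cancel_left, ← LinearMap.mem_ker]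
  · rw [h.kerN]; exact ho.1
  · rw [h.kerP]; exact ho.2

variable [Finite F]

set_option maxHeartbeats 1000000 in
/-- The group generated by the two root elements contains an involution. -/
theorem exists_flip (h : Pos b T U P N) (hb : Nice b) {M : Subgroup (V ≃ₗ[F] V)}
    (hiso : ∀ g ∈ M, ∀ X Y, b (g X) (g Y) = b X Y) {xP xN : V ≃ₗ[F] V} (hPM : xP ∈ M) (hNM : xN ∈ M)
    (hxP : ∀ Y, xP Y = Y + P Y) (hxN : ∀ Y, xN Y = Y + N Y) :
    ∃ j ∈ M, (∀ X, j (j X) = X) ∧ (∀ t ∈ T, j t ∈ T) ∧ (∀ u ∈ U, j u ∈ U) ∧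
      (∀ Y, P Y = 0 → j Y - Y ∈ T) ∧ (∀ Y, N Y = 0 → j Y - Y ∈ U) ∧ (∀ Y ∈ T ⊓ U, j Y = Y) ∧
      (∃ t ∈ T, j t ≠ t) ∧ (∃ u ∈ U, j u ≠ u) ∧
      ((∀ u ∈ U, j u = -u) → ∀ t ∈ T, j t = -t) := by
  have : Finite V := Module.finite_of_finite F
  set W := T ⊔ U with hW
  set C := T.map N with hCdef
  have hNNP : ∀ Y, N (N Y) = 0 := fun Y => h.N_U (h.imN Y)
  have hPPY : ∀ Y, P (P Y) = 0 := fun Y => h.P_T (h.imP Y)
  have hdec : ∀ Y ∈ W, ∃ t ∈ T, ∃ u ∈ U, Y = t + u ∧ N Y = N t ∧ P Y = P u := fun Y hY => by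
    obtain ⟨t, ht, u, hu, rfl⟩ := Submodule.mem_sup.1 hY
    exact ⟨t, ht, u, hu, rfl, by rw [map_add, h.N_U hu, add_zero], by rw [map_add, h.P_T ht, zero_add]⟩
  have hcU : ∀ c ∈ C, c ∈ U := fun c hc => by
    obtain ⟨t, -, rfl⟩ := Submodule.mem_map.1 hc
    exact h.imN t
  have hC1 : ∀ Y ∈ W, N Y ∈ C := fun Y hY => by
    obtain ⟨t, ht, u, hu, -, e1, -⟩ := hdec Y hY
    rw [e1]; exact Submodule.mem_map_of_mem ht
  have hC2 : ∀ Y, N (P Y) ∈ C := fun Y => Submodule.mem_map_of_mem (h.imP Y)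
  have hinT : ∀ Y ∈ W, N (P Y) = 0 → Y ∈ T := fun Y hY h0 => by
    obtain ⟨t, ht, u, hu, rfl, -, e2⟩ := hdec Y hY
    rw [e2] at h0
    exact T.add_mem ht (h.backU u hu (h.meetT _ (h.imP u) h0))
  have hinU : ∀ Y ∈ W, N Y = 0 → Y ∈ U := fun Y hY h0 => by
    obtain ⟨t, ht, u, hu, rfl, e1, -⟩ := hdec Y hY
    rw [e1] at h0
    exact U.add_mem (h.meetT t ht h0) hu
  have hinj : ∀ c ∈ C, N (P c) = 0 → c = 0 := fun c hc h0 => by
    have h1 := hinT c (Submodule.mem_sup_right (hcU c hc)) h0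
    obtain ⟨t, ht, rfl⟩ := Submodule.mem_map.1 hc
    exact h.N_U (h.backT t ht h1)
  -- the algebra
  set SC : Module.End F C := (N ∘ₗ P).restrict (fun u _ => hC2 u) with hSC
  have hSC' : ∀ c : C, (SC c : V) = N (P c) := fun c => rfl
  set R := Algebra.adjoin F ({SC} : Set (Module.End F C))
  have : Finite (Module.End F C) := Module.finite_of_finite F
  let : CommRing R := { (inferInstance : Ring R) with
    mul_comm := fun x y => (Algebra.isMulCommutative_adjoin_singleton F SC).is_comm.comm x y }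
  set s : R := ⟨SC, Algebra.subset_adjoin (Set.mem_singleton SC)⟩ with hs
  have hsinj : Function.Injective fun x : R => s * x := fun x y h0 => by
    refine Subtype.ext (LinearMap.ext fun c => ?_)
    have h1 : SC (x.1 c - y.1 c) = 0 := by
      have := LinearMap.congr_fun (congrArg Subtype.val h0) c
      simp only [MulMemClass.coe_mul, Module.End.mul_apply, hs] at this
      rw [map_sub, this, sub_self]
    exact sub_eq_zero.1 (Subtype.ext (hinj _ (x.1 c - y.1 c).2 (congrArg Subtype.val h1)))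
  obtain ⟨s', hs'⟩ := (Finite.injective_iff_surjective.1 hsinj) 1
  have : Nontrivial C := by
    by_contra hne
    rw [not_nontrivial_iff_subsingleton, Submodule.subsingleton_iff_eq_bot] at hne
    refine h.ne fun t ht => h.meetT t ht ?_
    have := Submodule.mem_map_of_mem (f := N) ht
    rw [← hCdef, hne] at this
    exact (Submodule.mem_bot F).1 this
  have : Nontrivial R := ⟨⟨1, 0, fun h0 => one_ne_zero (α := Module.End F C) (congrArg Subtype.val h0)⟩⟩
  -- the generators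
  let mN : SL(2, R) := ⟨!![1, 0; s, 1], by simp [Matrix.det_fin_two]⟩
  let mP : SL(2, R) := ⟨!![1, 1; 0, 1], by simp [Matrix.det_fin_two]⟩
  let good : (V ≃ₗ[F] V) × SL(2, R) → Prop := fun p => p.1 ∈ M ∧
    (∀ Y ∈ W, p.1 Y ∈ W ∧ ∀ c₁ c₂ : C, N Y = c₁ → N (P Y) = c₂ →
      N (p.1 Y) = (((p.2 0 0).1 c₁ + (p.2 0 1).1 c₂ : C) : V) ∧
      N (P (p.1 Y)) = (((p.2 1 0).1 c₁ + (p.2 1 1).1 c₂ : C) : V)) ∧
    (∀ Y, N Y = 0 → P Y = 0 → p.1 Y = Y)
  have hgood_mul : ∀ x y, good x → good y → good (x * y) := by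
    intro x y hx hy
    refine ⟨M.mul_mem hx.1 hy.1, fun Y hY => ⟨(hx.2.1 _ (hy.2.1 Y hY).1).1, fun c₁ c₂ e1 e2 => ?_⟩,
      fun Y h1 h2 => ?_⟩
    · obtain ⟨f1, f2⟩ := (hy.2.1 Y hY).2 c₁ c₂ e1 e2
      obtain ⟨g1, g2⟩ := (hx.2.1 _ (hy.2.1 Y hY).1).2 _ _ f1 f2
      refine ⟨g1.trans ?_, g2.trans ?_⟩ <;>
      · congr 1
        simp only [Prod.snd_mul, Matrix.SpecialLinearGroup.coe_mul, Matrix.mul_apply,
          Fin.sum_univ_two, AddMemClass.coe_add, LinearMap.add_apply, MulMemClass.coe_mul,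
          Module.End.mul_apply, map_add]
        abel
    · change x.1 (y.1 Y) = Y
      rw [hy.2.2 Y h1 h2, hx.2.2 Y h1 h2]
  have hgood_one : good 1 := ⟨M.one_mem, fun Y hY => ⟨hY, fun c₁ c₂ e1 e2 => by simp [e1, e2]⟩,
    fun Y _ _ => rfl⟩
  have : Finite (Module.End F V) := Module.finite_of_finite F
  have : Finite (V ≃ₗ[F] V) := Finite.of_injective _ LinearEquiv.toLinearMap_injective
  set γN : (V ≃ₗ[F] V) × SL(2, R) := (xN, mN) with hγN
  set γP : (V ≃ₗ[F] V) × SL(2, R) := (xP, mP) with hγP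
  have hgN : good γN := by
    refine ⟨hNM, fun Y hY => ⟨?_, fun c₁ c₂ e1 e2 => ?_⟩, fun Y h1 _ => ?_⟩
    · rw [hγN, hxN]; exact Submodule.add_mem _ hY (Submodule.mem_sup_right (h.imN Y))
    · simp only [hγN, hxN, mN, map_add, hNNP, add_zero]; rw [e1, e2]
      refine ⟨?_, ?_⟩
      · simp
      · simp [hs, hSC', add_comm]
    · rw [hγN, hxN, h1, add_zero]
  have hgP : good γP := by
    refine ⟨hPM, fun Y hY => ⟨?_, fun c₁ c₂ e1 e2 => ?_⟩, fun Y _ h2 => ?_⟩
    · rw [hγP, hxP]; exact Submodule.add_mem _ hY (Submodule.mem_sup_left (h.imP Y))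
    · simp only [hγP, hxP, mP, map_add, hPPY, map_zero, add_zero, e1, e2]
      refine ⟨?_, ?_⟩ <;> simp
    · rw [hγP, hxP, h2, add_zero]
  set Γ := Subgroup.closure ({γN, γP} : Set ((V ≃ₗ[F] V) × SL(2, R)))
  have hΓ : ∀ p ∈ Γ, good p := by
    intro p hp
    induction hp using Subgroup.closure_induction with
    | mem x hx => rcases hx with rfl | rfl <;> assumption
    | one => exact hgood_one
    | mul x y _ _ h1 h2 => exact hgood_mul x y h1 h2
    | inv x _ h1 =>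
      have hpow : ∀ n : ℕ, good (x ^ n) := fun n => by
        induction n with
        | zero => exact hgood_one
        | succ n ih => rw [pow_succ]; exact hgood_mul _ _ ih h1
      rw [inv_eq_of_mul_eq_one_left (a := x ^ (orderOf x - 1)) (b := x) (by
        rw [← pow_succ, Nat.sub_add_cancel (orderOf_pos x), pow_orderOf_eq_one])]
      exact hpow _
  obtain ⟨⟨j, m⟩, hjmΓ, hne', hsq'⟩ := CfsgLib.FormTensor91.exists_involution
    (MonoidHom.snd (V ≃ₗ[F] V) SL(2, R)) (u := γP) (l := γN) (IsUnit.of_mul_eq_one s' hs') rfl rfl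
  rw [Set.pair_comm] at hjmΓ
  have hsq : j * j = 1 ∧ m * m = 1 := Prod.mk.inj hsq'
  have hne : ¬ (j = 1 ∧ m = 1) := fun h0 => hne' (Prod.ext h0.1 h0.2)
  obtain ⟨hjM, hjW, hjp⟩ := hΓ _ hjmΓ
  change j ∈ M at hjM
  have hjj : ∀ Y, j (j Y) = Y := fun Y => LinearEquiv.congr_fun hsq.1 Y
  have hjiso := hiso j hjM
  have h2F := hb.two
  have hdouble : ∀ Y, j (j Y - Y) = j Y - Y → j Y = Y := fun Y h0 => by
    rw [map_sub, hjj] at h0
    have h3 : (2 : F) • (j Y - Y) = 0 := by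
      rw [two_smul]
      nth_rw 1 [← h0]
      abel
    exact sub_eq_zero.1 ((smul_eq_zero.1 h3).resolve_left h2F)
  obtain ⟨e01, e10, e11⟩ := CfsgLib.FormTensor91.scalar_of_sq_one (h := algebraMap F R (2⁻¹))
    (by rw [← map_ofNat (algebraMap F R) 2, ← map_mul, mul_inv_cancel₀ h2F, map_one]) hsq.2
  set μ : Module.End F C := (m 0 0).1 with hμ
  have hcoord : ∀ Y ∈ W, ∀ c₁ c₂ : C, N Y = c₁ → N (P Y) = c₂ →
      j Y ∈ W ∧ N (j Y) = (μ c₁ : V) ∧ N (P (j Y)) = (μ c₂ : V) := fun Y hY c₁ c₂ h1 h2 => by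
    obtain ⟨f0, f⟩ := hjW Y hY
    obtain ⟨f1, f2⟩ := f c₁ c₂ h1 h2
    refine ⟨f0, ?_, ?_⟩
    · rw [f1, e01, hμ]; simp
    · rw [f2, e10, e11, hμ]; simp
  have hjT : ∀ t ∈ T, j t ∈ T ∧ ∀ c : C, N t = c → N (j t) = (μ c : V) := fun t ht => by
    obtain ⟨f0, f1, f2⟩ := hcoord t (Submodule.mem_sup_left ht) ⟨_, hC1 t (Submodule.mem_sup_left ht)⟩ 0 rfl
      (by rw [h.P_T ht, map_zero]; rfl)
    rw [map_zero] at f2
    exact ⟨hinT _ f0 f2, fun c hc => by rw [f1]; congr 2; exact Subtype.ext hc⟩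
  have hjU : ∀ u ∈ U, j u ∈ U ∧ ∀ c : C, N (P u) = c → N (P (j u)) = (μ c : V) := fun u hu => by
    obtain ⟨f0, f1, f2⟩ := hcoord u (Submodule.mem_sup_right hu) 0 ⟨_, hC2 u⟩
      (by rw [h.N_U hu]; rfl) rfl
    rw [map_zero] at f1
    exact ⟨hinU _ f0 f1, fun c hc => by rw [f2]; congr 2; exact Subtype.ext hc⟩
  have hjD : ∀ Y ∈ T ⊓ U, j Y = Y := fun Y hY => hjp Y (h.N_U hY.2) (h.P_T hY.1)
  -- the matrix is not trivial
  have hμ1 : μ ≠ 1 := by
    intro h1
    have hm : m = 1 := Subtype.ext (Matrix.ext fun i k => by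
      have h00 : m 0 0 = 1 := Subtype.ext h1
      fin_cases i <;> fin_cases k <;> simp [e01, e10, e11, h00])
    refine hne ⟨LinearEquiv.ext fun Y => ?_, hm⟩
    have hW1 : ∀ Y ∈ W, j Y = Y := fun Y hY => by
      obtain ⟨f0, f1, f2⟩ := hcoord Y hY ⟨_, hC1 Y hY⟩ ⟨_, hC2 Y⟩ rfl rfl
      rw [h1, Module.End.one_apply] at f1 f2
      have hd : j Y - Y ∈ W := Submodule.sub_mem _ f0 hY
      exact hdouble Y (hjD _ ⟨hinT _ hd (by rw [map_sub, map_sub, f2, sub_self]),
        hinU _ hd (by rw [map_sub, f1, sub_self])⟩)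
    refine hdouble Y (hjp _ ?_ ?_)
    · rw [← LinearMap.mem_ker, h.kerN]
      intro X hX
      change b X (j Y - Y) = 0
      nth_rw 1 [map_sub, ← hW1 X (Submodule.mem_sup_right hX)]
      rw [hjiso, sub_self]
    · rw [← LinearMap.mem_ker, h.kerP]
      intro X hX
      change b X (j Y - Y) = 0
      nth_rw 1 [map_sub, ← hW1 X (Submodule.mem_sup_left hX)]
      rw [hjiso, sub_self]
  have hSCsurj : Function.Surjective SC := LinearMap.surjective_of_injective fun u v h0 => by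
    refine sub_eq_zero.1 (Subtype.ext (hinj _ (u - v).2 ?_))
    rw [← hSC', map_sub, h0, sub_self]
    rfl
  have hperp : ∀ {T U : Submodule F V} {P N : V →ₗ[F] V}, Pos b T U P N →
      (∀ Y, N Y = 0 → P Y = 0 → j Y = Y) → (∀ u ∈ U, j u ∈ U) → ∀ Y, N Y = 0 → j Y - Y ∈ U := by
    intro T U P N h hjp hjU Y hY
    obtain ⟨u, hu, h1, h2⟩ := h.exists_split hb hY
    have := hjp _ h1 h2
    rw [map_sub, sub_eq_sub_iff_sub_eq_sub] at this
    rw [this]
    exact U.sub_mem (hjU u hu) hu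
  refine ⟨j, hjM, hjj, fun t ht => (hjT t ht).1, fun u hu => (hjU u hu).1,
    hperp h.symm (fun Y h1 h2 => hjp Y h2 h1) fun t ht => (hjT t ht).1,
    hperp h hjp fun u hu => (hjU u hu).1, hjD, ?_, ?_, ?_⟩
  · by_contra! h0
    refine hμ1 (LinearMap.ext fun c => Subtype.ext ?_)
    obtain ⟨t, ht, htc⟩ := Submodule.mem_map.1 c.2
    have := (hjT t ht).2 c htc
    rw [h0 t ht, htc] at this
    exact this.symm
  · by_contra! h0
    refine hμ1 (LinearMap.ext fun c => Subtype.ext ?_)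
    obtain ⟨d, rfl⟩ := hSCsurj c
    have := (hjU d (hcU _ d.2)).2 (SC d) rfl
    rw [h0 _ (hcU _ d.2)] at this
    exact this.symm
  · intro hneg t ht
    have hμneg : μ = -1 := LinearMap.ext fun c => Subtype.ext (by
      obtain ⟨d, rfl⟩ := hSCsurj c
      have := (hjU d (hcU _ d.2)).2 (SC d) rfl
      rw [hneg _ (hcU _ d.2), map_neg, map_neg] at this
      exact this.symm)
    have h1 : N (j t + t) = 0 := by
      rw [map_add, (hjT t ht).2 ⟨_, hC1 t (Submodule.mem_sup_left ht)⟩ rfl, hμneg]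
      simp
    have hmemT := T.add_mem (hjT t ht).1 ht
    have hmemU := h.meetT _ hmemT h1
    have e1 := (hjD _ ⟨hmemT, hmemU⟩).symm.trans (hneg _ hmemU)
    rw [eq_neg_iff_add_eq_zero, ← two_smul F] at e1
    exact eq_neg_of_add_eq_zero_left ((smul_eq_zero.1 e1).resolve_left h2F)

end Pos

end CfsgLib.OTensor96
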