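import Cfsg.Agent.OTensor96.Lines
import Cfsg.Agent.OTensor96.Flip

/-!
Without root coefficients every element is a tensor map: descent on the intersection of line members.
-/

set_option autoImplicit false
set_option linter.unusedSectionVars false
set_option linter.unusedVariables false
set_option linter.unusedSimpArgs false

namespace CfsgLib.OTensor96

open Module CfsgLib.FieldExtMax

variable {F A B V : Type*} [Field F] [AddCommGroup A] [Module F A] [AddCommGroup B]
  [Module F B] [AddCommGroup V] [Module F V] [FiniteDimensional F A] [FiniteDimensional F B]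
  {S : Setting F A B V}

lemma Setting.formN (S : Setting F A B V) : Nice S.form :=
  ⟨S.form_symm, fun X h => S.form_ext X fun a w => h _, S.fN.two⟩

lemma perpL_eq_orthogonal (w z : B) : perpL S w z = S.form.orthogonal (memL S w z) := by
  ext X
  rw [perpL_iff]
  exact ⟨fun h Y hY => (S.form_symm Y X).trans (h Y hY), fun h Y hY => (S.form_symm X Y).trans (h Y hY)⟩

/-- A member lying in the member of a line. -/
lemma eq_of_tp_mem {w z v : B} {a a' : A} (ha : S.f a a' = 1) (h : S.tp a v ∈ memL S w z) :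
    ∃ k l : F, v = k • w + l • z := by
  obtain ⟨p, q, hpq⟩ := mem_memL.1 h
  exact ⟨S.f p a', S.f q a', by simpa [ha] using (congrArg (S.pi a') hpq).symm⟩

lemma IsLine.singular_combo {w z : B} (hL : IsLine S w z) (k l k' l' : F) :
    S.be (k • w + l • z) (k' • w + l' • z) = 0 := by
  simp [hL.ww, hL.zz, hL.wz, S.beN.symm z w]

/-- A vector pairing trivially with everything orthogonal to a line lies in it. -/
lemma IsLine.eq_combo {w z v : B} (hL : IsLine S w z)
    (h : ∀ c, S.be w c = 0 → S.be z c = 0 → S.be v c = 0) : ∃ k l : F, v = k • w + l • z := by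
  obtain ⟨w', z', h1, h2, h3, h4⟩ := hL.dual
  refine ⟨S.be v w', S.be v z', S.beN.ext_left fun c => ?_⟩
  have := h (c - S.be w c • w' - S.be z c • z') (by simp [h1, h3]) (by simp [h2, h4])
  simp at this ⊢
  linear_combination this

lemma finrank_le_inf_ker [FiniteDimensional F V] (T : Submodule F V) (c : V →ₗ[F] A) :
    finrank F T ≤ finrank F ↥(T ⊓ LinearMap.ker c) + finrank F A := by
  have h1 := Submodule.finrank_sup_add_finrank_inf_eq T (LinearMap.ker c)
  have h2 := Submodule.finrank_le (T ⊔ LinearMap.ker c)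
  have h3 := LinearMap.finrank_range_add_finrank_ker c
  have h4 := Submodule.finrank_le (LinearMap.range c)
  omega

namespace Nice

variable {W : Type*} [AddCommGroup W] [Module F W] [FiniteDimensional F W] {b : LinearMap.BilinForm F W}

/-- The form restricted to the fixed space of an isometric involution. -/
lemma nice_fix (hb : Nice b) {y : W ≃ₗ[F] W} (hy : ∀ u v, b (y u) (y v) = b u v) (hyy : ∀ v, y (y v) = v) :
    Nice (b.compl₁₂ (LinearMap.ker ((y : W →ₗ[F] W) - LinearMap.id)).subtype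
      (LinearMap.ker ((y : W →ₗ[F] W) - LinearMap.id)).subtype) := by
  refine ⟨fun u v => hb.symm _ _, fun u hu => Subtype.ext (hb.nd _ fun v => ?_), hb.two⟩
  have hu' : y (u : W) = u := sub_eq_zero.1 u.2
  have h1 : b (u : W) (v + y v) = 0 := hu ⟨v + y v, by
    simp only [LinearMap.mem_ker, LinearMap.sub_apply, LinearEquiv.coe_coe, LinearMap.id_apply, map_add, hyy]
    abel⟩
  have h2 : b (u : W) (y v) = b (u : W) v := by
    conv_lhs => rw [← hu']
    exact hy _ _
  rw [map_add, h2, ← two_mul] at h1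
  exact (mul_eq_zero.1 h1).resolve_left hb.two

/-- The two eigenspaces of an involution fill the space. -/
lemma finrank_fix {y : W ≃ₗ[F] W} (hyy : ∀ v, y (y v) = v) :
    finrank F W ≤ finrank F ↥(LinearMap.ker ((y : W →ₗ[F] W) - LinearMap.id)) +
      finrank F ↥(LinearMap.ker ((y : W →ₗ[F] W) + LinearMap.id)) := by
  have h1 := LinearMap.finrank_range_add_finrank_ker ((y : W →ₗ[F] W) - LinearMap.id)
  have h2 : LinearMap.range ((y : W →ₗ[F] W) - LinearMap.id) ≤
      LinearMap.ker ((y : W →ₗ[F] W) + LinearMap.id) := by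
    rintro _ ⟨v, rfl⟩
    simp only [LinearMap.mem_ker, LinearMap.add_apply, LinearMap.sub_apply, LinearEquiv.coe_coe,
      LinearMap.id_apply, map_sub, hyy]
    abel
  have := Submodule.finrank_mono h2
  omega

/-- A non-degenerate space has an anisotropic vector. -/
lemma exists_aniso (hb : Nice b) (h : 0 < finrank F W) : ∃ v, b v v ≠ 0 := by
  by_contra! h0
  have : Nontrivial W := Module.nontrivial_of_finrank_pos h
  obtain ⟨u, hu⟩ := exists_ne (0 : W)
  refine hu (hb.nd u fun v => ?_)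
  have h1 := h0 (u + v)
  simp only [map_add, LinearMap.add_apply, h0 u, h0 v, hb.symm v u, zero_add, add_zero, ← two_mul] at h1
  exact (mul_eq_zero.1 h1).resolve_left hb.two

end Nice

variable [Finite F] {M : Subgroup (V ≃ₗ[F] V)}

namespace Ctx

variable (H : Ctx S M)
include H

lemma exists_aniso_line {w z : B} (hL : IsLine S w z) :
    ∃ c, S.be c c ≠ 0 ∧ S.be w c = 0 ∧ S.be z c = 0 := by
  classical
  obtain ⟨c, hc, hcp⟩ := S.beN.exists_aniso_orth (Submodule.span F {w, z}) (by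
    have := finrank_span_le_card (R := F) (M := B) ({w, z} : Set B)
    have h' : ({w, z} : Set B).toFinset.card ≤ 2 := by
      simp only [Set.toFinset_insert, Set.toFinset_singleton]; exact Finset.card_le_two
    have := H.hB5
    omega)
  exact ⟨c, hc, hcp w (Submodule.subset_span (by simp)), hcp z (Submodule.subset_span (by simp))⟩

/-- An element preserving a line member and trivial on its orthogonal modulo it is on the second factor. -/
lemma exists_right_of_line (hcl : Clean S M) {j : V ≃ₗ[F] V} (hj : j ∈ M) {w z : B} (hL : IsLine S w z)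
    (h1 : ∀ X ∈ memL S w z, j X ∈ memL S w z) (h2 : ∀ X ∈ perpL S w z, j X - X ∈ memL S w z) :
    ∃ y : B ≃ₗ[F] B, (∀ u v, S.be (y u) (y v) = S.be u v) ∧ (∀ a v, j (S.tp a v) = S.tp a (y v)) ∧
      ∀ v, (v = w ∨ v = z) → ∃ k l : F, y v = k • w + l • z := by
  obtain ⟨x, y, hxy⟩ := H.isT_of_line hcl hj hL hL (Submodule.map_le_iff_le_comap.2 h1)
  obtain ⟨c, hc, hwc, hzc⟩ := H.exists_aniso_line hL
  have hkill : ∀ X ∈ memL S w z, S.con c X = 0 := fun X hX => by
    obtain ⟨p, q, rfl⟩ := mem_memL.1 hX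
    simp [hwc, hzc]
  have hx : ∀ a, (S.be (y c) c / S.be c c) • x a = a := fun a => by
    have h3 := hkill _ (h2 (S.tp a c) (by rw [mem_perpL]; simp [S.beN.symm c w, S.beN.symm c z, hwc, hzc]))
    rw [map_sub, hxy, S.con_tp, S.con_tp, sub_eq_zero] at h3
    rw [div_eq_inv_mul, ← smul_smul, h3, inv_smul_smul₀ hc]
  obtain ⟨a₀, a₁, -, -, ha⟩ := S.fN.exists_pair H.hA3
  obtain ⟨y', hy', hjy⟩ := right_of_scalar (H.iso j hj) hxy hx ha
  refine ⟨y', hy', hjy, fun v hv => eq_of_tp_mem ha (a := a₀) ?_⟩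
  rw [← hjy]
  refine h1 _ ?_
  rcases hv with rfl | rfl
  · exact Submodule.mem_sup_left (S.tp_mem _ _)
  · exact Submodule.mem_sup_right (S.tp_mem _ _)

set_option maxHeartbeats 1000000 in
/-- The descent step. -/
lemma isT_step (hcl : Clean S M) {g : V ≃ₗ[F] V} (hg : g ∈ M) {w z w₂ z₂ : B} (hL : IsLine S w z)
    (hL₂ : IsLine S w₂ z₂)
    (hlt : finrank F ↥((memL S w z).map (g : V →ₗ[F] V) ⊓ memL S w₂ z₂) < 2 * finrank F A)
    (hIH : ∀ k ∈ M, ∀ p q p₂ q₂, IsLine S p q → IsLine S p₂ q₂ →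
      finrank F ↥((memL S w z).map (g : V →ₗ[F] V) ⊓ memL S w₂ z₂) <
        finrank F ↥((memL S p q).map (k : V →ₗ[F] V) ⊓ memL S p₂ q₂) → S.IsT k) :
    S.IsT g := by
  classical
  have : FiniteDimensional F V := S.finiteDimensional
  by_contra hgT
  set T := (memL S w z).map (g : V →ₗ[F] V) with hT
  set U := memL S w₂ z₂ with hU
  set D := T ⊓ U with hD
  set E₂ := S.tequiv (LinearEquiv.refl F A) (S.beN.sieE hL₂.ww hL₂.wz) with hE₂
  set E₁ := S.tequiv (LinearEquiv.refl F A) (S.beN.sieE hL.ww hL.wz) with hE₁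
  have hE₂M : E₂ ∈ M := H.right w₂ z₂ hL₂.ww hL₂.wz
  have hxPM : g * E₁ * g⁻¹ ∈ M := M.mul_mem (M.mul_mem hg (H.right w z hL.ww hL.wz)) (M.inv_mem hg)
  have hgg : ∀ X, g (g⁻¹ X) = X := fun X => by rw [← LinearEquiv.mul_apply, mul_inv_cancel]; rfl
  have hgg' : ∀ X, g⁻¹ (g X) = X := fun X => by rw [← LinearEquiv.mul_apply, inv_mul_cancel]; rfl
  have hTmem : ∀ X, X ∈ T ↔ g⁻¹ X ∈ memL S w z := fun X =>
    ⟨by rintro ⟨Y, hY, rfl⟩; exact (hgg' Y).symm ▸ hY, fun h => ⟨_, h, hgg X⟩⟩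
  set P : V →ₗ[F] V := (g : V →ₗ[F] V) ∘ₗ rootL S w z ∘ₗ (g⁻¹ : V ≃ₗ[F] V).toLinearMap with hP
  set N : V →ₗ[F] V := rootL S w₂ z₂ with hN
  have hxP : ∀ Y, (g * E₁ * g⁻¹) Y = Y + P Y := fun Y => by
    change g (E₁ (g⁻¹ Y)) = _
    rw [hE₁, hL.rootE_apply, map_add g, hgg]
    rfl
  have hxN : ∀ Y, E₂ Y = Y + N Y := fun Y => hL₂.rootE_apply Y
  have hTdim : finrank F T = 2 * finrank F A := by rw [hT, LinearEquiv.finrank_map_eq, hL.finrank_memL]
  have hTorth : ∀ X, P X = 0 ↔ ∀ Y ∈ T, S.form Y X = 0 := fun X => by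
    change g (rootL S w z (g⁻¹ X)) = 0 ↔ _
    rw [LinearEquiv.map_eq_zero_iff, hL.rootL_eq_zero, perpL_eq_orthogonal]
    constructor
    · rintro h _ ⟨Y, hY, rfl⟩
      have := h Y hY
      rw [← hgg X]
      exact (H.iso g hg _ _).trans this
    · intro h Y hY
      have := h _ ⟨Y, hY, rfl⟩
      rw [← hgg X] at this
      exact (H.iso g hg _ _).symm.trans this
  -- a root element keeping a vector close
  have killT : ∀ k ∈ M, ∀ X : Submodule F V, (∀ Y ∈ X, Y ∈ T ∧ ∃ t ∈ T, k t = Y) →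
      finrank F D < finrank F X → S.IsT (g⁻¹ * k * g) := by
    intro k hk X hX hlt'
    refine hIH _ (M.mul_mem (M.mul_mem (M.inv_mem hg) hk) hg) w z w z hL hL (hlt'.trans_le ?_)
    rw [← LinearEquiv.finrank_map_eq g⁻¹ X]
    refine Submodule.finrank_mono ?_
    rintro _ ⟨Y, hY, rfl⟩
    obtain ⟨hYT, t, ht, rfl⟩ := hX Y hY
    refine ⟨⟨g⁻¹ t, (hTmem t).1 ht, ?_⟩, (hTmem _).1 hYT⟩
    change g⁻¹ (k (g (g⁻¹ t))) = g⁻¹ (k t)
    rw [hgg]
  have vecT : ∀ k ∈ M, (∀ Y ∈ D, k Y = Y) → ∀ t ∈ T, t ∉ U → k t ∈ T → S.IsT (g⁻¹ * k * g) := by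
    intro k hk hfix t ht htU hkt
    refine killT k hk ((D ⊔ Submodule.span F {t}).map (k : V →ₗ[F] V)) ?_ ?_
    · rintro _ ⟨Y, hY, rfl⟩
      obtain ⟨d, hd, s, hs, rfl⟩ := Submodule.mem_sup.1 hY
      obtain ⟨c, rfl⟩ := Submodule.mem_span_singleton.1 hs
      refine ⟨?_, _, T.add_mem hd.1 (T.smul_mem c ht), rfl⟩
      change k (d + c • t) ∈ T
      rw [map_add, map_smul, hfix d hd]
      exact T.add_mem hd.1 (T.smul_mem c hkt)
    · rw [LinearEquiv.finrank_map_eq]
      refine Submodule.finrank_lt_finrank_of_lt (SetLike.lt_iff_le_and_exists.2 ⟨le_sup_left, t, ?_, ?_⟩)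
      · exact Submodule.mem_sup_right (Submodule.mem_span_singleton_self t)
      · exact fun h => htU h.2
  have vecU : ∀ k ∈ M, (∀ Y ∈ D, k Y = Y) → ∀ u ∈ U, u ∉ T → k u ∈ U → S.IsT k := by
    intro k hk hfix u hu huT hku
    refine hIH k hk w₂ z₂ w₂ z₂ hL₂ hL₂ ?_
    calc finrank F D < finrank F ↥(D ⊔ Submodule.span F {u}) := by
          refine Submodule.finrank_lt_finrank_of_lt (SetLike.lt_iff_le_and_exists.2 ⟨le_sup_left, u, ?_, ?_⟩)
          · exact Submodule.mem_sup_right (Submodule.mem_span_singleton_self u)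
          · exact fun h => huT h.1
      _ = finrank F ↥((D ⊔ Submodule.span F {u}).map (k : V →ₗ[F] V)) := (LinearEquiv.finrank_map_eq k _).symm
      _ ≤ _ := by
          refine Submodule.finrank_mono (le_inf (Submodule.map_mono ?_) ?_)
          · exact sup_le inf_le_right ((Submodule.span_singleton_le_iff_mem u U).2 hu)
          rintro _ ⟨Y, hY, rfl⟩
          obtain ⟨d, hd, s, hs, rfl⟩ := Submodule.mem_sup.1 hY
          obtain ⟨c, rfl⟩ := Submodule.mem_span_singleton.1 hs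
          change k (d + c • u) ∈ U
          rw [map_add, map_smul, hfix d hd]
          exact U.add_mem hd.2 (U.smul_mem c hku)
  have hNU : ∀ u ∈ U, N u = 0 := fun u hu => hL₂.rootL_memL hu
  have hPT : ∀ t ∈ T, P t = 0 := fun t ht => by
    change g (rootL S w z (g⁻¹ t)) = 0
    rw [hL.rootL_memL ((hTmem t).1 ht), map_zero]
  have badN : ∀ t ∈ T, t ∉ U → N t ∉ T := fun t ht htU hNt => hgT <| by
    have h1 := vecT E₂ hE₂M (fun Y hY => by rw [hxN, hNU Y hY.2, add_zero]) t ht htU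
      (by rw [hxN]; exact T.add_mem ht hNt)
    have := H.isT_of_conj_long hcl (M.inv_mem hg) hL₂ (by rwa [inv_inv])
    simpa using S.isT_inv this
  have badP : ∀ u ∈ U, u ∉ T → P u ∉ U := fun u hu huT hPu => hgT <|
    H.isT_of_conj_long hcl hg hL (vecU _ hxPM (fun Y hY => by rw [hxP, hPT Y hY.1, add_zero]) u hu huT
      (by rw [hxP]; exact U.add_mem hu hPu))
  have hpos : Pos S.form T U P N := by
    refine ⟨hTdim.trans hL₂.finrank_memL.symm, ?_, ?_, fun Y => ⟨_, hL.rootL_mem _, rfl⟩, hL₂.rootL_mem,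
      fun t ht => ?_, fun u hu => ?_, fun t ht h0 => ?_, fun u hu h0 => ?_, fun t ht h0 => ?_, fun u hu h0 => ?_,
      fun hle => ?_⟩
    · ext X
      exact hTorth X
    · ext X
      rw [LinearMap.mem_ker, hN, hL₂.rootL_eq_zero, perpL_eq_orthogonal]
    · exact (hTorth t).1 (hPT t ht)
    · rw [← perpL_eq_orthogonal]; exact hL₂.memL_le_perpL hu
    · by_contra h; exact badN t ht h (by rw [h0]; exact T.zero_mem)
    · by_contra h; exact badP u hu h (by rw [h0]; exact U.zero_mem)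
    · by_contra h; exact badN t ht h h0
    · by_contra h; exact badP u hu h h0
    · rw [hD, inf_eq_left.2 hle, hTdim] at hlt
      exact lt_irrefl _ hlt
  obtain ⟨j, hjM, hjj, hjT, hjU, hjP, hjN, hjD, ⟨t₀, ht₀, hjt₀⟩, ⟨u₀, hu₀, hju₀⟩, hneg⟩ :=
    hpos.exists_flip S.formN H.iso hxPM hE₂M hxP hxN
  obtain ⟨y, hy, hjy, hyL⟩ := H.exists_right_of_line hcl hjM hL₂ (fun X hX => hjU X hX)
    fun X hX => hjN X (hL₂.rootL_eq_zero.2 hX)
  obtain ⟨a₀, a₁, -, -, ha⟩ := S.fN.exists_pair H.hA3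
  have hyy : ∀ v, y (y v) = v := fun v => by
    have := hjj (S.tp a₀ v)
    rw [hjy, hjy] at this
    simpa [ha] using congrArg (S.pi a₁) this
  have h2F := S.fN.two
  set Fx := LinearMap.ker ((y : B →ₗ[F] B) - LinearMap.id) with hFx
  set En := LinearMap.ker ((y : B →ₗ[F] B) + LinearMap.id) with hEn
  have hEn' : ∀ v, v ∈ En ↔ y v = -v := fun v => by
    simp [hEn, ← eq_neg_iff_add_eq_zero]
  have hFx' : ∀ v, v ∈ Fx ↔ y v = v := fun v => by simp [hFx, sub_eq_zero]
  have horth : ∀ v q, y v = -v → y q = q → S.be v q = 0 := fun v q h1 h2 => by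
    have h3 := hy v q
    rw [h1, h2, map_neg, LinearMap.neg_apply, neg_eq_iff_add_eq_zero, ← two_mul] at h3
    exact (mul_eq_zero.1 h3).resolve_left h2F
  have hEL : ∀ v, y v = -v → S.be v w₂ = 0 → S.be v z₂ = 0 → ∃ k l : F, v = k • w₂ + l • z₂ := by
    intro v h1 h2 h3
    have h4 := hjN (S.tp a₀ v) (by rw [hN, hL₂.rootL_eq_zero, mem_perpL]; simp [h2, h3])
    rw [hjy, h1, map_neg, show -S.tp a₀ v - S.tp a₀ v = (-2 : F) • S.tp a₀ v by module,
      Submodule.smul_mem_iff _ (neg_ne_zero.2 h2F)] at h4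
    exact eq_of_tp_mem ha h4
  let Ψ : En →ₗ[F] F × F := ((S.be.flip w₂).prod (S.be.flip z₂)) ∘ₗ En.subtype
  have hrk := LinearMap.finrank_range_add_finrank_ker Ψ
  set K₂ := Submodule.span F ({w₂, z₂} : Set B) with hK₂
  have hK₂dim : finrank F K₂ ≤ 2 := by
    have := finrank_span_le_card (R := F) (M := B) ({w₂, z₂} : Set B)
    have h' : ({w₂, z₂} : Set B).toFinset.card ≤ 2 := by
      simp only [Set.toFinset_insert, Set.toFinset_singleton]; exact Finset.card_le_two
    rw [hK₂]; omega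
  have hker : (LinearMap.ker Ψ).map En.subtype ≤ K₂ ⊓ En := by
    rintro _ ⟨⟨v, hv⟩, hvΨ, rfl⟩
    obtain ⟨h1, h2⟩ := Prod.mk.inj (LinearMap.mem_ker.1 hvΨ)
    obtain ⟨k, l, hkl⟩ := hEL v ((hEn' v).1 hv) h1 h2
    exact ⟨Submodule.mem_span_pair.2 ⟨k, l, hkl.symm⟩, hv⟩
  have hker' : finrank F ↥(LinearMap.ker Ψ) ≤ finrank F ↥(K₂ ⊓ En) := by
    rw [← Submodule.finrank_map_subtype_eq En]
    exact Submodule.finrank_mono hker
  have hB5 := H.hB5
  have hfix := Nice.finrank_fix (W := B) hyy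
  rw [← hFx, ← hEn] at hfix
  by_cases hall : y w₂ = -w₂ ∧ y z₂ = -z₂
  · -- the line is negated
    have hUneg : ∀ u ∈ U, j u = -u := fun u hu => by
      obtain ⟨p, q, rfl⟩ := mem_memL.1 hu
      rw [map_add, hjy, hjy, hall.1, hall.2, map_neg, map_neg, neg_add]
    have hTneg := hneg hUneg
    have hD0 : ∀ Y ∈ D, Y = 0 := fun Y hY => by
      have e1 := (hjD Y hY).symm.trans (hUneg Y hY.2)
      rw [eq_neg_iff_add_eq_zero, ← two_smul F] at e1
      exact (smul_eq_zero.1 e1).resolve_left h2F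
    have hδ : finrank F D = 0 := by
      rw [(Submodule.eq_bot_iff D).2 hD0, finrank_bot]
    obtain ⟨⟨v₀, hv₀⟩, hv₀'⟩ := (S.beN.nice_fix hy hyy).exists_aniso (by
      have := Submodule.finrank_le (LinearMap.range Ψ)
      rw [finrank_prod, finrank_self] at this
      have := Submodule.finrank_mono (inf_le_left : K₂ ⊓ En ≤ K₂)
      rw [← hFx]
      omega)
    rw [← hFx] at hv₀
    change S.be v₀ v₀ ≠ 0 at hv₀'
    rw [hFx'] at hv₀
    have hwv : S.be w₂ v₀ = 0 := horth _ _ hall.1 hv₀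
    have hcon0 : ∀ X ∈ T, S.con v₀ X = 0 := fun X hX => S.fN.nd _ fun a => by
      rw [S.f_con]
      have h1 := H.iso j hjM X (S.tp a v₀)
      rw [hTneg X hX, hjy, hv₀, map_neg, LinearMap.neg_apply, neg_eq_iff_add_eq_zero, ← two_mul] at h1
      exact (mul_eq_zero.1 h1).resolve_left h2F
    set e := S.tequiv (LinearEquiv.refl F A) (S.beN.sieE hL₂.ww hwv) with he
    have heM : e ∈ M := H.right w₂ v₀ hL₂.ww hwv
    have heT : ∀ X ∈ T, e X = X + S.tp (S.con w₂ X) v₀ - S.tp ((S.be v₀ v₀ / 2) • S.con w₂ X) w₂ :=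
      fun X hX => by rw [he, S.right_sie_apply, hcon0 X hX, zero_add]
    set Tw := T ⊓ LinearMap.ker (S.con w₂) with hTw
    have hTwdim : finrank F A ≤ finrank F Tw := by
      have := finrank_le_inf_ker T (S.con w₂); rw [hTw]; omega
    have hefix : ∀ X ∈ Tw, e X = X := fun X hX => by
      rw [heT X hX.1, LinearMap.mem_ker.1 hX.2]; simp
    have hA3 := H.hA3
    have hhT := killT e heM Tw (fun X hX => ⟨hX.1, X, hX.1, hefix X hX⟩) (by omega)
    have hnot : ∃ X ∈ T, e X ∉ T := by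
      by_contra! h0
      have hle : T ≤ LinearMap.ker (S.con w₂) := fun X hX => by
        have h1 := hcon0 _ (h0 X hX)
        rw [heT X hX, map_sub, map_add, hcon0 X hX, S.con_tp, S.con_tp, hwv, zero_smul, sub_zero,
          zero_add] at h1
        exact (smul_eq_zero.1 h1).resolve_left hv₀'
      have h1 := finrank_le_inf_ker T (S.con z₂)
      have h2 : T ⊓ LinearMap.ker (S.con z₂) = ⊥ := (Submodule.eq_bot_iff _).2 fun X hX =>
        hD0 X ⟨hX.1, hpos.meetT X hX.1 (by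
          rw [hN, rootL_apply, LinearMap.mem_ker.1 (hle hX.1), LinearMap.mem_ker.1 hX.2]; simp)⟩
      rw [h2, finrank_bot] at h1
      omega
    obtain ⟨x, y₃, hxy⟩ := hhT
    have hh : g⁻¹ * e * g ∈ M := M.mul_mem (M.mul_mem (M.inv_mem hg) heM) hg
    obtain ⟨c', hwc, hzc, hc'⟩ : ∃ c', S.be w c' = 0 ∧ S.be z c' = 0 ∧
        (S.be (y₃ w) c' ≠ 0 ∨ S.be (y₃ z) c' ≠ 0) := by
      by_contra! h0
      obtain ⟨k, l, h1⟩ := hL.eq_combo (v := y₃ w) fun c h h' => (h0 c h h').1
      obtain ⟨k', l', h2⟩ := hL.eq_combo (v := y₃ z) fun c h h' => (h0 c h h').2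
      obtain ⟨X, hX, hX'⟩ := hnot
      refine hX' ((hTmem _).2 ?_)
      rw [show g⁻¹ (e X) = (g⁻¹ * e * g) (g⁻¹ X) by
        change _ = g⁻¹ (e (g (g⁻¹ X))); rw [hgg]]
      obtain ⟨p, q, hpq⟩ := mem_memL.1 ((hTmem X).1 hX)
      rw [← hpq, map_add, hxy, hxy, h1, h2]
      simp only [map_add, map_smul]
      have e1 : ∀ a, S.tp a w ∈ memL S w z := fun a => Submodule.mem_sup_left (S.tp_mem a w)
      have e2 : ∀ a, S.tp a z ∈ memL S w z := fun a => Submodule.mem_sup_right (S.tp_mem a z)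
      exact add_mem (add_mem (Submodule.smul_mem _ _ (e1 _)) (Submodule.smul_mem _ _ (e2 _)))
        (add_mem (Submodule.smul_mem _ _ (e1 _)) (Submodule.smul_mem _ _ (e2 _)))
    set α := S.be (y₃ w) c'
    set β := S.be (y₃ z) c'
    set w₀ := β • w - α • z with hw₀
    have hw₀s : S.be w₀ w₀ = 0 := by simp [hw₀, hL.ww, hL.zz, hL.wz, S.beN.symm z w]
    have hw₀0 : w₀ ≠ 0 := fun h0 => by
      obtain ⟨w', z', g1, g2, g3, g4⟩ := hL.dual
      have e1 := congrArg (fun v => S.be v w') h0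
      have e2 := congrArg (fun v => S.be v z') h0
      simp [hw₀, g1, g2, g3, g4] at e1 e2
      rcases hc' with h | h
      · exact h e2
      · exact h e1
    have hfixh : ∀ X ∈ Tw.map (g⁻¹ : V ≃ₗ[F] V).toLinearMap, (g⁻¹ * e * g) X = X := by
      rintro _ ⟨X, hX, rfl⟩
      change g⁻¹ (e (g (g⁻¹ X))) = g⁻¹ X
      rw [hgg, hefix X hX]
    have hle : Tw.map (g⁻¹ : V ≃ₗ[F] V).toLinearMap ≤ S.mem w₀ := by
      intro Y hY
      have hY' : Y ∈ memL S w z := by
        obtain ⟨X, hX, rfl⟩ := hY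
        exact (hTmem X).1 hX.1
      obtain ⟨p, q, rfl⟩ := mem_memL.1 hY'
      have h1 := congrArg (S.con c') (hfixh _ hY)
      rw [map_add, hxy, hxy, map_add, map_add, S.con_tp, S.con_tp, S.con_tp, S.con_tp, hwc, hzc, zero_smul,
        zero_smul, add_zero, ← map_smul, ← map_smul, ← map_add, LinearEquiv.map_eq_zero_iff] at h1
      change α • p + β • q = 0 at h1
      refine S.mem_mem.2 ?_
      by_cases hβ : β = 0
      · have hα : α ≠ 0 := hc'.resolve_right (fun h => h hβ)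
        rw [hβ, zero_smul, add_zero, smul_eq_zero, or_iff_right hα] at h1
        refine ⟨(-α⁻¹) • q, ?_⟩
        simp [hw₀, hβ, h1, smul_smul, hα]
      · have hq : q = -(α / β) • p := by
          rw [div_eq_inv_mul, neg_smul, ← smul_smul, eq_neg_of_add_eq_zero_left h1, smul_neg, neg_neg,
            inv_smul_smul₀ hβ]
        refine ⟨β⁻¹ • p, ?_⟩
        rw [hq, hw₀]
        simp only [map_sub, map_smul, LinearMap.smul_apply]
        match_scalars <;> field_simp
    have heq := Submodule.eq_of_le_of_finrank_le hle (by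
      rw [S.finrank_mem hw₀0, LinearEquiv.finrank_map_eq]; exact hTwdim)
    obtain ⟨y₄, -, hy₄⟩ := H.eq_right_of_fix hcl hh hw₀s hw₀0 fun a =>
      hfixh _ (heq ▸ S.tp_mem a w₀)
    refine hgT ?_
    have := H.isT_of_conj_short hcl (M.inv_mem hg) hL₂.ww hL₂.ne_left hwv hv₀' (y := y₄)
      (by rw [inv_inv]; exact hy₄)
    simpa using S.isT_inv this
  · -- one eigenvector of each kind
    obtain ⟨v, hv, hyv⟩ : ∃ v, (v = w₂ ∨ v = z₂) ∧ y v ≠ -v := by
      by_contra! h0
      exact hall ⟨h0 w₂ (Or.inl rfl), h0 z₂ (Or.inr rfl)⟩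
    obtain ⟨v', hv', hyv'⟩ : ∃ v, (v = w₂ ∨ v = z₂) ∧ y v ≠ v := by
      by_contra! h0
      obtain ⟨p, q, rfl⟩ := mem_memL.1 hu₀
      refine hju₀ ?_
      rw [map_add, hjy, hjy, h0 w₂ (Or.inl rfl), h0 z₂ (Or.inr rfl)]
    obtain ⟨k, l, hkl⟩ := hyL v hv
    obtain ⟨k', l', hkl'⟩ := hyL v' hv'
    have hvK : ∀ v, (v = w₂ ∨ v = z₂) → v ∈ K₂ := by
      rintro v (rfl | rfl) <;> exact Submodule.subset_span (by simp)
    set q := v + y v with hq
    set p := v' - y v' with hp
    have hqK : q ∈ K₂ := K₂.add_mem (hvK v hv) (hkl ▸ Submodule.mem_span_pair.2 ⟨k, l, rfl⟩)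
    have hpK : p ∈ K₂ := K₂.sub_mem (hvK v' hv') (hkl' ▸ Submodule.mem_span_pair.2 ⟨k', l', rfl⟩)
    have hyq : y q = q := by rw [hq, map_add, hyy, add_comm]
    have hyp : y p = -p := by rw [hp, map_sub, hyy, neg_sub]
    have hq0 : q ≠ 0 := fun h0 => hyv (eq_neg_of_add_eq_zero_right h0)
    have hp0 : p ≠ 0 := fun h0 => hyv' (sub_eq_zero.1 h0).symm
    obtain ⟨qa, qb, hqab⟩ := Submodule.mem_span_pair.1 hqK
    obtain ⟨pa, pb, hpab⟩ := Submodule.mem_span_pair.1 hpK
    have hqq : S.be q q = 0 := by rw [← hqab]; exact hL₂.singular_combo _ _ _ _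
    have hind : ∀ c : F, p ≠ c • q := fun c hc => hp0 (by
      have h1 := congrArg y hc
      rw [map_smul, hyp, hyq, ← hc] at h1
      rw [neg_eq_iff_add_eq_zero, ← two_smul F] at h1
      exact (smul_eq_zero.1 h1).resolve_left h2F)
    have hL' : IsLine S q p := IsLine.of_indep hqq (by rw [← hpab]; exact hL₂.singular_combo _ _ _ _)
      (by rw [← hpab, ← hqab]; exact hL₂.singular_combo _ _ _ _) hq0 hind
    have hsub : memL S q p = U := by
      refine Submodule.eq_of_le_of_finrank_le (fun X hX => ?_) (by rw [hL'.finrank_memL, hL₂.finrank_memL])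
      obtain ⟨a, b, rfl⟩ := mem_memL.1 hX
      rw [← hqab, ← hpab]
      refine mem_memL.2 ⟨qa • a + pa • b, qb • a + pb • b, ?_⟩
      simp only [map_add, map_smul, LinearMap.add_apply, LinearMap.smul_apply]
      abel
    have hDq : D ≤ S.mem q := fun Y hY => by
      obtain ⟨a, b, rfl⟩ := mem_memL.1 (hsub.symm ▸ hY.2 : Y ∈ memL S q p)
      have e1 := hjD _ hY
      rw [map_add, hjy, hjy, hyq, hyp, map_neg, add_right_inj, neg_eq_iff_add_eq_zero, ← two_smul F] at e1
      rw [(smul_eq_zero.1 e1).resolve_left h2F, add_zero]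
      exact S.tp_mem a q
    have hδ : finrank F D < finrank F A := by
      by_contra hge
      push Not at hge
      have heq := Submodule.eq_of_le_of_finrank_le hDq (by rw [S.finrank_mem hq0]; exact hge)
      refine hgT (H.isT_of_conj_long hcl hg hL (H.isT_of_point hcl hxPM hqq hq0 hqq hq0 fun a => ?_))
      change (g * E₁ * g⁻¹) (S.tp a q) ∈ _
      have : S.tp a q ∈ D := heq.symm ▸ S.tp_mem a q
      rw [hxP, hPT _ this.1, add_zero]
      exact S.tp_mem a q
    -- the fixed space is large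
    have hFx3 : 3 ≤ finrank F Fx := by
      have h1 : finrank F ↥(K₂ ⊓ En) < finrank F K₂ := Submodule.finrank_lt_finrank_of_lt
        (SetLike.lt_iff_le_and_exists.2 ⟨inf_le_left, q, hqK, fun h => hq0 (by
          have e1 := ((hEn' q).1 h.2).symm.trans hyq
          rw [neg_eq_iff_add_eq_zero, ← two_smul F] at e1
          exact (smul_eq_zero.1 e1).resolve_left h2F)⟩)
      have h2 : finrank F ↥(LinearMap.range Ψ) < finrank F (F × F) := by
        refine Submodule.finrank_lt fun htop => hq0 ?_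
        have hz : ∀ r ∈ LinearMap.range Ψ, qa * r.1 + qb * r.2 = 0 := by
          rintro _ ⟨⟨v, hv⟩, rfl⟩
          have := horth v q ((hEn' v).1 hv) hyq
          rw [← hqab] at this
          simpa [Ψ] using this
        have g1 := hz (1, 0) (htop ▸ Submodule.mem_top)
        have g2 := hz (0, 1) (htop ▸ Submodule.mem_top)
        simp at g1 g2
        rw [← hqab, g1, g2]
        simp
      rw [finrank_prod, finrank_self] at h2
      omega
    have hNF := S.beN.nice_fix hy hyy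
    obtain ⟨u', hu'0, hu'u'⟩ := CfsgLib.C3Max.Orth.exists_isotropic hNF.two _ hNF.symm hFx3
    obtain ⟨c', hu'c', hc'c'⟩ := hNF.exists_aniso_perp hu'0 hu'u' hFx3
    set u : B := (u' : B)
    set c : B := (c' : B)
    have huu : S.be u u = 0 := hu'u'
    have huc : S.be u c = 0 := hu'c'
    have hcc : S.be c c ≠ 0 := hc'c'
    have hu0 : u ≠ 0 := fun h0 => hu'0 (Subtype.ext h0)
    -- a negated member of the image
    obtain ⟨y', hy', hjy', hyL'⟩ := H.exists_right_of_line hcl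
      (j := g⁻¹ * j * g) (M.mul_mem (M.mul_mem (M.inv_mem hg) hjM) hg) hL
      (fun X hX => (hTmem _).1 (hjT _ ((hTmem _).2 ((hgg' X).symm ▸ hX))))
      (fun X hX => by
        have h1 := hjP (g X) (by
          change g (rootL S w z (g⁻¹ (g X))) = 0
          rw [hgg', hL.rootL_eq_zero.2 hX, map_zero])
        have h2 := (hTmem _).1 h1
        rw [map_sub, hgg'] at h2
        exact h2)
    obtain ⟨v₁, hv₁, hyv₁⟩ : ∃ v, (v = w ∨ v = z) ∧ y' v ≠ v := by
      by_contra! h0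
      obtain ⟨a, b, hab⟩ := mem_memL.1 ((hTmem t₀).1 ht₀)
      have h1 : (g⁻¹ * j * g) (g⁻¹ t₀) = g⁻¹ t₀ := by
        rw [← hab, map_add, hjy', hjy', h0 w (Or.inl rfl), h0 z (Or.inr rfl)]
      refine hjt₀ (g⁻¹.injective ?_)
      change g⁻¹ (j (g (g⁻¹ t₀))) = g⁻¹ t₀ at h1
      rwa [hgg] at h1
    set p₀ := v₁ - y' v₁ with hp₀
    have hp₀0 : p₀ ≠ 0 := fun h0 => hyv₁ (sub_eq_zero.1 h0).symm
    have hy'y' : ∀ v, y' (y' v) = v := fun v => by
      have h1 : (g⁻¹ * j * g) ((g⁻¹ * j * g) (S.tp a₀ v)) = S.tp a₀ v := by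
        change g⁻¹ (j (g (g⁻¹ (j (g (S.tp a₀ v)))))) = _
        rw [hgg, hjj, hgg']
      rw [hjy', hjy'] at h1
      simpa [ha] using congrArg (S.pi a₁) h1
    obtain ⟨k₁, l₁, hkl₁⟩ : ∃ k l : F, p₀ = k • w + l • z := by
      obtain ⟨k, l, hh⟩ := hyL' v₁ hv₁
      rcases hv₁ with rfl | rfl
      · exact ⟨1 - k, -l, by rw [hp₀, hh]; module⟩
      · exact ⟨-k, 1 - l, by rw [hp₀, hh]; module⟩
    have hp₀s : S.be p₀ p₀ = 0 := by rw [hkl₁]; exact hL.singular_combo _ _ _ _
    have hnegp : ∀ a, j (g (S.tp a p₀)) = -g (S.tp a p₀) := fun a => by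
      have h1 : (g⁻¹ * j * g) (S.tp a p₀) = -S.tp a p₀ := by
        rw [hjy', hp₀, map_sub, hy'y', ← map_neg, neg_sub]
      have h2 := congrArg g h1
      change g (g⁻¹ (j (g (S.tp a p₀)))) = _ at h2
      rwa [hgg, map_neg] at h2
    have hcon0 : ∀ (s : B), y s = s → ∀ a, S.con s (g (S.tp a p₀)) = 0 := fun s hs a => S.fN.nd _ fun a' => by
      rw [S.f_con]
      have h1 := H.iso j hjM (g (S.tp a p₀)) (S.tp a' s)
      rw [hnegp, hjy, hs, map_neg, LinearMap.neg_apply, neg_eq_iff_add_eq_zero, ← two_mul] at h1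
      exact (mul_eq_zero.1 h1).resolve_left h2F
    set e := S.tequiv (LinearEquiv.refl F A) (S.beN.sieE huu huc) with he
    have hefix : ∀ a, e (g (S.tp a p₀)) = g (S.tp a p₀) := fun a => by
      rw [he, S.right_sie_apply, hcon0 u ((hFx' u).1 u'.2) a, hcon0 c ((hFx' c).1 c'.2) a]
      simp
    have heM : e ∈ M := H.right u c huu huc
    have hX : ∀ Y ∈ (S.mem p₀).map (g : V →ₗ[F] V), Y ∈ T ∧ ∃ t ∈ T, e t = Y := by
      rintro _ ⟨Y, hY, rfl⟩
      obtain ⟨a, rfl⟩ := S.mem_mem.1 hY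
      have hmem : g (S.tp a p₀) ∈ T := by
        refine ⟨_, mem_memL.2 ⟨k₁ • a, l₁ • a, ?_⟩, rfl⟩
        rw [hkl₁]; simp
      exact ⟨hmem, _, hmem, hefix a⟩
    have hhT := killT e heM _ hX (by rw [LinearEquiv.finrank_map_eq, S.finrank_mem hp₀0]; exact hδ)
    obtain ⟨y₄, -, hy₄⟩ := H.eq_right_of_fix hcl (M.mul_mem (M.mul_mem (M.inv_mem hg) heM) hg) hp₀s hp₀0
      fun a => by
        change g⁻¹ (e (g (S.tp a p₀))) = _
        rw [hefix, hgg']
    refine hgT ?_
    have := H.isT_of_conj_short hcl (M.inv_mem hg) huu hu0 huc hcc (y := y₄) (by rw [inv_inv]; exact hy₄)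
    simpa using S.isT_inv this

/-- Without root coefficients every element of the group is a tensor map. -/
theorem isT_all (hcl : Clean S M) {g : V ≃ₗ[F] V} (hg : g ∈ M) : S.IsT g := by
  have : FiniteDimensional F V := S.finiteDimensional
  have key : ∀ n, ∀ g ∈ M, ∀ w z w₂ z₂, IsLine S w z → IsLine S w₂ z₂ →
      2 * finrank F A ≤ finrank F ↥((memL S w z).map (g : V →ₗ[F] V) ⊓ memL S w₂ z₂) + n → S.IsT g := by
    intro n
    induction n with
    | zero =>
      intro g hg w z w₂ z₂ hL hL₂ h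
      have heq : (memL S w z).map (g : V →ₗ[F] V) ⊓ memL S w₂ z₂ = (memL S w z).map (g : V →ₗ[F] V) :=
        Submodule.eq_of_le_of_finrank_le inf_le_left (by
          rw [LinearEquiv.finrank_map_eq, hL.finrank_memL]
          simpa using h)
      exact H.isT_of_line hcl hg hL hL₂ (inf_eq_left.1 heq)
    | succ n ih =>
      intro g hg w z w₂ z₂ hL hL₂ h
      by_cases h' : 2 * finrank F A ≤ finrank F ↥((memL S w z).map (g : V →ₗ[F] V) ⊓ memL S w₂ z₂) + n
      · exact ih g hg w z w₂ z₂ hL hL₂ h'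
      exact H.isT_step hcl hg hL hL₂ (by omega) fun k hk p q p₂ q₂ hp hp₂ hlt =>
        ih k hk p q p₂ q₂ hp hp₂ (by omega)
  obtain ⟨w, w', hw, hw', hww'⟩ := S.beN.exists_pair (by have := H.hB5; omega)
  obtain ⟨u, u', h1, h2, h3, h4, huu, -, huu'⟩ := S.beN.exists_pair_perp H.hB5 hw hw' hww'
  have hL : IsLine S w u := IsLine.of_indep hw huu h1 (S.beN.ne_zero_of_pair hww').1 fun k hk => by
    rw [hk, map_smul, LinearMap.smul_apply, smul_eq_mul] at huu'
    simp [h3] at huu'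
  exact key _ g hg w u w u hL hL le_add_self

end Ctx

end CfsgLib.OTensor96
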