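import Cfsg.Agent.OTensor96.Spread

/-!
Maximality of the stabiliser of a tensor product of two orthogonal spaces.
-/

set_option autoImplicit false
set_option linter.unusedSectionVars false
set_option linter.unusedVariables false
set_option linter.unusedSimpArgs false

namespace CfsgLib.OTensor96

open Module Cfsg.Geo CfsgLib.OrthGeo CfsgLib.FieldExtMax
open scoped Matrix MatrixGroups commutatorElement

namespace Nice

variable {F W : Type*} [Field F] [AddCommGroup W] [Module F W] [FiniteDimensional F W]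
  {b : LinearMap.BilinForm F W}

/-- The reflection at an anisotropic vector, as a linear map. -/
noncomputable def reflMap (b : LinearMap.BilinForm F W) (d : W) : W →ₗ[F] W :=
  LinearMap.id - ((2 / b d d) • b d).smulRight d

lemma reflMap_apply (d z : W) : reflMap b d z = z - (2 / b d d * b d z) • d := by simp [reflMap]

lemma reflMap_sq {d : W} (hd : b d d ≠ 0) (z : W) : reflMap b d (reflMap b d z) = z := by
  simp only [reflMap_apply, map_sub, map_smul, smul_eq_mul]
  match_scalars <;> field_simp <;> ring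

/-- The reflection at an anisotropic vector. -/
noncomputable def reflE (hb : Nice b) {d : W} (hd : b d d ≠ 0) : W ≃ₗ[F] W :=
  LinearEquiv.ofLinearMap (reflMap b d) (reflMap b d) (LinearMap.ext (reflMap_sq hd))
    (LinearMap.ext (reflMap_sq hd))

lemma reflE_apply (hb : Nice b) {d : W} (hd : b d d ≠ 0) (z : W) :
    hb.reflE hd z = z - (2 / b d d * b d z) • d := reflMap_apply d z

lemma b_reflE (hb : Nice b) {d : W} (hd : b d d ≠ 0) (u v : W) :
    b (hb.reflE hd u) (hb.reflE hd v) = b u v := by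
  simp only [hb.reflE_apply, map_sub, map_smul, LinearMap.sub_apply, LinearMap.smul_apply, smul_eq_mul,
    hb.symm u d]
  field_simp
  ring

lemma sieE_congr (hb : Nice b) {s d d' : W} (hs : b s s = 0) (hd : b s d = 0) (hd' : b s d' = 0)
    (h : d = d') : hb.sieE hs hd = hb.sieE hs hd' := by subst h; rfl

lemma sieE_mul (hb : Nice b) {s d d' : W} (hs : b s s = 0) (hd : b s d = 0) (hd' : b s d' = 0)
    (h : b s (d + d') = 0) : hb.sieE hs hd * hb.sieE hs hd' = hb.sieE hs h :=
  LinearEquiv.ext fun z => hb.sie_comp hs hd hd' z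

/-- A Siegel map of an anisotropic vector is a commutator. -/
lemma sieE_eq_commutator (hb : Nice b) {s d : W} (hs : b s s = 0) (hd : b s d = 0) (hdd : b d d ≠ 0)
    (hc : b s (-(2⁻¹ : F) • d) = 0) : hb.sieE hs hd = ⁅hb.reflE hdd, hb.sieE hs hc⁆ := by
  have h2 := hb.two
  have hn : b s ((2⁻¹ : F) • d) = 0 := by simp [hd]
  set σ := hb.reflE hdd
  have hσσ : σ⁻¹ = σ := rfl
  have h1 : σ * hb.sieE hs hc * σ = hb.sieE hs hn := LinearEquiv.ext fun z => by
    simp only [LinearEquiv.mul_apply, sieE_apply, σ, hb.reflE_apply, sie_apply, map_add, map_sub, map_smul,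
      LinearMap.add_apply, LinearMap.sub_apply, LinearMap.smul_apply, smul_eq_mul, hd, hb.symm d s, hb.symm d z]
    match_scalars <;> field_simp <;> ring
  rw [commutatorElement_def, hσσ, h1, eq_mul_inv_iff_mul_eq, hb.sieE_mul hs hd hc (by simp [hd])]
  exact hb.sieE_congr hs _ _ (by
    rw [neg_smul, ← sub_eq_add_neg, sub_eq_iff_eq_add, ← add_smul]
    rw [show (2⁻¹ : F) + 2⁻¹ = 1 by field_simp; ring, one_smul])

/-- Siegel maps go into the commutator subgroup. -/
lemma sie_mem_omega {ι : Type} [Fintype ι] [DecidableEq ι] {Q : (ι → F) → F} (hb : Nice b)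
    (h3 : 3 ≤ finrank F W) (Φ : (W ≃ₗ[F] W) →* GL ι F)
    (hΦ : ∀ x, (∀ u v, b (x u) (x v) = b u v) → Φ x ∈ Cfsg.isometryGroup F Q) {s d : W}
    (hs : b s s = 0) (hd : b s d = 0) : Φ (hb.sieE hs hd) ∈ omegaGL Q := by
  have main : ∀ d (hd : b s d = 0), b d d ≠ 0 → Φ (hb.sieE hs hd) ∈ omegaGL Q := fun d hd hdd => by
    rw [hb.sieE_eq_commutator hs hd hdd (by simp [hd]), map_commutatorElement]
    exact commutator_mem_omegaGL (hΦ _ (hb.b_reflE hdd)) (hΦ _ (hb.b_sie hs (by simp [hd])))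
  by_cases hdd : b d d ≠ 0
  · exact main d hd hdd
  push Not at hdd
  rcases eq_or_ne s 0 with rfl | hs0
  · have : hb.sieE hs hd = 1 := LinearEquiv.ext fun z => by simp
    rw [this, map_one]
    exact one_mem _
  obtain ⟨k, hk, hkk⟩ := hb.exists_aniso_perp hs0 hs h3
  obtain ⟨k', hk', hdk⟩ := hb.exists_aniso_shift hdd hkk
  have hk's : b s k' = 0 ∧ b k' k' ≠ 0 := by rcases hk' with rfl | rfl <;> simp [hk, hkk]
  have h' : b s (d - k' + k') = 0 := by simpa using hd
  rw [hb.sieE_congr hs hd h' (sub_add_cancel d k').symm,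
    ← hb.sieE_mul hs (show b s (d - k') = 0 by simp [hd, hk's.1]) hk's.1 h', map_mul]
  exact mul_mem (main _ _ hdk) (main _ _ hk's.2)

end Nice

variable {ι : Type} [Fintype ι] [DecidableEq ι] {F A B : Type*} [Field F] [Fintype F] [AddCommGroup A]
  [Module F A] [AddCommGroup B] [Module F B] [FiniteDimensional F A] [FiniteDimensional F B]
  {Q : (ι → F) → F}

lemma Setting.tequiv_mul (S : Setting F A B (ι → F)) (x x' : A ≃ₗ[F] A) (y y' : B ≃ₗ[F] B) :
    S.tequiv (x * x') (y * y') = S.tequiv x y * S.tequiv x' y' :=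
  S.equiv_ext fun a w => by simp [LinearEquiv.mul_apply]

/-- The stabiliser of a tensor decomposition into orthogonal spaces is maximal. -/
theorem isMaximalIn_tensor (hQ : IsNondegenerateQuadraticForm Q) (S : Setting F A B (ι → F))
    (hform : ∀ X Y, S.form X Y = bform hQ X Y) (hn : 5 ≤ Fintype.card ι)
    (hA3 : 3 ≤ finrank F A) (hB5 : 5 ≤ finrank F B) (hk : 4 ≤ finrank F A ∨ ∃ k : F, k ≠ 0 ∧ k ^ 2 ≠ 1)
    (hAI : 5 ≤ finrank F A ∨ ∀ s y, s ≠ 0 → S.f s s = 0 → S.f y y = 0 → S.f s y = 0 → ∃ k : F, y = k • s)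
    (hdvd : ¬ finrank F B ∣ finrank F A) (HT : Subgroup (GL ι F))
    (hin : ∀ (g : GL ι F) (x : A ≃ₗ[F] A) (y : B ≃ₗ[F] B),
      (∀ a w, (g : Matrix ι ι F) *ᵥ S.tp a w = S.tp (x a) (y w)) → g ∈ HT)
    (hout : ∀ g ∈ HT, S.IsT (glEquiv g)) :
    IsMaximalIn (omegaGL Q) (HT ⊓ omegaGL Q) := by
  refine ⟨lt_of_le_not_ge inf_le_right fun hle => ?_, fun M hHM hMG => ?_⟩
  · -- a root element is not a tensor map
    obtain ⟨a, a', haa, ha'a', ha⟩ := S.fN.exists_pair hA3
    obtain ⟨w, w', hw, hw', hww'⟩ := S.beN.exists_pair (by omega : 3 ≤ finrank F B)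
    have h : bform hQ (S.tp a' w) (S.tp a w) = 0 := by rw [bform_tp hQ hform, hw, mul_zero]
    obtain ⟨x, y, hxy⟩ := hout _ (hle (eichler_mem_omega hQ hn (q_tp hQ hform hw) h)).1
    have hc : ∀ c z, S.tp (x c) (y z) =
        S.tp c z + (S.f a c * S.be w z) • S.tp a' w - (S.f a' c * S.be w z) • S.tp a w := fun c z => by
      rw [← hxy, glEquiv_apply, eichler_tp hQ hform hw h]
    set k := S.be (y w) w'
    have hk1 : ∀ c, k • x c = c := fun c => by
      have := congrArg (S.con w') (hc c w)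
      simpa [hw, hww'] using this
    set μ := S.be (y w') w'
    have hμ : ∀ c, μ • x c = S.f a c • a' - S.f a' c • a := fun c => by
      have := congrArg (S.con w') (hc c w')
      simpa [hw, hw', hww'] using this
    obtain ⟨c, hac, ha'c, hcc⟩ := S.fN.exists_aniso_pair haa ha'a' ha hA3
    have hk0 : k ≠ 0 := fun h0 => hcc (by rw [← hk1 c, h0, zero_smul]; simp)
    have hμ0 : μ = 0 := by
      have := hμ c
      rw [hac, ha'c, zero_smul, zero_smul, sub_zero, smul_eq_zero] at this
      refine this.resolve_right fun h0 => hcc ?_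
      rw [← hk1 c, h0, smul_zero]; simp
    have := hμ a
    rw [hμ0, zero_smul, haa, zero_smul, zero_sub, S.fN.symm, ha, one_smul, zero_eq_neg] at this
    exact (S.fN.ne_zero_of_pair ha).1 this
  have hMI : M ≤ Cfsg.isometryGroup F Q := hMG.trans omegaGL_le
  set M' := M.map (glEquiv : GL ι F ≃* _).toMonoidHom with hM'
  have hmem : ∀ g, glEquiv g ∈ M' ↔ g ∈ M :=
    fun g => Subgroup.mem_map_equiv.trans (by rw [MulEquiv.symm_apply_apply])
  have hiso : ∀ g : GL ι F, (∀ X Y, S.form (glEquiv g X) (glEquiv g Y) = S.form X Y) →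
      g ∈ Cfsg.isometryGroup F Q := fun g hg => mem_isometryGroup.2 fun X => by
    have h1 := hg X X
    rw [hform, hform, b_self hQ, b_self hQ] at h1
    exact mul_left_cancel₀ S.fN.two h1
  let Φ : (A ≃ₗ[F] A) →* GL ι F := MonoidHom.mk'
    (fun x => glEquiv.symm (S.tequiv x (LinearEquiv.refl F B)))
    (fun x x' => by rw [← map_mul, ← S.tequiv_mul]; rfl)
  let Ψ : (B ≃ₗ[F] B) →* GL ι F := MonoidHom.mk'
    (fun y => glEquiv.symm (S.tequiv (LinearEquiv.refl F A) y))
    (fun y y' => by rw [← map_mul, ← S.tequiv_mul]; rfl)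
  have hΦ : ∀ x, (∀ u v, S.f (x u) (x v) = S.f u v) → Φ x ∈ Cfsg.isometryGroup F Q := fun x hx =>
    hiso _ (by
      simp only [Φ, MonoidHom.mk'_apply, MulEquiv.apply_symm_apply]
      exact S.preserves_of_tp fun a w a' w' => by simp [S.form_tp, hx])
  have hΨ : ∀ y, (∀ u v, S.be (y u) (y v) = S.be u v) → Ψ y ∈ Cfsg.isometryGroup F Q := fun y hy =>
    hiso _ (by
      simp only [Ψ, MonoidHom.mk'_apply, MulEquiv.apply_symm_apply]
      exact S.preserves_of_tp fun a w a' w' => by simp [S.form_tp, hy])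
  have hinM : ∀ x y, glEquiv.symm (S.tequiv x y) ∈ omegaGL Q → S.tequiv x y ∈ M' := fun x y h => by
    rw [← glEquiv.apply_symm_apply (S.tequiv x y), hmem]
    refine hHM ⟨hin _ x y fun a w => ?_, h⟩
    rw [← glEquiv_apply, MulEquiv.apply_symm_apply, S.tequiv_tp]
  have H : Ctx S M' :=
    { iso := fun g hg X Y => by
        obtain ⟨g, hgM, rfl⟩ := hg
        rw [hform, hform]
        exact isometry_b hQ (hMI hgM) X Y
      left := fun s d hs hd => hinM _ _ (S.fN.sie_mem_omega hA3 Φ hΦ hs hd)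
      right := fun s d hs hd => hinM _ _ (S.beN.sie_mem_omega (by omega) Ψ hΨ hs hd)
      hA3 := hA3
      hB5 := hB5
      hk := hk
      hAI := hAI
      hdvd := hdvd }
  by_cases hcl : Clean S M'
  · refine Or.inl (le_antisymm (fun g hg => ⟨?_, hMG hg⟩) hHM)
    obtain ⟨x, y, hxy⟩ := H.isT_all hcl ((hmem g).2 hg)
    exact hin g x y fun a w => hxy a w
  · refine Or.inr (le_antisymm hMG (omega_le_of_roots hQ hform hn hA3 hB5 hMI fun v hv0 hv a a' => ?_))
    exact eIn_of_root hQ hform hv (H.roots_of_not_clean hcl hv0 hv a a')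

end CfsgLib.OTensor96
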