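import Cfsg.Agent.C3Max.OrthPair

/-!
Symmetric forms in odd characteristic: Siegel maps, singular vectors and their spans.
-/

set_option autoImplicit false
set_option linter.unusedSectionVars false
set_option linter.unusedVariables false
set_option linter.unusedSimpArgs false

namespace CfsgLib.OTensor96

open Module

variable {F W : Type*} [Field F] [AddCommGroup W] [Module F W]

/-- A non-degenerate symmetric form in odd characteristic. -/
structure Nice (b : LinearMap.BilinForm F W) : Prop where
  symm : ∀ u v, b u v = b v u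
  nd : ∀ u, (∀ v, b u v = 0) → u = 0
  two : (2 : F) ≠ 0

variable (b : LinearMap.BilinForm F W)

/-- The Siegel map of a singular vector `s` and a vector `d` orthogonal to it. -/
noncomputable def sie (s d : W) : W →ₗ[F] W :=
  LinearMap.id + (LinearMap.toSpanSingleton F W d).comp (b.flip s)
    - (LinearMap.toSpanSingleton F W s).comp (b.flip d + (b d d / 2) • b.flip s)

@[simp] lemma sie_apply (s d z : W) :
    sie b s d z = z + b z s • d - (b z d + b d d / 2 * b z s) • s := by simp [sie]

/-- The map `z ↦ b(a,z) c - b(c,z) a`. -/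
def wedge (a c : W) : W →ₗ[F] W := (b a).smulRight c - (b c).smulRight a

@[simp] lemma wedge_apply (a c z : W) : wedge b a c z = b a z • c - b c z • a := rfl

variable {b}

namespace Nice

lemma nondeg (hb : Nice b) : b.Nondegenerate :=
  ⟨hb.nd, fun y h => hb.nd y fun x => by rw [hb.symm]; exact h x⟩

lemma ext_left (hb : Nice b) {u v : W} (h : ∀ x, b u x = b v x) : u = v :=
  sub_eq_zero.1 (hb.nd _ fun x => by simp [h])

lemma wedge_skew (hb : Nice b) (a c x y : W) : b (wedge b a c x) y = - b x (wedge b a c y) := by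
  simp [hb.symm x a, hb.symm x c]
  ring

lemma wedge_comp (hb : Nice b) {X : W →ₗ[F] W} (hX : ∀ x y, b (X x) y = - b x (X y)) (a c z : W) :
    X (wedge b a c z) - wedge b a c (X z) = wedge b (X a) c z + wedge b a (X c) z := by
  simp only [wedge_apply, map_sub, map_smul]
  rw [hX a z, hX c z]
  module

section sie

variable {s d : W}

lemma sie_self (hb : Nice b) (hs : b s s = 0) (hd : b s d = 0) : sie b s d s = s := by
  simp [hs, hd, hb.symm]

lemma sie_comp (hb : Nice b) (hs : b s s = 0) {d' : W} (hd : b s d = 0) (hd' : b s d' = 0) (z : W) :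
    sie b s d (sie b s d' z) = sie b s (d + d') z := by
  have h2 := hb.two
  simp only [sie_apply, map_add, map_sub, map_smul, LinearMap.add_apply, LinearMap.sub_apply,
    LinearMap.smul_apply, smul_eq_mul, hs, hd, hd', hb.symm d' s, hb.symm d' d]
  match_scalars <;> field_simp <;> ring

lemma sie_zero (z : W) : sie b s 0 z = z := by simp

lemma sie_comp_neg (hb : Nice b) (hs : b s s = 0) (hd : b s d = 0) (z : W) :
    sie b s d (sie b s (-d) z) = z := by
  rw [hb.sie_comp hs hd (by simp [hd]), add_neg_cancel, sie_zero]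

lemma sie_neg_comp (hb : Nice b) (hs : b s s = 0) (hd : b s d = 0) (z : W) :
    sie b s (-d) (sie b s d z) = z := by
  rw [hb.sie_comp hs (by simp [hd]) hd, neg_add_cancel, sie_zero]

lemma b_sie (hb : Nice b) (hs : b s s = 0) (hd : b s d = 0) (x y : W) :
    b (sie b s d x) (sie b s d y) = b x y := by
  have h2 := hb.two
  simp only [sie_apply, map_add, map_sub, map_smul, LinearMap.add_apply, LinearMap.sub_apply,
    LinearMap.smul_apply, smul_eq_mul, hs, hd, hb.symm d s, hb.symm d y, hb.symm s y]
  field_simp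
  ring

/-- The Siegel map as an automorphism. -/
noncomputable def sieE (hb : Nice b) (hs : b s s = 0) (hd : b s d = 0) : W ≃ₗ[F] W :=
  LinearEquiv.ofLinearMap (sie b s d) (sie b s (-d))
    (LinearMap.ext fun z => hb.sie_comp_neg hs hd z)
    (LinearMap.ext fun z => hb.sie_neg_comp hs hd z)

@[simp] lemma sieE_apply (hb : Nice b) (hs : b s s = 0) (hd : b s d = 0) (z : W) :
    hb.sieE hs hd z = sie b s d z := rfl

@[simp] lemma sieE_symm_apply (hb : Nice b) (hs : b s s = 0) (hd : b s d = 0) (z : W) :
    (hb.sieE hs hd).symm z = sie b s (-d) z := rfl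

end sie

/-- A singular vector has a singular partner. -/
lemma exists_partner (hb : Nice b) {s : W} (hs : s ≠ 0) (hss : b s s = 0) :
    ∃ e, b e e = 0 ∧ b s e = 1 := by
  obtain ⟨y, hy⟩ : ∃ y, b s y ≠ 0 := by by_contra! h; exact hs (hb.nd s h)
  have h2 := hb.two
  refine ⟨(b s y)⁻¹ • y - (((b s y)⁻¹) ^ 2 * b y y / 2) • s, ?_, by simp [hss, hy]⟩
  simp only [map_sub, map_smul, LinearMap.sub_apply, LinearMap.smul_apply, smul_eq_mul, hss,
    hb.symm y s]
  field_simp
  ring

lemma ne_zero_of_pair (hb : Nice b) {s e : W} (h : b s e = 1) : s ≠ 0 ∧ e ≠ 0 :=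
  ⟨fun h0 => by simp [h0] at h, fun h0 => by simp [h0] at h⟩

/-- The component of a vector orthogonal to a hyperbolic pair. -/
lemma split_pair (hb : Nice b) {s e : W} (hss : b s s = 0) (hee : b e e = 0) (hse : b s e = 1) (z : W) :
    b s (z - b z e • s - b z s • e) = 0 ∧ b e (z - b z e • s - b z s • e) = 0 := by
  refine ⟨?_, ?_⟩ <;> simp [hss, hee, hse, hb.symm e s, hb.symm s z, hb.symm e z]

lemma eq_zero_of_pair (hb : Nice b) {s e y : W} (hss : b s s = 0) (hee : b e e = 0) (hse : b s e = 1)
    (hys : b s y = 0) (hye : b e y = 0) (h : ∀ x, b s x = 0 → b e x = 0 → b y x = 0) : y = 0 := by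
  refine hb.nd y fun z => ?_
  obtain ⟨h1, h2⟩ := hb.split_pair hss hee hse z
  have := h _ h1 h2
  simpa [hb.symm y s, hb.symm y e, hys, hye] using this

variable [FiniteDimensional F W]

/-- The vectors orthogonal to a subspace of smaller dimension. -/
lemma exists_perp_ne (hb : Nice b) (P : Submodule F W) (hP : finrank F P < finrank F W) :
    ∃ x, x ≠ 0 ∧ ∀ p ∈ P, b p x = 0 := by
  have h1 := LinearMap.BilinForm.finrank_orthogonal hb.nondeg P
  have hne : b.orthogonal P ≠ ⊥ := fun h => by rw [h, finrank_bot] at h1; omega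
  obtain ⟨x, hx, hx0⟩ := Submodule.exists_mem_ne_zero_of_ne_bot hne
  exact ⟨x, hx0, fun p hp => hx p hp⟩

/-- An anisotropic vector orthogonal to a hyperbolic pair. -/
lemma exists_aniso_pair (hb : Nice b) {s e : W} (hss : b s s = 0) (hee : b e e = 0) (hse : b s e = 1)
    (h3 : 3 ≤ finrank F W) : ∃ y, b s y = 0 ∧ b e y = 0 ∧ b y y ≠ 0 := by
  classical
  obtain ⟨x, hx0, hx⟩ := hb.exists_perp_ne (Submodule.span F {s, e}) (by
    have := finrank_span_le_card (R := F) (M := W) ({s, e} : Set W)
    have h' : ({s, e} : Set W).toFinset.card ≤ 2 := by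
      rw [Set.toFinset_insert, Set.toFinset_singleton]; exact Finset.card_le_two
    omega)
  have hxs := hx s (Submodule.subset_span (by simp))
  have hxe := hx e (Submodule.subset_span (by simp))
  by_contra! h
  refine hx0 (hb.eq_zero_of_pair hss hee hse hxs hxe fun y hys hye => ?_)
  have h1 := h (x + y) (by simp [hxs, hys]) (by simp [hxe, hye])
  simp only [map_add, LinearMap.add_apply, h x hxs hxe, h y hys hye, hb.symm y x, zero_add, add_zero,
    ← two_mul] at h1
  exact (mul_eq_zero.1 h1).resolve_left hb.two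

/-- An anisotropic vector orthogonal to a singular vector. -/
lemma exists_aniso_perp (hb : Nice b) {s : W} (hs : s ≠ 0) (hss : b s s = 0) (h3 : 3 ≤ finrank F W) :
    ∃ y, b s y = 0 ∧ b y y ≠ 0 := by
  obtain ⟨e, hee, hse⟩ := hb.exists_partner hs hss
  obtain ⟨y, hy, -, hyy⟩ := hb.exists_aniso_pair hss hee hse h3
  exact ⟨y, hy, hyy⟩

/-- A hyperbolic pair. -/
lemma exists_pair [Finite F] (hb : Nice b) (h3 : 3 ≤ finrank F W) :
    ∃ s e, b s s = 0 ∧ b e e = 0 ∧ b s e = 1 := by
  obtain ⟨s, hs, hss⟩ := CfsgLib.C3Max.Orth.exists_isotropic hb.two b hb.symm h3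
  obtain ⟨e, hee, hse⟩ := hb.exists_partner hs hss
  exact ⟨s, e, hss, hee, hse⟩

/-- Two linear maps agreeing on a hyperbolic pair and on the singular vectors opposite to its second
member agree. -/
lemma ext_pair (hb : Nice b) {U : Type*} [AddCommGroup U] [Module F U] {f g : W →ₗ[F] U} {s e : W}
    (hss : b s s = 0) (hee : b e e = 0) (hse : b s e = 1) (hs : f s = g s) (he : f e = g e)
    (h : ∀ x, b x x = 0 → b x e = 1 → f x = g x) : f = g := by
  refine LinearMap.ext fun z => ?_
  obtain ⟨h1, h2⟩ := hb.split_pair hss hee hse z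
  set y := z - b z e • s - b z s • e with hy
  have hx := h (s - (b y y / 2) • e + y) ?_ ?_
  · have hyy : f y = g y := by simpa [hs, he] using hx
    have hz : z = y + b z e • s + b z s • e := by rw [hy]; abel
    rw [hz]
    simp [hs, he, hyy]
  · have := hb.two
    simp only [map_add, map_sub, map_smul, LinearMap.add_apply, LinearMap.sub_apply, LinearMap.smul_apply,
      smul_eq_mul, hss, hee, hse, h1, h2, hb.symm y s, hb.symm y e, hb.symm e s]
    field_simp
    ring
  · simp [hse, hee, hb.symm y e, h2]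

/-- Two linear maps agreeing on singular vectors agree. -/
lemma ext_singular [Finite F] (hb : Nice b) (h3 : 3 ≤ finrank F W) {U : Type*} [AddCommGroup U] [Module F U]
    {f g : W →ₗ[F] U} (h : ∀ s, s ≠ 0 → b s s = 0 → f s = g s) : f = g := by
  obtain ⟨s, e, hss, hee, hse⟩ := hb.exists_pair h3
  exact hb.ext_pair hss hee hse (h s (hb.ne_zero_of_pair hse).1 hss) (h e (hb.ne_zero_of_pair hse).2 hee)
    fun x hx hxe => h x (hb.ne_zero_of_pair hxe).1 hx

/-- A second anisotropic vector. -/
lemma exists_aniso_pair_two (hb : Nice b) {s e : W} (hss : b s s = 0) (hee : b e e = 0) (hse : b s e = 1)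
    (h4 : 4 ≤ finrank F W) {y : W} (hys : b s y = 0) (hye : b e y = 0) (hyy : b y y ≠ 0) :
    ∃ z, b s z = 0 ∧ b e z = 0 ∧ b y z = 0 ∧ b z z ≠ 0 := by
  classical
  obtain ⟨x, hx0, hx⟩ := hb.exists_perp_ne (Submodule.span F {s, e, y}) (by
    have := finrank_span_le_card (R := F) (M := W) ({s, e, y} : Set W)
    have h' : ({s, e, y} : Set W).toFinset.card ≤ 3 := by
      simp only [Set.toFinset_insert, Set.toFinset_singleton]; exact Finset.card_le_three
    omega)
  have hxs := hx s (Submodule.subset_span (by simp))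
  have hxe := hx e (Submodule.subset_span (by simp))
  have hxy := hx y (Submodule.subset_span (by simp))
  by_contra! h
  refine hx0 (hb.eq_zero_of_pair hss hee hse hxs hxe fun w hws hwe => ?_)
  set w' := w - (b y w / b y y) • y with hw'
  have h1 := h (x + w') (by simp [hw', hxs, hws, hys]) (by simp [hw', hxe, hwe, hye]) (by
    simp [hw', hxy, hyy])
  have h2 := h w' (by simp [hw', hws, hys]) (by simp [hw', hwe, hye]) (by simp [hw', hyy])
  simp only [map_add, LinearMap.add_apply, h x hxs hxe hxy, h2, hb.symm w' x, zero_add, add_zero,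
    ← two_mul] at h1
  have h3 := (mul_eq_zero.1 h1).resolve_left hb.two
  simpa [hw', hb.symm x y, hxy] using h3

/-- A non-singular vector among the translates. -/
lemma exists_aniso_shift (hb : Nice b) {d k : W} (hd : b d d = 0) (hk : b k k ≠ 0) :
    ∃ k', (k' = k ∨ k' = -k) ∧ b (d - k') (d - k') ≠ 0 := by
  by_cases h : b (d - k) (d - k) = 0
  · refine ⟨-k, Or.inr rfl, fun h' => hk ?_⟩
    simp only [sub_neg_eq_add, map_add, map_sub, LinearMap.add_apply, LinearMap.sub_apply, hd, hb.symm k d]
      at h h'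
    have : (2 : F) * b k k = 0 := by linear_combination h + h'
    exact (mul_eq_zero.1 this).resolve_left hb.two
  · exact ⟨k, Or.inl rfl, h⟩

/-- Two singular vectors are joined by Siegel maps, up to a scalar. -/
lemma exists_step (hb : Nice b) {u v z : W} (hu : b u u = 0) (hv : b v v = 0) (hz : b z z = 0)
    (hzu : b z u ≠ 0) (hzv : b z v ≠ 0) :
    ∃ d, b z d = 0 ∧ ∃ c : F, c ≠ 0 ∧ sie b z d u = c • v := by
  have h2 := hb.two
  refine ⟨(1 / b z v) • v - (b z u)⁻¹ • u, by simp [hzu, hzv], b z u / b z v, div_ne_zero hzu hzv, ?_⟩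
  simp only [sie_apply, map_sub, map_smul, LinearMap.sub_apply, LinearMap.smul_apply, smul_eq_mul, hu, hv,
    hb.symm u z, hb.symm u v]
  match_scalars <;> field_simp <;> ring

/-- A singular vector pairing non-trivially with two given ones. -/
lemma exists_common (hb : Nice b) (h5 : 5 ≤ finrank F W) {u v : W} (hu0 : u ≠ 0) (hv0 : v ≠ 0)
    (hu : b u u = 0) (hv : b v v = 0) (hind : ∀ k : F, v ≠ k • u) :
    ∃ z, b z z = 0 ∧ b z u ≠ 0 ∧ b z v ≠ 0 := by
  have h2 := hb.two
  by_cases huv : b u v = 0
  · obtain ⟨e, hee, hue⟩ := hb.exists_partner hu0 hu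
    obtain ⟨r, hr1, hr2⟩ : ∃ r, b u r = 0 ∧ b v r = 1 := by
      obtain ⟨y, hy⟩ : ∃ y, b (v - b v e • u) y ≠ 0 := by
        by_contra! h
        exact hind _ (sub_eq_zero.1 (hb.nd _ h))
      refine ⟨(b (v - b v e • u) y)⁻¹ • (y - b u y • e), by simp [hue], ?_⟩
      have hvy : b (v - b v e • u) y = b v y - b v e * b u y := by simp
      rw [hvy] at hy ⊢
      simp
      field_simp
    set y := e + (1 - b v e) • r with hy
    have hyu : b u y = 1 := by simp [hy, hue, hr1]
    have hyv : b v y = 1 := by simp [hy, hr2]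
    refine ⟨y - (b y y / 2) • u, ?_, ?_, ?_⟩
    · simp only [map_sub, map_smul, LinearMap.sub_apply, LinearMap.smul_apply, smul_eq_mul, hu, hb.symm y u, hyu]
      field_simp
      ring
    · simp [hu, hb.symm y u, hyu]
    · simp [huv, hb.symm y v, hyv]
  · set v' := (b u v)⁻¹ • v with hv'
    obtain ⟨y, hyu, hyv, hyy⟩ := hb.exists_aniso_pair (e := v') hu (by simp [hv', hv]) (by simp [hv', huv]) (by omega)
    refine ⟨u - (b y y / 2) • v' + y, ?_, ?_, ?_⟩
    · have hyv' : b v y = 0 := by simpa [hv', huv] using hyv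
      simp only [map_add, map_sub, map_smul, LinearMap.add_apply, LinearMap.sub_apply, LinearMap.smul_apply,
        smul_eq_mul, hu, hv, hv', hyu, hyv', hb.symm y u, hb.symm y v, hb.symm v u]
      field_simp
      ring
    · simp [hu, hv', hb.symm v u, hb.symm y u, hyu, hyy, h2, huv]
    · have hyv' : b v y = 0 := by simpa [hv', huv] using hyv
      simp [hv', hv, huv, hb.symm y v, hyv']

end Nice

end CfsgLib.OTensor96
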