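import Cfsg.Agent.OTensor96.Stab
import Cfsg.Agent.OrthGeo.Parity

/-!
Members of singular lines: their stabilisers and the conjugates of their root elements.
-/

set_option autoImplicit false
set_option linter.unusedSectionVars false
set_option linter.unusedVariables false
set_option linter.unusedSimpArgs false

namespace CfsgLib.OTensor96

open Module CfsgLib.FieldExtMax

namespace Nice

variable {F W : Type*} [Field F] [AddCommGroup W] [Module F W] [FiniteDimensional F W]
  {b : LinearMap.BilinForm F W}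

lemma isRefl (hb : Nice b) : b.IsRefl := fun x y h => by rw [hb.symm]; exact h

/-- A small subspace has an anisotropic vector orthogonal to it. -/
lemma exists_aniso_orth (hb : Nice b) (P : Submodule F W) (hP : 2 * finrank F P < finrank F W) :
    ∃ c, b c c ≠ 0 ∧ ∀ p ∈ P, b p c = 0 := by
  by_contra! h
  have hts : ∀ c ∈ b.orthogonal P, b c c = 0 := fun c hc => by
    by_contra h0
    obtain ⟨p, hp, hpc⟩ := h c h0
    exact hpc (hc p hp)
  have hle : b.orthogonal P ≤ b.orthogonal (b.orthogonal P) := fun x hx y hy => by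
    have h1 := hts (x + y) (Submodule.add_mem _ hx hy)
    simp only [map_add, LinearMap.add_apply, hts x hx, hts y hy, hb.symm y x, zero_add, add_zero,
      ← two_mul] at h1
    change b y x = 0
    rw [hb.symm]
    exact (mul_eq_zero.1 h1).resolve_left hb.two
  rw [LinearMap.BilinForm.orthogonal_orthogonal hb.nondeg hb.isRefl] at hle
  have := Submodule.finrank_mono hle
  rw [LinearMap.BilinForm.finrank_orthogonal hb.nondeg] at this
  omega

end Nice

variable {F A B V : Type*} [Field F] [AddCommGroup A] [Module F A] [AddCommGroup B]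
  [Module F B] [AddCommGroup V] [Module F V] [FiniteDimensional F A] [FiniteDimensional F B]
  {S : Setting F A B V}

/-- A singular line of the second factor with dual vectors. -/
structure IsLine (S : Setting F A B V) (w z : B) : Prop where
  ww : S.be w w = 0
  zz : S.be z z = 0
  wz : S.be w z = 0
  dual : ∃ w' z', S.be w w' = 1 ∧ S.be z w' = 0 ∧ S.be w z' = 0 ∧ S.be z z' = 1

lemma IsLine.of_indep {w z : B} (hww : S.be w w = 0) (hzz : S.be z z = 0) (hwz : S.be w z = 0)
    (hw : w ≠ 0) (hind : ∀ k : F, z ≠ k • w) : IsLine S w z := by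
  refine ⟨hww, hzz, hwz, ?_⟩
  obtain ⟨e, -, hwe⟩ := S.beN.exists_partner hw hww
  obtain ⟨y, hy⟩ : ∃ y, S.be (z - S.be z e • w) y ≠ 0 := by
    by_contra! h
    exact hind _ (sub_eq_zero.1 (S.beN.nd _ h))
  set z' := (S.be (z - S.be z e • w) y)⁻¹ • (y - S.be w y • e) with hz'
  have h1 : S.be w z' = 0 := by simp [hz', hwe]
  have h2 : S.be z z' = 1 := by
    have : S.be (z - S.be z e • w) y = S.be z y - S.be z e * S.be w y := by simp
    rw [this] at hy
    rw [hz', this]
    simp
    field_simp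
  exact ⟨e - S.be z e • z', z', by simp [h1, hwe], by simp [h2], h1, h2⟩

/-- The member of a line. -/
def memL (S : Setting F A B V) (w z : B) : Submodule F V := S.mem w ⊔ S.mem z

/-- The orthogonal of the member of a line. -/
noncomputable def perpL (S : Setting F A B V) (w z : B) : Submodule F V :=
  LinearMap.ker (S.con w) ⊓ LinearMap.ker (S.con z)

/-- The nilpotent part of the root element of a line. -/
noncomputable def rootL (S : Setting F A B V) (w z : B) : V →ₗ[F] V :=
  S.tp.flip z ∘ₗ S.con w - S.tp.flip w ∘ₗ S.con z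

@[simp] lemma rootL_apply (w z : B) (X : V) :
    rootL S w z X = S.tp (S.con w X) z - S.tp (S.con z X) w := by simp [rootL]

lemma mem_memL {w z : B} {X : V} : X ∈ memL S w z ↔ ∃ a b, S.tp a w + S.tp b z = X := by
  constructor
  · intro h
    obtain ⟨x, hx, y, hy, rfl⟩ := Submodule.mem_sup.1 h
    obtain ⟨a, rfl⟩ := S.mem_mem.1 hx
    obtain ⟨b, rfl⟩ := S.mem_mem.1 hy
    exact ⟨a, b, rfl⟩
  · rintro ⟨a, b, rfl⟩
    exact Submodule.add_mem _ (Submodule.mem_sup_left (S.tp_mem a w)) (Submodule.mem_sup_right (S.tp_mem b z))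

lemma mem_perpL {w z : B} {X : V} : X ∈ perpL S w z ↔ S.con w X = 0 ∧ S.con z X = 0 := by
  simp [perpL]

lemma perpL_iff {w z : B} {X : V} : X ∈ perpL S w z ↔ ∀ Y ∈ memL S w z, S.form X Y = 0 := by
  rw [mem_perpL]
  constructor
  · rintro ⟨h1, h2⟩ Y hY
    obtain ⟨a, b, rfl⟩ := mem_memL.1 hY
    simp [S.form_con, h1, h2]
  · intro h
    refine ⟨S.fN.nd _ fun a => ?_, S.fN.nd _ fun a => ?_⟩
    · rw [← S.form_con]; exact h _ (Submodule.mem_sup_left (S.tp_mem a w))
    · rw [← S.form_con]; exact h _ (Submodule.mem_sup_right (S.tp_mem a z))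

namespace IsLine

variable {w z : B} (hL : IsLine S w z)
include hL

lemma ne_left : w ≠ 0 := by
  rintro rfl
  obtain ⟨w', z', h, -⟩ := hL.dual
  simp at h

lemma ne_right : z ≠ 0 := by
  rintro rfl
  obtain ⟨w', z', -, -, -, h⟩ := hL.dual
  simp at h

lemma memL_le_perpL : memL S w z ≤ perpL S w z := fun X hX => by
  obtain ⟨a, b, rfl⟩ := mem_memL.1 hX
  rw [mem_perpL]
  simp [hL.ww, hL.zz, hL.wz, S.beN.symm z w]

lemma tp_pair_zero {a b : A} (h : S.tp a w + S.tp b z = 0) : a = 0 ∧ b = 0 := by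
  obtain ⟨w', z', h1, h2, h3, h4⟩ := hL.dual
  exact ⟨by simpa [h1, h2] using congrArg (S.con w') h, by simpa [h3, h4] using congrArg (S.con z') h⟩

lemma rootL_eq_zero {X : V} : rootL S w z X = 0 ↔ X ∈ perpL S w z := by
  rw [mem_perpL, rootL_apply]
  constructor
  · intro h
    obtain ⟨h1, h2⟩ := hL.tp_pair_zero (a := -S.con z X) (b := S.con w X)
      (by rw [map_neg, LinearMap.neg_apply, neg_add_eq_sub]; exact h)
    exact ⟨h2, neg_eq_zero.1 h1⟩
  · rintro ⟨h1, h2⟩
    simp [h1, h2]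

lemma rootL_mem (X : V) : rootL S w z X ∈ memL S w z :=
  mem_memL.2 ⟨-S.con z X, S.con w X, by rw [rootL_apply, map_neg, LinearMap.neg_apply, neg_add_eq_sub]⟩

lemma rootL_memL {X : V} (hX : X ∈ memL S w z) : rootL S w z X = 0 :=
  hL.rootL_eq_zero.2 (hL.memL_le_perpL hX)

lemma finrank_memL : finrank F (memL S w z) = 2 * finrank F A := by
  let Φ : A × A →ₗ[F] V := (S.tp.flip w).coprod (S.tp.flip z)
  have hinj : Function.Injective Φ := (injective_iff_map_eq_zero Φ).2 fun p hp => by
    obtain ⟨h1, h2⟩ := hL.tp_pair_zero (a := p.1) (b := p.2) (by simpa [Φ] using hp)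
    exact Prod.ext h1 h2
  have hr : LinearMap.range Φ = memL S w z := by
    rw [LinearMap.range_coprod]; rfl
  rw [← hr, LinearMap.finrank_range_of_inj hinj, finrank_prod, two_mul]

lemma rootE_apply (X : V) :
    S.tequiv (LinearEquiv.refl F A) (S.beN.sieE hL.ww hL.wz) X = X + rootL S w z X := by
  rw [S.right_sie_apply, hL.zz]
  simp
  abel

end IsLine

/-- An isometry acting on the second factor only, from a tensor map. -/
lemma right_of_scalar {g : V ≃ₗ[F] V} (hg : ∀ X Y, S.form (g X) (g Y) = S.form X Y) {x : A ≃ₗ[F] A}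
    {y : B ≃ₗ[F] B} (hxy : ∀ a w, g (S.tp a w) = S.tp (x a) (y w)) {c : F} (hc : ∀ a, c • x a = a)
    {a₀ a₁ : A} (ha : S.f a₀ a₁ = 1) :
    ∃ y' : B ≃ₗ[F] B, (∀ u v, S.be (y' u) (y' v) = S.be u v) ∧ ∀ a z, g (S.tp a z) = S.tp a (y' z) := by
  have hc0 : c ≠ 0 := fun h0 => (S.fN.ne_zero_of_pair ha).1 (by rw [← hc a₀, h0, zero_smul])
  have hy : ∀ a z, g (S.tp a z) = S.tp a (c⁻¹ • y z) := fun a z => by
    rw [hxy]
    conv_rhs => rw [← hc a]
    rw [map_smul, map_smul, LinearMap.smul_apply, smul_smul, inv_mul_cancel₀ hc0, one_smul]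
  refine ⟨y.trans (LinearEquiv.smulOfNeZero F B c⁻¹ (inv_ne_zero hc0)), fun u v => ?_, hy⟩
  have := hg (S.tp a₀ u) (S.tp a₁ v)
  rw [hy, hy, S.form_tp, S.form_tp, ha, one_mul, one_mul] at this
  exact this

/-- A linear map with every vector an eigenvector is scalar. -/
lemma scalar_of_eigen {g : A →ₗ[F] A} (h : ∀ c, ∃ k : F, g c = k • c) : ∃ k : F, ∀ c, g c = k • c := by
  rcases subsingleton_or_nontrivial A with hA | hA
  · exact ⟨0, fun c => Subsingleton.elim _ _⟩
  obtain ⟨c₀, hc₀⟩ := exists_ne (0 : A)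
  obtain ⟨k, hk⟩ := h c₀
  refine ⟨k, fun c => ?_⟩
  obtain ⟨l, hl⟩ := h c
  by_cases hdep : ∃ r : F, c = r • c₀
  · obtain ⟨r, rfl⟩ := hdep
    rw [map_smul, hk, smul_comm]
  obtain ⟨m, hm⟩ := h (c + c₀)
  rw [map_add, hl, hk, smul_add] at hm
  have h5 : (l - m) • c + (k - m) • c₀ = 0 := by linear_combination (norm := module) hm
  by_cases hlm : l - m = 0
  · rw [hlm, zero_smul, zero_add, smul_eq_zero, or_iff_left hc₀, sub_eq_zero] at h5
    rw [hl, sub_eq_zero.1 hlm, ← h5]
  · exact absurd ⟨-(k - m) / (l - m), by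
      rw [div_eq_inv_mul, ← smul_smul, neg_smul, ← eq_neg_of_add_eq_zero_left h5,
        inv_smul_smul₀ hlm]⟩ hdep

variable [Finite F] {M : Subgroup (V ≃ₗ[F] V)}

namespace Ctx

variable (H : Ctx S M)
include H

/-- An element conjugating a short Siegel map into the second factor is a tensor map. -/
lemma isT_of_conj_short (hcl : Clean S M) {g : V ≃ₗ[F] V} (hg : g ∈ M) {u c : B} (hu : S.be u u = 0)
    (hu0 : u ≠ 0) (huc : S.be u c = 0) (hc : S.be c c ≠ 0) {y : B ≃ₗ[F] B}
    (h : ∀ a z, (g * S.tequiv (LinearEquiv.refl F A) (S.beN.sieE hu huc) * g⁻¹) (S.tp a z) = S.tp a (y z)) :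
    S.IsT g := by
  have : FiniteDimensional F V := S.finiteDimensional
  set E := S.tequiv (LinearEquiv.refl F A) (S.beN.sieE hu huc)
  set P : B →ₗ[F] B := ((y : B →ₗ[F] B) - LinearMap.id) ∘ₗ ((y : B →ₗ[F] B) - LinearMap.id)
  have hsq : ∀ X, E (E X) - (2 : F) • E X + X = -(S.be c c • S.tp (S.con u X) u) := fun X => by
    simp only [E, S.right_sie_apply, map_add, map_sub, map_smul, S.con_tp, hu, huc, S.beN.symm c u,
      LinearMap.add_apply, LinearMap.sub_apply, LinearMap.smul_apply]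
    match_scalars <;> ring
  have hP : ∀ a z, S.tp a (P z) = g (-(S.be c c • S.tp (S.con u (g⁻¹ (S.tp a z))) u)) := fun a z => by
    rw [← hsq]
    have h1 := h a z
    have h2 := h a (y z)
    simp only [LinearEquiv.mul_apply] at h1 h2
    rw [← h1] at h2
    rw [← LinearEquiv.mul_apply g⁻¹, inv_mul_cancel, LinearEquiv.coe_one, id_eq] at h2
    rw [map_add, map_sub, map_smul, h2, h1, ← LinearEquiv.mul_apply g, mul_inv_cancel]
    simp only [P, LinearMap.comp_apply, LinearMap.sub_apply, LinearEquiv.coe_coe, LinearMap.id_apply, map_sub,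
      LinearEquiv.coe_one, id_eq]
    module
  obtain ⟨z₀, hz₀⟩ : ∃ z, P z ≠ 0 := by
    by_contra! h0
    obtain ⟨u', hu', huu'⟩ := S.beN.exists_partner hu0 hu
    obtain ⟨a₀, a₁, -, -, ha⟩ := S.fN.exists_pair H.hA3
    have hzero : (g : V →ₗ[F] V) ∘ₗ (S.be c c • (S.tp.flip u ∘ₗ S.con u)) ∘ₗ (g⁻¹ : V ≃ₗ[F] V).toLinearMap = 0 :=
      S.hom_ext fun a z => by
        have := hP a z
        rw [h0 z, map_zero, map_neg, eq_comm, neg_eq_zero] at this
        simpa using this
    have h1 := LinearMap.congr_fun hzero (g (S.tp a₀ u'))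
    simp only [LinearMap.comp_apply, LinearEquiv.coe_coe, LinearMap.zero_apply, LinearEquiv.map_eq_zero_iff,
      LinearMap.smul_apply, LinearMap.flip_apply, LinearEquiv.coe_toLinearMap] at h1
    rw [← LinearEquiv.mul_apply, inv_mul_cancel, LinearEquiv.coe_one, id_eq, S.con_tp, S.beN.symm u' u, huu',
      one_smul, smul_eq_zero, or_iff_right hc] at h1
    exact S.tp_ne_zero (S.fN.ne_zero_of_pair ha).1 hu0 h1
  have hle : S.mem (P z₀) ≤ (S.mem u).map (g : V →ₗ[F] V) := by
    intro X hX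
    obtain ⟨a, rfl⟩ := S.mem_mem.1 hX
    exact ⟨_, (S.mem u).neg_mem ((S.mem u).smul_mem _ (S.tp_mem _ u)), (hP a z₀).symm⟩
  have heq := Submodule.eq_of_le_of_finrank_le hle (by
    rw [LinearEquiv.finrank_map_eq, S.finrank_mem hu0, S.finrank_mem hz₀])
  obtain ⟨a₀, a₁, -, -, ha⟩ := S.fN.exists_pair H.hA3
  have hv : S.be (P z₀) (P z₀) = 0 := by
    obtain ⟨X, hX, hXe⟩ : S.tp a₀ (P z₀) ∈ (S.mem u).map (g : V →ₗ[F] V) := heq ▸ S.tp_mem _ _
    obtain ⟨Y, hY, hYe⟩ : S.tp a₁ (P z₀) ∈ (S.mem u).map (g : V →ₗ[F] V) := heq ▸ S.tp_mem _ _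
    obtain ⟨p, rfl⟩ := S.mem_mem.1 hX
    obtain ⟨q, rfl⟩ := S.mem_mem.1 hY
    have := H.iso g hg (S.tp p u) (S.tp q u)
    rw [show g (S.tp p u) = _ from hXe, show g (S.tp q u) = _ from hYe, S.form_tp, S.form_tp, ha, hu,
      mul_zero, one_mul] at this
    exact this
  exact H.isT_of_point hcl hg hu hu0 hv hz₀ fun a => by
    rw [heq]; exact ⟨_, S.tp_mem a u, rfl⟩

/-- An element carrying the member of a line to the member of a line is a tensor map. -/
lemma isT_of_line (hcl : Clean S M) {g : V ≃ₗ[F] V} (hg : g ∈ M) {w z w₂ z₂ : B} (hL : IsLine S w z)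
    (hL₂ : IsLine S w₂ z₂) (h : (memL S w z).map (g : V →ₗ[F] V) ≤ memL S w₂ z₂) : S.IsT g := by
  classical
  have : FiniteDimensional F V := S.finiteDimensional
  obtain ⟨c, hc, hcp⟩ := S.beN.exists_aniso_orth (Submodule.span F {w, z}) (by
    have := finrank_span_le_card (R := F) (M := B) ({w, z} : Set B)
    have h' : ({w, z} : Set B).toFinset.card ≤ 2 := by
      simp only [Set.toFinset_insert, Set.toFinset_singleton]; exact Finset.card_le_two
    have := H.hB5
    omega)
  have hwc : S.be w c = 0 := hcp w (Submodule.subset_span (by simp))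
  have hzc : S.be z c = 0 := hcp z (Submodule.subset_span (by simp))
  have heq := Submodule.eq_of_le_of_finrank_le h (by
    rw [LinearEquiv.finrank_map_eq, hL.finrank_memL, hL₂.finrank_memL])
  set E := S.tequiv (LinearEquiv.refl F A) (S.beN.sieE hL.ww hwc)
  have hfix : ∀ a, (g * E * g⁻¹) (S.tp a w₂) = S.tp a w₂ := by
    intro a
    obtain ⟨X, hX, hXe⟩ : S.tp a w₂ ∈ (memL S w z).map (g : V →ₗ[F] V) :=
      heq ▸ Submodule.mem_sup_left (S.tp_mem a w₂)
    rw [← hXe]
    change g (E (g⁻¹ (g X))) = g X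
    rw [← LinearEquiv.mul_apply g⁻¹, inv_mul_cancel, LinearEquiv.coe_one, id_eq]
    congr 1
    obtain ⟨p, q, rfl⟩ := mem_memL.1 hX
    simp [E, S.right_sie_apply, hL.ww, S.beN.symm z w, hL.wz, hwc, hzc]
  obtain ⟨y, -, hy⟩ := H.eq_right_of_fix hcl
    (M.mul_mem (M.mul_mem hg (H.right w c hL.ww hwc)) (M.inv_mem hg)) hL₂.ww hL₂.ne_left hfix
  exact H.isT_of_conj_short hcl hg hL.ww hL.ne_left hwc hc hy

/-- An element conjugating a root element of a line to a tensor map is a tensor map. -/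
lemma isT_of_conj_long (hcl : Clean S M) {g : V ≃ₗ[F] V} (hg : g ∈ M) {w z : B} (hL : IsLine S w z)
    (hT : S.IsT (g * S.tequiv (LinearEquiv.refl F A) (S.beN.sieE hL.ww hL.wz) * g⁻¹)) : S.IsT g := by
  classical
  have : FiniteDimensional F V := S.finiteDimensional
  set h := g * S.tequiv (LinearEquiv.refl F A) (S.beN.sieE hL.ww hL.wz) * g⁻¹
  have hh : h ∈ M := M.mul_mem (M.mul_mem hg (H.right w z hL.ww hL.wz)) (M.inv_mem hg)
  set T := (memL S w z).map (g : V →ₗ[F] V) with hTdef
  have hN : ∀ X, h X = X + g (rootL S w z (g⁻¹ X)) := fun X => by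
    change g (S.tequiv (LinearEquiv.refl F A) (S.beN.sieE hL.ww hL.wz) (g⁻¹ X)) = _
    rw [hL.rootE_apply, map_add g, ← LinearEquiv.mul_apply g, mul_inv_cancel]
    rfl
  have hTs : ∀ X ∈ T, ∀ Y ∈ T, S.form X Y = 0 := by
    rintro _ ⟨X, hX, rfl⟩ _ ⟨Y, hY, rfl⟩
    change S.form (g X) (g Y) = 0
    rw [H.iso g hg]
    exact perpL_iff.1 (hL.memL_le_perpL hX) Y hY
  have hsurj : ∀ X ∈ T, ∃ Y, g (rootL S w z (g⁻¹ Y)) = X := by
    rintro _ ⟨X, hX, rfl⟩
    obtain ⟨a, b, rfl⟩ := mem_memL.1 hX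
    obtain ⟨w', z', h1, h2, h3, h4⟩ := hL.dual
    refine ⟨g (S.tp b w' - S.tp a z'), congrArg g ?_⟩
    rw [← LinearEquiv.mul_apply g⁻¹, inv_mul_cancel, LinearEquiv.coe_one, id_eq, rootL_apply]
    simp [S.beN.symm w' w, h1, S.beN.symm w' z, h2, S.beN.symm z' w, h3, S.beN.symm z' z, h4]
    abel
  have hquad : ∀ X, h (h X) + X = (2 : F) • h X := fun X => by
    have h0 : g (rootL S w z (g⁻¹ (g (rootL S w z (g⁻¹ X))))) = 0 := by
      rw [← LinearEquiv.mul_apply g⁻¹, inv_mul_cancel, LinearEquiv.coe_one, id_eq,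
        hL.rootL_memL (hL.rootL_mem _), map_zero]
    rw [hN (h X), hN X, map_add g⁻¹, map_add, map_add g, h0, add_zero]
    module
  obtain ⟨a₀, a₁, -, -, ha⟩ := S.fN.exists_pair H.hA3
  have hA2 : 2 * finrank F A = finrank F T := by rw [hTdef, LinearEquiv.finrank_map_eq, hL.finrank_memL]
  obtain ⟨x, y, hxy⟩ := hT
  by_cases hx : ∀ c, ∃ k : F, x c = k • c
  · -- the second factor
    obtain ⟨k, hk⟩ := scalar_of_eigen (g := (x : A →ₗ[F] A)) hx
    have hk0 : k ≠ 0 := fun h0 => (S.fN.ne_zero_of_pair ha).1 (x.map_eq_zero_iff.1 (by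
      have := hk a₀
      rw [h0, zero_smul] at this
      exact this))
    obtain ⟨y', -, hy'⟩ := right_of_scalar (H.iso h hh) hxy (c := k⁻¹)
      (fun a => by rw [show x a = k • a from hk a, inv_smul_smul₀ hk0]) ha
    set P : B →ₗ[F] B := (y' : B →ₗ[F] B) - LinearMap.id with hP
    have hPT : ∀ a v, S.tp a (P v) ∈ T := fun a v => by
      have := hN (S.tp a v)
      rw [hy'] at this
      refine ⟨_, hL.rootL_mem (g⁻¹ (S.tp a v)), ?_⟩
      change g _ = _
      rw [hP, LinearMap.sub_apply, map_sub, LinearEquiv.coe_coe, LinearMap.id_apply, this, add_sub_cancel_left]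
    have hPs : ∀ u v, S.be (P u) (P v) = 0 := fun u v => by
      have := hTs _ (hPT a₀ u) _ (hPT a₁ v)
      rwa [S.form_tp, ha, one_mul] at this
    by_cases hline : ∃ u v, P u ≠ 0 ∧ ∀ k : F, P v ≠ k • P u
    · obtain ⟨u, v, hu, hv⟩ := hline
      have hL₂ : IsLine S (P u) (P v) := IsLine.of_indep (hPs u u) (hPs v v) (hPs u v) hu hv
      have hle : memL S (P u) (P v) ≤ T := fun X hX => by
        obtain ⟨a, b, rfl⟩ := mem_memL.1 hX
        exact T.add_mem (hPT a u) (hPT b v)
      have := Submodule.eq_of_le_of_finrank_le hle (by rw [hL₂.finrank_memL, hA2])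
      exact H.isT_of_line hcl hg hL hL₂ this.ge
    · exfalso
      push Not at hline
      obtain ⟨v₀, hv₀⟩ : ∃ v₀, ∀ v, ∃ k : F, P v = k • v₀ := by
        by_cases h0 : ∃ u, P u ≠ 0
        · obtain ⟨u, hu⟩ := h0
          exact ⟨P u, fun v => hline u v hu⟩
        · push Not at h0
          exact ⟨0, fun v => ⟨0, by simp [h0 v]⟩⟩
      have hle : T ≤ S.mem v₀ := fun X hX => by
        obtain ⟨Y, rfl⟩ := hsurj X hX
        rw [show g (rootL S w z (g⁻¹ Y)) = h Y - Y by rw [hN, add_sub_cancel_left]]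
        have h0 : (S.mem v₀).mkQ ∘ₗ ((h : V →ₗ[F] V) - LinearMap.id) = 0 := S.hom_ext fun a v => by
          simp only [LinearMap.comp_apply, LinearMap.sub_apply, LinearEquiv.coe_coe, LinearMap.id_apply,
            Submodule.mkQ_apply, LinearMap.zero_apply, Submodule.Quotient.mk_eq_zero, hy', ← map_sub]
          obtain ⟨k, hk⟩ := hv₀ v
          rw [show y' v - v = P v from rfl, hk, map_smul]
          exact (S.mem v₀).smul_mem _ (S.tp_mem _ _)
        exact (Submodule.Quotient.mk_eq_zero _).1 (LinearMap.congr_fun h0 Y)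
      have h1 := Submodule.finrank_mono hle
      have h2 : finrank F (S.mem v₀) ≤ finrank F A := LinearMap.finrank_range_le _
      have := H.hA3
      omega
  · -- the first factor
    exfalso
    push Not at hx
    obtain ⟨c, hc⟩ := hx
    obtain ⟨v₁, hv₁, hxv⟩ : ∃ v, S.f c v = 0 ∧ S.f (x c) v = 1 := by
      obtain ⟨p, hp⟩ : ∃ p, S.f c p ≠ 0 := by
        by_contra! h0
        exact hc 0 (by rw [S.fN.nd c h0]; simp)
      obtain ⟨q, hq⟩ : ∃ q, S.f (x c - (S.f (x c) p / S.f c p) • c) q ≠ 0 := by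
        by_contra! h0
        exact hc _ (sub_eq_zero.1 (S.fN.nd _ h0))
      have hq' : S.f (x c - (S.f (x c) p / S.f c p) • c) q =
          S.f (x c) q - S.f (x c) p / S.f c p * S.f c q := by simp
      rw [hq'] at hq
      refine ⟨(S.f (x c) q - S.f (x c) p / S.f c p * S.f c q)⁻¹ • (q - (S.f c q / S.f c p) • p), by simp [hp], ?_⟩
      have : S.f (x c) q - S.f c q / S.f c p * S.f (x c) p =
          S.f (x c) q - S.f (x c) p / S.f c p * S.f c q := by ring
      simp only [map_smul, map_sub, smul_eq_mul]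
      rw [this, inv_mul_cancel₀ hq]
    have hα : ∀ v, S.f (x (x c)) v₁ • y v = (2 : F) • v := fun v => by
      obtain ⟨v, rfl⟩ := y.surjective v
      have := congrArg (S.pi v₁) (hquad (S.tp c v))
      simpa [hxy, hv₁, hxv, S.fN.symm v₁] using this
    set μ := S.f (x (x c)) v₁
    have hμ : μ ≠ 0 := by
      intro h0
      obtain ⟨u, u', -, -, hu⟩ := S.beN.exists_pair (by have := H.hB5; omega)
      have := hα u
      rw [h0, zero_smul, eq_comm, smul_eq_zero, or_iff_right S.beN.two] at this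
      exact (S.beN.ne_zero_of_pair hu).1 this
    let x' : A →ₗ[F] A := (2 / μ) • (x : A →ₗ[F] A)
    have hx' : ∀ a v, h (S.tp a v) = S.tp (x' a) v := fun a v => by
      rw [hxy]
      have hy : y v = (2 / μ) • v := by
        rw [div_eq_inv_mul, ← smul_smul, ← hα, inv_smul_smul₀ hμ]
      simp [x', hy]
    set P : A →ₗ[F] A := x' - LinearMap.id with hP
    have hPT : ∀ a v, S.tp (P a) v ∈ T := fun a v => by
      have := hN (S.tp a v)
      rw [hx'] at this
      refine ⟨_, hL.rootL_mem (g⁻¹ (S.tp a v)), ?_⟩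
      change g _ = _
      rw [hP, LinearMap.sub_apply, LinearMap.id_apply, map_sub, LinearMap.sub_apply, this, add_sub_cancel_left]
    obtain ⟨u, u', -, -, hu⟩ := S.beN.exists_pair (by have := H.hB5; omega)
    have hPP : ∀ a a', S.f (P a) (P a') = 0 := fun a a' => by
      have := hTs _ (hPT a u) _ (hPT a' u')
      rwa [S.form_tp, hu, mul_one] at this
    have hskew : ∀ a a', S.f (P a) a' + S.f a (P a') = 0 := fun a a' => by
      have h1 := H.iso h hh (S.tp a u) (S.tp a' u')
      rw [hx', hx', S.form_tp, S.form_tp, hu, mul_one, mul_one] at h1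
      have hx2 : ∀ a, x' a = a + P a := fun a => by simp [hP]
      rw [hx2, hx2] at h1
      simp only [map_add, LinearMap.add_apply, hPP] at h1
      linear_combination h1
    have heven := CfsgLib.OrthGeo.even_rank_of_alt (finrank F A) (S.f ∘ₗ P) (fun a => by
      have := hskew a a
      rw [S.fN.symm a (P a), ← two_mul] at this
      exact (mul_eq_zero.1 this).resolve_left S.fN.two) rfl
    have hker : LinearMap.ker (S.f ∘ₗ P) = LinearMap.ker P := by
      ext a
      simp only [LinearMap.mem_ker, LinearMap.comp_apply]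
      exact ⟨fun h => S.fN.nd _ fun v => by rw [h]; rfl, fun h => by rw [h, map_zero]⟩
    have hrk := LinearMap.finrank_range_add_finrank_ker P
    rw [hker] at heven
    let bB := Module.finBasis F B
    let Φ : (Fin (finrank F B) → LinearMap.range P) →ₗ[F] V :=
      ∑ i, S.tp.flip (bB i) ∘ₗ (LinearMap.range P).subtype ∘ₗ LinearMap.proj i
    have hΦ : ∀ v, Φ v = ∑ i, S.tp (v i : A) (bB i) := fun v => by simp [Φ]
    have hinj : Function.Injective Φ := (injective_iff_map_eq_zero Φ).2 fun v hv => funext fun j => by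
      have := congrArg (S.con (S.be.dualBasis S.beN.nondeg bB j)) hv
      rw [hΦ, map_sum, map_zero] at this
      simp only [S.con_tp, S.beN.symm (bB _), LinearMap.BilinForm.apply_dualBasis_left, ite_smul, one_smul,
        zero_smul, Finset.sum_ite_eq, Finset.sum_ite_eq', Finset.mem_univ, if_true] at this
      exact Subtype.ext this
    have hrange : LinearMap.range Φ = T := by
      refine le_antisymm ?_ ?_
      · rintro _ ⟨v, rfl⟩
        rw [hΦ]
        refine T.sum_mem fun i _ => ?_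
        obtain ⟨a, ha⟩ := LinearMap.mem_range.1 (v i).2
        rw [← ha]
        exact hPT a _
      · intro X hX
        obtain ⟨Y, rfl⟩ := hsurj X hX
        rw [show g (rootL S w z (g⁻¹ Y)) = h Y - Y by rw [hN, add_sub_cancel_left]]
        have h0 : (LinearMap.range Φ).mkQ ∘ₗ ((h : V →ₗ[F] V) - LinearMap.id) = 0 := S.hom_ext fun a v => by
          simp only [LinearMap.comp_apply, LinearMap.sub_apply, LinearEquiv.coe_coe, LinearMap.id_apply,
            Submodule.mkQ_apply, LinearMap.zero_apply, Submodule.Quotient.mk_eq_zero, hx']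
          refine ⟨fun i => bB.repr v i • ⟨P a, LinearMap.mem_range_self P a⟩, ?_⟩
          rw [hΦ]
          conv_rhs => rw [← LinearMap.sub_apply, ← map_sub, ← bB.sum_repr v, map_sum]
          exact Finset.sum_congr rfl fun i _ => by simp [hP, smul_sub]
        exact (Submodule.Quotient.mk_eq_zero _).1 (LinearMap.congr_fun h0 Y)
    have hfin := LinearMap.finrank_range_of_inj hinj
    rw [hrange, ← hA2, Module.finrank_pi_fintype, Finset.sum_const, Finset.card_univ, Fintype.card_fin,
      smul_eq_mul] at hfin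
    obtain ⟨r, hr⟩ := heven
    refine H.hdvd ⟨r, ?_⟩
    have : finrank F (LinearMap.range P) = r + r := by omega
    rw [this] at hfin
    linarith

end Ctx

end CfsgLib.OTensor96
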