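import Cfsg.Agent.OTensor96.Final
import Cfsg.Agent.FormTensor89.Instance
import Cfsg.Agent.OrthGeo.QuadOdd

/-!
The matrix form of the maximality of an orthogonal tensor product stabiliser.
-/

set_option autoImplicit false
set_option linter.unusedSectionVars false
set_option linter.unusedVariables false

namespace CfsgLib.OTensor96

open Module Matrix Cfsg.Geo CfsgLib.OrthGeo CfsgLib.FormTensor89 CfsgLib.FieldExtMax

variable {F : Type*} [Field F] [Fintype F]

lemma two_ne_of_odd (hodd : Odd (Fintype.card F)) : (2 : F) ≠ 0 := by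
  refine Ring.two_ne_zero fun h => ?_
  have := (FiniteField.even_card_iff_char_two (F := F)).1 h
  rw [Nat.odd_iff] at hodd
  omega

lemma exists_sq_ne_one (hodd : Odd (Fintype.card F)) (h : Fintype.card F ≠ 3) : ∃ k : F, k ≠ 0 ∧ k ^ 2 ≠ 1 := by
  classical
  by_contra! hk
  refine h ?_
  have hle : Fintype.card F ≤ ({0, 1, -1} : Finset F).card := Finset.card_le_card fun k _ => by
    rcases eq_or_ne k 0 with rfl | hk0
    · simp
    · rcases sq_eq_one_iff.1 (hk k hk0) with rfl | rfl <;> simp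
  have h3 := Finset.card_le_three (a := (0 : F)) (b := 1) (c := -1)
  have h1 := Fintype.one_lt_card (α := F)
  obtain ⟨j, hj⟩ := hodd
  omega

lemma nice_bilinOf (h2 : (2 : F) ≠ 0) {k : ℕ} {f : (Fin k → F) → (Fin k → F) → F} (hf : IsSymmetricForm f)
    {c : F} (hc : c ≠ 0) : Nice (c • bilinOf hf.bilinear) := by
  refine ⟨fun u v => by simp [bilinOf_apply, hf.symm u v], fun u hu => ?_, h2⟩
  by_contra h0
  obtain ⟨y, hy⟩ := (hf.nondegenerate u h0).2
  exact hy ((mul_eq_zero.1 (hu y)).resolve_left hc)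

lemma finrank_pair {W : Type*} [AddCommGroup W] [Module F W] {s y : W} (hs : s ≠ 0)
    (h : ∀ k : F, y ≠ k • s) : finrank F ↥(Submodule.span F ({s, y} : Set W)) = 2 := by
  have hli : LinearIndependent F ![s, y] :=
    (LinearIndependent.pair_iff' hs).2 fun k hk => h k hk.symm
  have := finrank_span_eq_card hli
  rwa [Matrix.range_cons, Matrix.range_cons, Matrix.range_empty, Set.union_empty, Set.singleton_union,
    Fintype.card_fin] at this

variable {ι : Type} [Fintype ι] [DecidableEq ι] {Q : (ι → F) → F}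

lemma nice_bform (h2 : (2 : F) ≠ 0) (hQ : IsNondegenerateQuadraticForm Q) :
    ∀ X, (∀ Y, bform hQ X Y = 0) → X = 0 := fun X hX => by
  by_contra h0
  obtain ⟨y, hy⟩ := (hQ.nondegenerate X h0).2
  exact hy ((bform_apply hQ X y).symm.trans (hX y))

variable {n₁ n₂ : ℕ} {f₁ : (Fin n₁ → F) → (Fin n₁ → F) → F} {f₂ : (Fin n₂ → F) → (Fin n₂ → F) → F}

lemma exists_tenLin_form (hQ : IsNondegenerateQuadraticForm Q) (hf₁ : IsSymmetricForm f₁)
    (hf₂ : IsSymmetricForm f₂) {e : ι ≃ Fin n₁ × Fin n₂} {P : GL ι F}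
    (hT : IsTensorFormStructure id (QuadraticMap.polar Q) f₁ f₂ e P) :
    ∃ c : F, c ≠ 0 ∧ ∀ u z u' z', bform hQ (tenLin e P u z) (tenLin e P u' z') = c * f₁ u u' * f₂ z z' := by
  obtain ⟨c, hc, hcT⟩ := hT
  exact ⟨c, hc, fun u z u' z' => by
    rw [bform_apply, tenLin_apply, tenLin_apply, hcT, formOfGram_pureTen hf₁.bilinear hf₂.bilinear, mul_assoc]⟩

lemma exists_tensor_map {e : ι ≃ Fin n₁ × Fin n₂} {P g : GL ι F}
    (hg : g ∈ tensorProductSubgroup n₁ n₂ e P) :
    ∃ (x : (Fin n₁ → F) ≃ₗ[F] (Fin n₁ → F)) (y : (Fin n₂ → F) ≃ₗ[F] (Fin n₂ → F)),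
      ∀ u z, glEquiv g (tenLin e P u z) = tenLin e P (x u) (y z) := by
  obtain ⟨a, b, hab⟩ := (CfsgLib.Aschbacher.mem_tensorProductSubgroup_iff e P g).1 hg
  exact ⟨glEquiv a, glEquiv b, fun u z => by
    rw [glEquiv_apply, hab, tconj_tenLin, glEquiv_apply, glEquiv_apply]⟩

/-- Maximality, the factors in their given order. -/
theorem tensor_isMaximal (hQ : IsNondegenerateQuadraticForm Q) (h2 : (2 : F) ≠ 0)
    (hn : 5 ≤ Fintype.card ι) (h1 : 3 ≤ n₁) (h5 : 5 ≤ n₂)
    (hk : 4 ≤ n₁ ∨ ∃ k : F, k ≠ 0 ∧ k ^ 2 ≠ 1) (h1o : n₁ = 3 ∨ 5 ≤ n₁) (hdvd : ¬ n₂ ∣ n₁)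
    (e : ι ≃ Fin n₁ × Fin n₂) (P : GL ι F) (hf₁ : IsSymmetricForm f₁) (hf₂ : IsSymmetricForm f₂)
    (hT : IsTensorFormStructure id (QuadraticMap.polar Q) f₁ f₂ e P) :
    IsMaximalIn (omegaGL Q) (tensorProductSubgroup n₁ n₂ e P ⊓ omegaGL Q) := by
  obtain ⟨c, hc, hten⟩ := exists_tenLin_form hQ hf₁ hf₂ hT
  let S : Setting F (Fin n₁ → F) (Fin n₂ → F) (ι → F) :=
    { f := c • bilinOf hf₁.bilinear
      be := bilinOf hf₂.bilinear
      form := bform hQ
      tp := tenLin e P
      fN := nice_bilinOf h2 hf₁ hc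
      beN := by simpa using nice_bilinOf h2 hf₂ one_ne_zero
      form_symm := b_symm hQ
      form_tp := fun a w a' w' => hten a w a' w'
      form_ext := fun X hX => nice_bform h2 hQ X fun Y => LinearMap.congr_fun
        (LinearMap.ext_on (tenLin_span e P) (f := bform hQ X) (g := 0)
          (by rintro _ ⟨u, z, rfl⟩; exact hX u z)) Y }
  refine isMaximalIn_tensor hQ S (fun X Y => rfl) hn (by simpa using h1) (by simpa using h5)
    (by simpa using hk) ?_ (by simpa using hdvd) _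
    (fun g x y h => mem_tensor_of_pure (by omega) e P g x (y : (Fin n₂ → F) →ₗ[F] (Fin n₂ → F)) h)
    fun g hg => exists_tensor_map hg
  rcases h1o with h3 | h5'
  · refine Or.inr fun s y hs hss hyy hsy => ?_
    by_contra! hne
    have hle : Submodule.span F {s, y} ≤ S.f.orthogonal (Submodule.span F {s, y}) := by
      intro X hX Y hY
      obtain ⟨p, q, rfl⟩ := Submodule.mem_span_pair.1 hX
      obtain ⟨p', q', rfl⟩ := Submodule.mem_span_pair.1 hY
      change S.f _ _ = 0
      simp [hss, hyy, hsy, S.fN.symm y s]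
    have hd := finrank_pair hs hne
    have := Submodule.finrank_mono hle
    rw [LinearMap.BilinForm.finrank_orthogonal S.fN.nondeg, hd, Module.finrank_fin_fun] at this
    omega
  · exact Or.inl (by simpa using h5')

/-- Maximality, a four dimensional second factor of minus type. -/
theorem tensor_four_isMaximal {f₄ : (Fin 4 → F) → (Fin 4 → F) → F}
    (hQ : IsNondegenerateQuadraticForm Q) (h2 : (2 : F) ≠ 0)
    (hn : 5 ≤ Fintype.card ι) (h5 : 5 ≤ n₁) (hdvd : ¬ n₁ ∣ 4)
    (e : ι ≃ Fin n₁ × Fin 4) (P : GL ι F) (hf₁ : IsSymmetricForm f₁) (hf₄ : IsSymmetricForm f₄)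
    (hm : ¬ IsPlusTypeOn (fun v : Fin 4 → F => f₄ v v) ⊤)
    (hT : IsTensorFormStructure id (QuadraticMap.polar Q) f₁ f₄ e P) :
    IsMaximalIn (omegaGL Q) (tensorProductSubgroup n₁ 4 e P ⊓ omegaGL Q) := by
  obtain ⟨c, hc, hten⟩ := exists_tenLin_form hQ hf₁ hf₄ hT
  let S : Setting F (Fin 4 → F) (Fin n₁ → F) (ι → F) :=
    { f := c • bilinOf hf₄.bilinear
      be := bilinOf hf₁.bilinear
      form := bform hQ
      tp := (tenLin e P).flip
      fN := nice_bilinOf h2 hf₄ hc
      beN := by simpa using nice_bilinOf h2 hf₁ one_ne_zero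
      form_symm := b_symm hQ
      form_tp := fun a w a' w' => by
        change bform hQ (tenLin e P w a) (tenLin e P w' a') = (c * f₄ a a') * f₁ w w'
        rw [hten]; ring
      form_ext := fun X hX => nice_bform h2 hQ X fun Y => LinearMap.congr_fun
        (LinearMap.ext_on (tenLin_span e P) (f := bform hQ X) (g := 0)
          (by rintro _ ⟨u, z, rfl⟩; exact hX z u)) Y }
  refine isMaximalIn_tensor hQ S (fun X Y => rfl) hn (by simp) (by simpa using h5)
    (Or.inl (by simp)) ?_ (by simpa using hdvd) _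
    (fun g x y h => mem_tensor_of_pure (by omega) e P g y (x : (Fin 4 → F) →ₗ[F] (Fin 4 → F))
      fun u z => h z u)
    fun g hg => ?_
  swap
  · obtain ⟨x, y, h⟩ := exists_tensor_map hg
    exact ⟨y, x, fun a w => h w a⟩
  refine Or.inr fun s y hs hss hyy hsy => ?_
  by_contra! hne
  refine hm ⟨Submodule.span F {s, y}, le_top, ?_, ?_⟩
  · intro X hX
    obtain ⟨p, q, rfl⟩ := Submodule.mem_span_pair.1 hX
    have h0 : S.f (p • s + q • y) (p • s + q • y) = 0 := by simp [hss, hyy, hsy, S.fN.symm y s]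
    exact (mul_eq_zero.1 (show c * f₄ _ _ = 0 from h0)).resolve_left hc
  · rw [finrank_pair hs hne, finrank_top, Module.finrank_fin_fun]

end CfsgLib.OTensor96
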