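import Cfsg.Agent.OTensor96.Descent
import Cfsg.Agent.OrthGeo.RootLines
import Cfsg.Agent.FieldExtMax.MatrixForm

/-!
All root elements of a member give all root elements of the orthogonal group.
-/

set_option autoImplicit false
set_option linter.unusedSectionVars false
set_option linter.unusedVariables false
set_option linter.unusedSimpArgs false

namespace CfsgLib.OTensor96

open Module Cfsg.Geo CfsgLib.OrthGeo CfsgLib.FieldExtMax
open scoped Matrix MatrixGroups

variable {ι : Type} [Fintype ι] [DecidableEq ι] {F A B : Type*} [Field F] [Fintype F] [AddCommGroup A]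
  [Module F A] [AddCommGroup B] [Module F B] [FiniteDimensional F A] [FiniteDimensional F B]
  {Q : (ι → F) → F} (hQ : IsNondegenerateQuadraticForm Q) {S : Setting F A B (ι → F)}
  (hform : ∀ X Y, S.form X Y = bform hQ X Y)

namespace Nice

variable {W : Type*} [AddCommGroup W] [Module F W] [FiniteDimensional F W] {b : LinearMap.BilinForm F W}

/-- A vector pairing to one with the first and trivially with the second vector. -/
lemma exists_pairing (hb : Nice b) {r p : W} (h : ∀ k : F, r ≠ k • p) : ∃ x, b r x = 1 ∧ b p x = 0 := by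
  rcases eq_or_ne p 0 with rfl | hp
  · obtain ⟨y, hy⟩ : ∃ y, b r y ≠ 0 := by by_contra! h0; exact h 0 (by rw [hb.nd r h0, smul_zero])
    exact ⟨(b r y)⁻¹ • y, by simp [hy], by simp⟩
  obtain ⟨y, hy⟩ : ∃ y, b p y ≠ 0 := by by_contra! h0; exact hp (hb.nd p h0)
  obtain ⟨z, hz⟩ : ∃ z, b (r - (b r y / b p y) • p) z ≠ 0 := by
    by_contra! h0
    exact h _ (sub_eq_zero.1 (hb.nd _ h0))
  set x := z - (b p z / b p y) • y with hx
  have h1 : b p x = 0 := by simp [hx, hy]
  have h2 : b r x = b (r - (b r y / b p y) • p) z := by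
    simp [hx]
    ring
  refine ⟨(b r x)⁻¹ • x, ?_, by simp [h1]⟩
  rw [map_smul, smul_eq_mul, inv_mul_cancel₀]
  rwa [h2]

/-- A non-zero vector orthogonal to two given ones. -/
lemma exists_orth_two (hb : Nice b) (h3 : 3 ≤ finrank F W) (a x : W) :
    ∃ q, q ≠ 0 ∧ b a q = 0 ∧ b x q = 0 := by
  classical
  obtain ⟨q, hq0, hq⟩ := hb.exists_perp_ne (Submodule.span F {a, x}) (by
    have := finrank_span_le_card (R := F) (M := W) ({a, x} : Set W)
    have h' : ({a, x} : Set W).toFinset.card ≤ 2 := by
      simp only [Set.toFinset_insert, Set.toFinset_singleton]; exact Finset.card_le_two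
    omega)
  exact ⟨q, hq0, hq a (Submodule.subset_span (by simp)), hq x (Submodule.subset_span (by simp))⟩

end Nice

include hform

lemma q_tp {a : A} {w : B} (hw : S.be w w = 0) : Q (S.tp a w) = 0 := by
  have h := (hform (S.tp a w) (S.tp a w)).trans (b_self hQ _)
  rw [S.form_tp, hw, mul_zero] at h
  exact (mul_eq_zero.1 h.symm).resolve_left S.fN.two

lemma bform_tp (a a' : A) (w w' : B) : bform hQ (S.tp a w) (S.tp a' w') = S.f a a' * S.be w w' := by
  rw [← hform, S.form_tp]

/-- A coefficient of a member is a root element. -/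
lemma eIn_of_root {M : Subgroup (GL ι F)} {v : B} (hv : S.be v v = 0) {a a' : A}
    (h : InM (M.map (glEquiv : GL ι F ≃* _).toMonoidHom) (S.rootW v (wedge S.f a a'))) :
    EIn Q M (S.tp a' v) (S.tp a v) := by
  obtain ⟨_, ⟨g, hg, rfl⟩, he⟩ := h
  refine ⟨g, hg, Matrix.ext_of_mulVec_single fun i => ?_⟩
  generalize (Pi.single i 1 : ι → F) = X
  rw [eichlerMat_mulVec hQ, q_tp hQ hform hv, zero_mul, zero_smul, sub_zero, ← hform, ← hform]
  refine (he X).trans ?_
  rw [Setting.rootW_apply, wedge_apply, map_sub, map_smul, map_smul, LinearMap.sub_apply,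
    LinearMap.smul_apply, LinearMap.smul_apply, S.form_tp_left, S.form_tp_left, add_sub_assoc]

/-- A root element applied to a pure tensor. -/
lemma eichler_tp {p r x : A} {s z : B} (hs : S.be s s = 0) (h : bform hQ (S.tp p s) (S.tp r s) = 0) :
    (eichler hQ (q_tp hQ hform hs (a := p)) h : Matrix ι ι F) *ᵥ S.tp x z =
      S.tp x z + (S.f r x * S.be s z) • S.tp p s - (S.f p x * S.be s z) • S.tp r s := by
  rw [eichler_mulVec hQ, q_tp hQ hform hs, zero_mul, zero_smul, sub_zero, bform_tp hQ hform,
    bform_tp hQ hform]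

/-- All root elements at the pure singular tensors. -/
theorem eIn_all (hA3 : 3 ≤ finrank F A) (hB5 : 5 ≤ finrank F B) {M : Subgroup (GL ι F)}
    (hM : M ≤ Cfsg.isometryGroup F Q)
    (hroots : ∀ v, v ≠ 0 → S.be v v = 0 → ∀ a a', EIn Q M (S.tp a' v) (S.tp a v))
    {a : A} {w : B} (hw : S.be w w = 0) (hw0 : w ≠ 0) (W : ι → F) (hW : bform hQ (S.tp a w) W = 0) :
    EIn Q M (S.tp a w) W := by
  set u := S.tp a w with hu
  have hu0 : Q u = 0 := q_tp hQ hform hw
  let L : AddSubgroup (ι → F) :=
    { carrier := {W | bform hQ u W = 0 ∧ EIn Q M u W}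
      zero_mem' := ⟨map_zero _, ⟨1, M.one_mem, by rw [eichlerMat_zero hQ]; rfl⟩⟩
      add_mem' := fun {x y} hx hy =>
        ⟨by rw [map_add, hx.1, hy.1, add_zero], hx.2.add hQ hy.2 hu0 hx.1 hy.1⟩
      neg_mem' := fun {x} hx => ⟨by rw [map_neg, hx.1, neg_zero], hx.2.neg hQ hu0 hx.1⟩ }
  have hLw : ∀ x, S.tp x w ∈ L := fun x =>
    ⟨by rw [hu, bform_tp hQ hform, hw, mul_zero], hroots w hw0 hw x a⟩
  -- displacing by a root element fixing the base point
  have disp : ∀ {p r : A} {s : B}, S.be s s = 0 → (S.f p a * S.be s w = 0) → (S.f r a * S.be s w = 0) →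
      ∀ {x : A} {z : B}, S.tp x z ∈ L →
        (S.f r x * S.be s z) • S.tp p s - (S.f p x * S.be s z) • S.tp r s ∈ L := by
    intro p r s hs hpa hra x z hxz
    rcases eq_or_ne s 0 with rfl | hs0
    · simpa using L.zero_mem
    have h : bform hQ (S.tp p s) (S.tp r s) = 0 := by rw [bform_tp hQ hform, hs, mul_zero]
    have hg := (hroots s hs0 hs r p).mem hQ (q_tp hQ hform hs) h
    set g := eichler hQ (q_tp hQ hform hs (a := p)) h
    have hfix : (g : Matrix ι ι F) *ᵥ u = u := by
      rw [hu, eichler_tp hQ hform hs h, hpa, hra, zero_smul, zero_smul, add_zero, sub_zero]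
    have hd := hxz.2.displacement hQ hu0 hxz.1 hg (hM hg) hfix
    rw [eichler_tp hQ hform hs h, add_sub_assoc, add_sub_cancel_left] at hd
    refine ⟨?_, hd⟩
    rw [map_sub, map_smul, map_smul, hu, bform_tp hQ hform, bform_tp hQ hform, S.fN.symm a p, S.fN.symm a r,
      S.beN.symm w s, hpa, hra, smul_zero, smul_zero, sub_zero]
  obtain ⟨w', hw', hww'⟩ := S.beN.exists_partner hw0 hw
  -- the orthogonal of the first vector
  have hperp : ∀ p, S.f a p = 0 → ∀ z, S.tp p z ∈ L := by
    intro p hp
    have hsing : ∀ s, S.be s s = 0 → S.be w s ≠ 0 → S.tp p s ∈ L := by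
      intro s hs hws
      obtain ⟨r, hra, hrp⟩ : ∃ r, S.f a r = 0 ∧ ∀ k : F, r ≠ k • p := by
        by_contra! h
        have h1 : LinearMap.ker (S.f a) ≤ Submodule.span F {p} := fun r hr => by
          obtain ⟨k, hk⟩ := h r hr
          exact hk ▸ Submodule.smul_mem _ k (Submodule.mem_span_singleton_self p)
        have h2 := Submodule.finrank_mono h1
        have h3 := LinearMap.finrank_range_add_finrank_ker (S.f a)
        have h4 := Submodule.finrank_le (LinearMap.range (S.f a))
        have h5 : finrank F ↥(Submodule.span F {p}) ≤ 1 := by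
          have := finrank_span_le_card (R := F) (M := A) ({p} : Set A)
          simpa using this
        rw [finrank_self] at h4
        omega
      obtain ⟨x, hrx, hpx⟩ := S.fN.exists_pairing hrp
      have hsw : S.be s w ≠ 0 := by rwa [S.beN.symm]
      have := disp (p := p) (r := r) hs (by rw [S.fN.symm, hp, zero_mul]) (by rw [S.fN.symm, hra, zero_mul])
        (hLw ((S.be s w)⁻¹ • x))
      simpa [hrx, hpx, hsw] using this
    have hne : ∀ z, S.be w z ≠ 0 → S.tp p z ∈ L := fun z hz => by
      set z' := z - (S.be z z / (2 * S.be w z)) • w with hz'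
      have h1 : S.be z' z' = 0 := by
        have := S.beN.two
        simp [hz', hw, S.beN.symm z w]
        field_simp
        ring
      have h2 : S.be w z' ≠ 0 := by simpa [hz', hw] using hz
      have := L.add_mem (hsing z' h1 h2) (hLw ((S.be z z / (2 * S.be w z)) • p))
      rw [map_smul, LinearMap.smul_apply, ← map_smul (S.tp p), ← map_add] at this
      rwa [hz', sub_add_cancel] at this
    intro z
    by_cases hz : S.be w z = 0
    · have := L.sub_mem (hne (z + w') (by simp [hz, hww'])) (hne w' (by simp [hww']))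
      rwa [← map_sub, add_sub_cancel_right] at this
    · exact hne z hz
  -- the orthogonal of the second vector
  have hright : ∀ z, S.be w z = 0 → ∀ x, S.tp x z ∈ L := by
    have hsing : ∀ s, S.be w s = 0 → S.be w' s = 0 → S.be s s = 0 → ∀ x, S.tp x s ∈ L := by
      intro s hws _ hs x
      rcases eq_or_ne s 0 with rfl | hs0
      · simpa using L.zero_mem
      obtain ⟨q, hq0, haq, hxq⟩ := S.fN.exists_orth_two hA3 a x
      obtain ⟨r, hr, -⟩ := S.fN.exists_pairing (r := q) (p := 0) fun k => by simpa using hq0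
      obtain ⟨t, ht⟩ : ∃ t, S.be s t = 1 := by
        obtain ⟨t, -, ht⟩ := S.beN.exists_partner hs0 hs
        exact ⟨t, ht⟩
      have h0 : S.be s w = 0 := by rw [S.beN.symm, hws]
      have := disp (p := x) (r := r) hs (by rw [h0, mul_zero]) (by rw [h0, mul_zero]) (hperp q haq t)
      simpa [S.fN.symm r q, hr, hxq, ht] using this
    intro z hz x
    have h1 := S.beN.perp_induction hB5 hw hw' hww' (fun z => ∀ x, S.tp x z ∈ L)
      (fun y y' hy hy' x => by rw [map_add]; exact L.add_mem (hy x) (hy' x))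
      (fun c y hy x => by rw [map_smul, ← LinearMap.smul_apply, ← map_smul]; exact hy _)
      hsing (z := z - S.be w' z • w) (by simp [hz, hw]) (by simp [S.beN.symm w' w, hww'])
    have := L.add_mem (h1 x) (hLw (S.be w' z • x))
    rw [map_smul, LinearMap.smul_apply, ← map_smul (S.tp x), ← map_add, sub_add_cancel] at this
    exact this
  -- everything
  have hcon : S.f a (S.con w W) = 0 := by rw [← S.form_tp_left, hform]; exact hW
  have hY : W - S.tp (S.con w W) w' ∈ L := by
    let P : (ι → F) →ₗ[F] (ι → F) := LinearMap.id - S.tp.flip w' ∘ₗ S.con w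
    have hP : P W ∈ L := by
      classical
      rw [S.expand (Module.finBasis F B) W, map_sum]
      refine L.sum_mem fun i _ => ?_
      simp only [P, LinearMap.sub_apply, LinearMap.id_apply, LinearMap.comp_apply, LinearMap.flip_apply, S.con_tp]
      rw [map_smul, LinearMap.smul_apply, ← map_smul (S.tp _), ← map_sub]
      refine hright _ ?_ _
      rw [map_sub, map_smul, smul_eq_mul, hww', mul_one, S.beN.symm, sub_self]
    exact hP
  have := L.add_mem hY (hperp _ hcon w')
  rw [sub_add_cancel] at this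
  exact this.2

/-- A group with all root elements of the members contains the commutator subgroup. -/
theorem omega_le_of_roots (hn : 5 ≤ Fintype.card ι) (hA3 : 3 ≤ finrank F A) (hB5 : 5 ≤ finrank F B)
    {M : Subgroup (GL ι F)} (hM : M ≤ Cfsg.isometryGroup F Q)
    (hroots : ∀ v, v ≠ 0 → S.be v v = 0 → ∀ a a', EIn Q M (S.tp a' v) (S.tp a v)) :
    omegaGL Q ≤ M := by
  refine omega_le_of_root_vectors hQ hn hM {X | ∃ a w, w ≠ 0 ∧ S.be w w = 0 ∧ S.tp a w = X} ?_ ?_
  · rintro _ ⟨a, w, hw0, hw, rfl⟩
    exact ⟨q_tp hQ hform hw, fun W hW => eIn_all hQ hform hA3 hB5 hM hroots hw hw0 W hW⟩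
  intro X _ hX0
  obtain ⟨a, w, hw0, hw, haw⟩ : ∃ a w, w ≠ 0 ∧ S.be w w = 0 ∧ bform hQ (S.tp a w) X ≠ 0 := by
    by_contra! h
    refine hX0 (S.ext_con fun z => ?_)
    rw [map_zero]
    have h1 : S.con.flip X = 0 := S.beN.ext_singular (by omega) fun s hs0 hs => S.fN.nd _ fun a => by
      rw [LinearMap.flip_apply, S.fN.symm, ← S.form_tp_left, hform]
      exact h a s hs0 hs
    exact LinearMap.congr_fun h1 z
  obtain ⟨w', hw', hww'⟩ := S.beN.exists_partner hw0 hw
  have ha0 : a ≠ 0 := by rintro rfl; simp at haw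
  obtain ⟨a', ha'⟩ : ∃ a', S.f a a' ≠ 0 := by by_contra! h; exact ha0 (S.fN.nd a h)
  exact ⟨_, ⟨a, w, hw0, hw, rfl⟩, _, ⟨a', w', (S.beN.ne_zero_of_pair hww').2, hw', rfl⟩,
    by rw [bform_tp hQ hform, hww', mul_one]; exact ha', haw⟩

end CfsgLib.OTensor96
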