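import Cfsg.Agent.OTensor96.Clean

/-!
Without root coefficients an element carrying a singular member to a singular member is a tensor map.
-/

set_option autoImplicit false
set_option linter.unusedSectionVars false
set_option linter.unusedVariables false
set_option linter.unusedSimpArgs false

namespace CfsgLib.OTensor96

open Module CfsgLib.FieldExtMax

variable {F A B V : Type*} [Field F] [AddCommGroup A] [Module F A] [AddCommGroup B]
  [Module F B] [AddCommGroup V] [Module F V] [FiniteDimensional F A] [FiniteDimensional F B]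
  {S : Setting F A B V}

/-- Conjugation of the unipotent radical by an isometry stabilising the member. -/
lemma Triv.conj' {w : B} {g k : V ≃ₗ[F] V} (hg : Triv S w g) (hk : ∀ X Y, S.form (k X) (k Y) = S.form X Y)
    (α : A ≃ₗ[F] A) (hα : ∀ a, k (S.tp a w) = S.tp (α a) w) {w' : B} (hww' : S.be w w' = 1) :
    Triv S w (k * g * k⁻¹) := by
  have hk' : ∀ X, k (k⁻¹ X) = X := fun X => by rw [← LinearEquiv.mul_apply, mul_inv_cancel]; rfl
  refine ⟨fun X Y => ?_, fun a => ?_, fun X hX c hc => ?_⟩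
  · simp only [LinearEquiv.mul_apply]
    rw [hk, hg.iso, ← hk, hk', hk']
  · obtain ⟨a, rfl⟩ := α.surjective a
    simp only [LinearEquiv.mul_apply]
    rw [show k⁻¹ (S.tp (α a) w) = S.tp a w from k.injective (by rw [hk', hα]), hg.fix, hα]
  · have hY : S.con w (k⁻¹ X) = 0 := by
      refine S.fN.nd _ fun a => ?_
      rw [S.f_con, ← hk, hk', hα, S.form_con, hX]
      simp
    have he := S.eq_tp_of_con hww' (X := g (k⁻¹ X) - k⁻¹ X) fun c hc => by
      rw [map_sub, hg.low _ hY c hc, sub_self]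
    rw [sub_eq_iff_eq_add'] at he
    simp only [LinearEquiv.mul_apply]
    rw [he, map_add, hk', hα, map_add, S.con_tp, hc, zero_smul, add_zero]

variable [Finite F] {M : Subgroup (V ≃ₗ[F] V)}

namespace Ctx

variable (H : Ctx S M)
include H

/-- Stabilising a member. -/
lemma exists_match (hcl : Clean S M) {w w' : B} (hw : S.be w w = 0) (hww' : S.be w w' = 1) {m : V ≃ₗ[F] V}
    (hm : m ∈ M) (α : A ≃ₗ[F] A) (hα : ∀ a, m (S.tp a w) = S.tp (α a) w) {c : B} (hc : S.be w c = 0) :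
    ∃ c', S.be w c' = 0 ∧ ∀ Y, S.con w Y = 0 → S.con c' (m Y) = α (S.con c Y) := by
  have hw0 := (S.beN.ne_zero_of_pair hww').1
  have hminv : ∀ X, m (m⁻¹ X) = X := fun X => by rw [← LinearEquiv.mul_apply, mul_inv_cancel]; rfl
  have hC : m * S.tequiv (LinearEquiv.refl F A) (S.beN.sieE hw hc) * m⁻¹ ∈ M :=
    M.mul_mem (M.mul_mem hm (H.right w c hw hc)) (M.inv_mem hm)
  obtain ⟨c', hc', he⟩ := H.eq_sie_of_triv hcl hw hw0 hC
    ((Triv.of_right hw hc).conj' (H.iso m hm) α hα hww')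
  refine ⟨c', hc', fun Y hY => ?_⟩
  have hmY : S.con w (m Y) = 0 := by
    refine S.fN.nd _ fun a => ?_
    obtain ⟨a, rfl⟩ := α.surjective a
    rw [S.f_con, ← hα, H.iso m hm, S.form_con, hY]
    simp
  have h1 := LinearEquiv.congr_fun he (m Y)
  simp only [LinearEquiv.mul_apply] at h1
  rw [show m⁻¹ (m Y) = Y from m.injective (hminv _), S.right_sie_apply, S.right_sie_apply, hY, hmY] at h1
  simp only [map_zero, LinearMap.zero_apply, smul_zero, add_zero, map_sub, hα, sub_right_inj] at h1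
  exact (S.tp_injective hw0 h1).symm

/-- A stabiliser of a member is a tensor map. -/
lemma isT_of_fix_member (hcl : Clean S M) {w : B} (hw : S.be w w = 0) (hw0 : w ≠ 0) {m : V ≃ₗ[F] V}
    (hm : m ∈ M) (α : A ≃ₗ[F] A) (hα : ∀ a, m (S.tp a w) = S.tp (α a) w) : S.IsT m := by
  obtain ⟨w', hw', hww'⟩ := S.beN.exists_partner hw0 hw
  have hw'w : S.be w' w = 1 := by rw [S.beN.symm, hww']
  have hm' := H.iso m hm
  obtain ⟨a₀, a₁', -, -, ha₀⟩ := S.fN.exists_pair H.hA3
  obtain ⟨a₁, ha₁⟩ : ∃ a₁, S.f (α a₀) a₁ = 1 := by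
    obtain ⟨x, hx⟩ : ∃ x, S.f (α a₀) x ≠ 0 := by
      by_contra! h
      exact (S.fN.ne_zero_of_pair ha₀).1 (α.map_eq_zero_iff.1 (S.fN.nd _ h))
    exact ⟨(S.f (α a₀) x)⁻¹ • x, by simp [hx]⟩
  let pr : B →ₗ[F] B := LinearMap.id - (S.be.flip w').smulRight w - (S.be.flip w).smulRight w'
  have hpr_apply : ∀ z, pr z = z - S.be z w' • w - S.be z w • w' := fun z => rfl
  have hprw : ∀ z, S.be w (pr z) = 0 ∧ S.be w' (pr z) = 0 := fun z => by
    rw [hpr_apply]; exact S.beN.split_pair hw hw' hww' z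
  let β₀ : B →ₗ[F] B := pr ∘ₗ S.pi a₁ ∘ₗ (m : V →ₗ[F] V) ∘ₗ S.tp a₀ ∘ₗ pr
  have hmker : ∀ Y, S.con w Y = 0 → S.con w (m Y) = 0 := fun Y hY => by
    refine S.fN.nd _ fun a => ?_
    obtain ⟨a, rfl⟩ := α.surjective a
    rw [S.f_con, ← hα, hm', S.form_con, hY]
    simp
  -- the images
  have himg : ∀ z, S.be w z = 0 → S.be w' z = 0 → ∀ c', S.be w c' = 0 → ∀ a,
      S.con c' (m (S.tp a z)) = S.be (β₀ z) c' • α a := by
    intro z hzw hzw' c' hc'
    have hz : pr z = z := by rw [hpr_apply, S.beN.symm z w', hzw', S.beN.symm z w, hzw]; simp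
    obtain ⟨c, hc, hcY⟩ : ∃ c, S.be w c = 0 ∧ ∀ a, S.con c' (m (S.tp a z)) = S.be z c • α a := by
      have hinv : ∀ a, m⁻¹ (S.tp a w) = S.tp (α.symm a) w := fun a => m.injective (by
        rw [← LinearEquiv.mul_apply, mul_inv_cancel, hα, α.apply_symm_apply]; rfl)
      obtain ⟨c, hc, h⟩ := H.exists_match hcl hw hww' (M.inv_mem hm) α.symm hinv hc'
      refine ⟨c, hc, fun a => ?_⟩
      have := h (m (S.tp a z)) (hmker _ (by rw [S.con_tp, S.beN.symm, hzw, zero_smul]))
      rw [← LinearEquiv.mul_apply, inv_mul_cancel, LinearEquiv.coe_one, id_eq, S.con_tp] at this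
      rw [← α.apply_symm_apply (S.con c' (m (S.tp a z))), ← this, map_smul]
    intro a
    have key : S.be (β₀ z) c' = S.be z c := by
      have h0 : S.con w (m (S.tp a₀ z)) = 0 := hmker _ (by rw [S.con_tp, S.beN.symm, hzw, zero_smul])
      have e1 : S.be (S.pi a₁ (m (S.tp a₀ z))) w = 0 := by rw [S.be_pi_con, h0]; simp
      have e2 : S.be (S.pi a₁ (m (S.tp a₀ z))) c' = S.be z c := by
        rw [S.be_pi_con, hcY, map_smul, LinearMap.smul_apply, ha₁, smul_eq_mul, mul_one]
      change S.be (pr (S.pi a₁ (m (S.tp a₀ (pr z))))) c' = _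
      rw [hz, hpr_apply]
      simp only [map_sub, map_smul, LinearMap.sub_apply, LinearMap.smul_apply, smul_eq_mul, e1, e2, hc']
      ring
    rw [key, hcY]
  have hβ₀ : ∀ z, S.be w (β₀ z) = 0 ∧ S.be w' (β₀ z) = 0 := fun z => hprw _
  have hβw : ∀ z, β₀ z = β₀ (pr z) := fun z => by
    have : pr (pr z) = pr z := by
      conv_lhs => rw [hpr_apply]
      rw [S.beN.symm (pr z) w', (hprw z).2, S.beN.symm (pr z) w, (hprw z).1]; simp
    change _ = pr (S.pi a₁ (m (S.tp a₀ (pr (pr z)))))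
    rw [this]
    rfl
  have hform : ∀ z z', S.be w z = 0 → S.be w' z = 0 → S.be w z' = 0 → S.be w' z' = 0 → ∀ a a',
      S.f (α a) (α a') * S.be (β₀ z) (β₀ z') = S.f a a' * S.be z z' := by
    intro z z' h1 h2 h1' h2' a a'
    have e : ∀ z, S.be w z = 0 → S.be w' z = 0 → ∀ a, ∃ q, m (S.tp a z) = S.tp (α a) (β₀ z) + S.tp q w := by
      intro z h1 h2 a
      have := S.eq_tp_of_con hww' (X := m (S.tp a z) - S.tp (α a) (β₀ z)) fun c hc => by
        rw [map_sub, himg z h1 h2 c hc, S.con_tp, sub_self]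
      exact ⟨_, sub_eq_iff_eq_add'.1 this⟩
    obtain ⟨q, hq⟩ := e z h1 h2 a
    obtain ⟨q', hq'⟩ := e z' h1' h2' a'
    have := hm' (S.tp a z) (S.tp a' z')
    rw [hq, hq', S.form_tp] at this
    simp only [map_add, LinearMap.add_apply, S.form_tp, hw, S.beN.symm _ w, (hβ₀ z).1, (hβ₀ z').1, mul_zero,
      add_zero] at this
    exact this
  obtain ⟨z₀, hz₀, hz₀', hzz⟩ := S.beN.exists_aniso_pair hw hw' hww' (by have := H.hB5; omega)
  set ν := S.be (β₀ z₀) (β₀ z₀)
  have hν : ν ≠ 0 := fun h0 => by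
    have h := hform z₀ z₀ hz₀ hz₀' hz₀ hz₀' a₀ a₁'
    change _ * ν = _ at h
    rw [h0, mul_zero, ha₀, one_mul] at h
    exact hzz h.symm
  set ρ := S.be z₀ z₀ / ν
  have hρ : ρ ≠ 0 := div_ne_zero hzz hν
  have hfα : ∀ a a', S.f (α a) (α a') = ρ * S.f a a' := fun a a' => by
    have h := hform z₀ z₀ hz₀ hz₀' hz₀ hz₀' a a'
    change _ * ν = _ at h
    simp only [ρ]
    field_simp
    linear_combination h
  have hβ : ∀ z z', S.be w z = 0 → S.be w' z = 0 → S.be w z' = 0 → S.be w' z' = 0 →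
      S.be (β₀ z) (β₀ z') = ρ⁻¹ * S.be z z' := fun z z' h1 h2 h1' h2' => by
    have h := hform z z' h1 h2 h1' h2' a₀ a₁'
    rw [hfα, ha₀, mul_one, one_mul] at h
    rw [← h]
    field_simp
  let y₀ : B →ₗ[F] B := (S.be.flip w').smulRight w + (ρ⁻¹ • S.be.flip w).smulRight w' + β₀
  have hy_apply : ∀ z, y₀ z = S.be z w' • w + (ρ⁻¹ * S.be z w) • w' + β₀ z := fun z => rfl
  have hy : ∀ z z', S.be (y₀ z) (y₀ z') = ρ⁻¹ * S.be z z' := fun z z' => by
    have h3 : S.be (β₀ z) (β₀ z') = ρ⁻¹ * S.be (pr z) (pr z') := by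
      rw [hβw z, hβw z']; exact hβ _ _ (hprw z).1 (hprw z).2 (hprw z').1 (hprw z').2
    rw [hpr_apply, hpr_apply] at h3
    simp only [hy_apply, map_add, map_sub, map_smul, LinearMap.add_apply, LinearMap.sub_apply,
      LinearMap.smul_apply, smul_eq_mul, hw, hw', hww', hw'w, S.beN.symm (β₀ z) w, (hβ₀ z).1, (hβ₀ z').1,
      S.beN.symm (β₀ z) w', (hβ₀ z).2, (hβ₀ z').2, S.beN.symm w z', S.beN.symm w' z'] at h3 ⊢
    rw [h3]
    ring
  have hyinj : Function.Injective y₀ := (injective_iff_map_eq_zero y₀).2 fun z hz =>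
    S.beN.nd z fun z' => by
      have := hy z z'
      rw [hz, map_zero, LinearMap.zero_apply] at this
      exact (mul_eq_zero.1 this.symm).resolve_left (inv_ne_zero hρ)
  set y := LinearEquiv.ofInjectiveEndo y₀ hyinj
  have hya : ∀ z, y z = y₀ z := fun z => rfl
  set h := S.tequiv α y
  have hh : ∀ X Y, S.form (h X) (h Y) = S.form X Y := S.preserves_of_tp fun a z a' z' => by
    rw [S.tequiv_tp, S.tequiv_tp, S.form_tp, hfα, hya, hya, hy]
    field_simp
  have hyw : y w = w := by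
    have hprw0 : pr w = 0 := by rw [hpr_apply, hww', hw]; simp
    rw [hya, hy_apply, hww', hw, hβw, hprw0, map_zero]; simp
  have hhw : ∀ a, h (S.tp a w) = S.tp (α a) w := fun a => by rw [S.tequiv_tp, hyw]
  set u := h⁻¹ * m
  have hu : ∀ X, h (u X) = m X := fun X => by
    rw [← LinearEquiv.mul_apply, mul_inv_cancel_left]
  -- `u` lies in the unipotent radical
  have tu : Triv S w u := by
    refine ⟨fun X Y => ?_, fun a => h.injective (by rw [hu, hα, hhw]), fun X hX c hc => ?_⟩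
    · rw [← hh, hu, hu, hm']
    have h2 : ∀ c', S.be w c' = 0 → S.con c' (m X) = S.con c' (h X) := by
      intro c' hc'
      let P : V →ₗ[F] V := LinearMap.id - S.tp.flip w' ∘ₗ S.con w
      have hPX : P X = X := by simp [P, hX]
      have := LinearMap.congr_fun (S.hom_ext (g := S.con c' ∘ₗ (m : V →ₗ[F] V) ∘ₗ P)
        (h := S.con c' ∘ₗ (h : V →ₗ[F] V) ∘ₗ P) fun a z => ?_) X
      · simpa [hPX] using this
      have hP : P (S.tp a z) = S.tp a (pr z) + S.be z w' • S.tp a w := by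
        simp [P, hpr_apply]
        abel
      simp only [LinearMap.comp_apply, LinearEquiv.coe_coe, hP, map_add, map_smul, hα, hhw, S.con_tp, hc',
        zero_smul, smul_zero, add_zero]
      rw [himg _ (hprw z).1 (hprw z).2 c' hc', S.tequiv_tp, S.con_tp, hya, hy_apply,
        S.beN.symm (pr z) w', (hprw z).2, S.beN.symm (pr z) w, (hprw z).1]
      simp
    have hmX := S.eq_tp_of_con hww' (X := m X - h X) fun c' hc' => by rw [map_sub, h2 c' hc', sub_self]
    rw [sub_eq_iff_eq_add'] at hmX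
    have : u X = X + S.tp (α.symm (S.con w' (m X - h X))) w := h.injective (by
      rw [hu, map_add h, hhw, α.apply_symm_apply]
      exact hmX)
    rw [this, map_add, S.con_tp, hc, zero_smul, add_zero]
  -- commutators with the first factor
  have hD : ∀ s d (hs : S.f s s = 0) (hd : S.f s d = 0), ∃ φ : B ≃ₗ[F] B,
      Triv S w (S.tequiv (LinearEquiv.refl F A) φ) ∧
        S.tequiv (S.fN.sieE hs hd) (LinearEquiv.refl F B) * u *
          (S.tequiv (S.fN.sieE hs hd) (LinearEquiv.refl F B))⁻¹ * u⁻¹ = S.tequiv (LinearEquiv.refl F A) φ := by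
    intro s d hs hd
    set x := S.tequiv (S.fN.sieE hs hd) (LinearEquiv.refl F B) with hx
    set D := x * u * x⁻¹ * u⁻¹
    have tD : Triv S w D :=
      (tu.conj (S.fN.sieE hs hd) (LinearEquiv.refl F B) (S.fN.b_sie hs hd) (fun _ _ => rfl) rfl).mul tu.inv
    have hs' : S.f (α s) (α s) = 0 := by rw [hfα, hs, mul_zero]
    have hd' : S.f (α s) (ρ⁻¹ • α d) = 0 := by rw [map_smul, hfα, hd, mul_zero, smul_zero]
    have hxh : h * x * h⁻¹ = S.tequiv (S.fN.sieE hs' hd') (LinearEquiv.refl F B) := by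
      rw [mul_inv_eq_iff_eq_mul]
      refine S.equiv_ext fun a z => ?_
      simp only [LinearEquiv.mul_apply, hx, h, S.tequiv_tp, LinearEquiv.refl_apply, Nice.sieE_apply]
      congr 1
      simp only [sie_apply, map_sub, map_add, map_smul, LinearMap.smul_apply, smul_eq_mul, hfα]
      match_scalars <;> field_simp
    have hDM : h * D * h⁻¹ ∈ M := by
      have : h * D * h⁻¹ = (h * x * h⁻¹) * (m * x⁻¹ * m⁻¹) := by simp only [D, u]; group
      rw [this, hxh]
      exact M.mul_mem (H.left _ _ hs' hd') (M.mul_mem (M.mul_mem hm (M.inv_mem (H.left s d hs hd))) (M.inv_mem hm))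
    obtain ⟨c, hc, he⟩ := H.eq_sie_of_triv hcl hw hw0 hDM (tD.conj' hh α hhw hww')
    have hDe : D = S.tequiv (LinearEquiv.refl F A) ((y.trans (S.beN.sieE hw hc)).trans y.symm) := by
      rw [mul_inv_eq_iff_eq_mul] at he
      refine S.equiv_ext fun a z => h.injective ?_
      have := LinearEquiv.congr_fun he (S.tp a z)
      simp only [LinearEquiv.mul_apply] at this
      rw [this]
      simp [h]
    exact ⟨_, hDe ▸ tD, hDe⟩
  -- scalar components
  have hall : ∀ c, S.be w c = 0 → ∃ l : F, ∀ a, comp S w' c u a = l • a := by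
    intro c hc
    refine S.fN.scalar_of_conj H.hA3 H.hk fun s d hs0 hs hd => ?_
    obtain ⟨φ, tφ, hφ⟩ := hD s d hs hd
    set x := S.tequiv (S.fN.sieE hs hd) (LinearEquiv.refl F B) with hx
    refine ⟨S.be (φ w') c - S.be w' c, fun a => ?_⟩
    have h1 : x (u (S.tp a w')) = S.tequiv (LinearEquiv.refl F A) φ (u (S.tp (sie S.f s d a) w')) := by
      have := LinearEquiv.congr_fun hφ (u (S.tp (sie S.f s d a) w'))
      simp only [LinearEquiv.mul_apply] at this
      rw [← LinearEquiv.mul_apply u⁻¹, inv_mul_cancel, LinearEquiv.coe_one, id_eq] at this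
      rw [← this]
      congr 2
      refine x.injective ?_
      rw [← LinearEquiv.mul_apply x, mul_inv_cancel, hx, S.tequiv_tp]
      rfl
    have hΔ : ∀ b, S.con w (u (S.tp b w') - S.tp b w') = 0 := fun b => by rw [map_sub, tu.con_fix, sub_self]
    have h2 := tφ.low _ (hΔ (sie S.f s d a)) c hc
    rw [map_sub (S.tequiv (LinearEquiv.refl F A) φ), ← h1, S.tequiv_tp] at h2
    simp only [map_sub, hx, S.con_left, S.con_tp, Nice.sieE_apply, LinearEquiv.refl_apply] at h2
    simp only [comp_apply, map_sub, S.con_tp, map_smul]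
    linear_combination (norm := module) h2
  obtain ⟨c₀, hc₀, τ, hroot⟩ := tu.exists_translation H.hA3 hw hw' hww' hall
  set e := S.tequiv (LinearEquiv.refl F A) (S.beN.sieE hw hc₀)
  have huτ : ∀ a, u (S.tp a w') = S.tp a (sie S.be w c₀ w') + S.tp (τ a) w := fun a => by
    have h1 := congrArg e (hroot (S.tp a w'))
    rw [← LinearEquiv.mul_apply e, mul_inv_cancel_left, Setting.rootW_apply, S.con_tp, hw'w, one_smul,
      map_add e, S.tequiv_tp, S.tequiv_tp] at h1
    rwa [Nice.sieE_apply, Nice.sieE_apply, S.beN.sie_self hw hc₀, LinearEquiv.refl_apply,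
      LinearEquiv.refl_apply] at h1
  -- the coefficient vanishes
  obtain ⟨l, hl⟩ : ∃ l : F, ∀ a, τ a = l • a := by
    refine S.fN.scalar_of_conj H.hA3 H.hk fun s d hs0 hs hd => ?_
    obtain ⟨φ, tφ, hφ⟩ := hD s d hs hd
    set x := S.tequiv (S.fN.sieE hs hd) (LinearEquiv.refl F B) with hx
    refine ⟨S.be (φ (sie S.be w c₀ w') - sie S.be w c₀ w') w', fun a => ?_⟩
    have h1 : x (u (S.tp a w')) = S.tequiv (LinearEquiv.refl F A) φ (u (S.tp (sie S.f s d a) w')) := by
      have := LinearEquiv.congr_fun hφ (u (S.tp (sie S.f s d a) w'))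
      simp only [LinearEquiv.mul_apply] at this
      rw [← LinearEquiv.mul_apply u⁻¹, inv_mul_cancel, LinearEquiv.coe_one, id_eq] at this
      rw [← this]
      congr 2
      refine x.injective ?_
      rw [← LinearEquiv.mul_apply x, mul_inv_cancel, hx, S.tequiv_tp]
      rfl
    rw [huτ, huτ, map_add, map_add, tφ.fix, hx, S.tequiv_tp, S.tequiv_tp, S.tequiv_tp] at h1
    have h2 := congrArg (S.con w') h1
    simp only [map_add, S.con_tp, hww', one_smul, LinearEquiv.refl_apply, Nice.sieE_apply] at h2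
    simp only [map_sub, LinearMap.sub_apply]
    linear_combination (norm := module) h2
  have hτ0 : τ = 0 := by
    have h1 := fun a a' => tu.iso (S.tp a w') (S.tp a' w')
    have h2 : l = 0 := by
      have := h1 a₀ a₁'
      rw [huτ, huτ] at this
      simp only [map_add, LinearMap.add_apply, S.form_tp, hl, map_smul, LinearMap.smul_apply, smul_eq_mul,
        hw, ha₀] at this
      have hb := S.beN.b_sie hw hc₀ w' w'
      have hb' : S.be w (sie S.be w c₀ w') = 1 := by
        have := S.beN.b_sie hw hc₀ w w'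
        rwa [S.beN.sie_self hw hc₀, hww'] at this
      rw [S.beN.symm _ w, hb', hb, hw'] at this
      have h3 : (2 : F) * l = 0 := by linear_combination this
      exact (mul_eq_zero.1 h3).resolve_left S.fN.two
    exact LinearMap.ext fun a => by rw [hl, h2, zero_smul, LinearMap.zero_apply]
  have hue : u = e := by
    refine (inv_mul_eq_one.1 (LinearEquiv.ext fun Y => ?_)).symm
    rw [hroot, hτ0, Setting.rootW_apply, LinearMap.zero_apply, map_zero, LinearMap.zero_apply, add_zero]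
    rfl
  have hmu : m = h * u := by simp only [u, mul_inv_cancel_left]
  rw [hmu, hue]
  exact S.isT_mul (S.isT_tequiv _ _) (S.isT_tequiv _ _)

/-- An element carrying a singular member into a singular member is a tensor map. -/
theorem isT_of_point (hcl : Clean S M) {m : V ≃ₗ[F] V} (hm : m ∈ M) {w w₂ : B} (hw : S.be w w = 0)
    (hw0 : w ≠ 0) (hw₂ : S.be w₂ w₂ = 0) (hw₂0 : w₂ ≠ 0) (h : ∀ a, m (S.tp a w) ∈ S.mem w₂) : S.IsT m := by
  obtain ⟨k, hk, hkT, c, hc, hkw⟩ : ∃ k ∈ M, S.IsT k ∧ ∃ c : F, c ≠ 0 ∧ ∀ a, k (S.tp a w₂) = S.tp (c • a) w := by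
    by_cases hind : ∀ r : F, w ≠ r • w₂
    · obtain ⟨z, hz, hz2, hzw⟩ := S.beN.exists_common H.hB5 hw₂0 hw0 hw₂ hw hind
      obtain ⟨d, hd, c, hc, hdc⟩ := S.beN.exists_step hw₂ hw hz hz2 hzw
      refine ⟨_, H.right z d hz hd, S.isT_tequiv _ _, c, hc, fun a => ?_⟩
      rw [S.tequiv_tp, Nice.sieE_apply, hdc, map_smul, map_smul]
      rfl
    · push Not at hind
      obtain ⟨r, hr⟩ := hind
      have hr0 : r ≠ 0 := fun h0 => hw0 (by rw [hr, h0, zero_smul])
      refine ⟨1, M.one_mem, ⟨LinearEquiv.refl F A, LinearEquiv.refl F B, fun a w => rfl⟩, r⁻¹, inv_ne_zero hr0,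
        fun a => ?_⟩
      rw [hr, map_smul, map_smul, LinearMap.smul_apply, smul_smul, mul_inv_cancel₀ hr0, one_smul]
      rfl
  have hmem : ∀ a, (k * m) (S.tp a w) ∈ S.mem w := fun a => by
    obtain ⟨b, hb⟩ := S.mem_mem.1 (h a)
    rw [LinearEquiv.mul_apply, ← hb, hkw]
    exact S.tp_mem _ _
  obtain ⟨w', hw', hww'⟩ := S.beN.exists_partner hw0 hw
  let α₀ : A →ₗ[F] A := S.con w' ∘ₗ ((k * m : V ≃ₗ[F] V) : V →ₗ[F] V) ∘ₗ S.tp.flip w
  have hα₀ : ∀ a, (k * m) (S.tp a w) = S.tp (α₀ a) w := fun a => by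
    obtain ⟨b, hb⟩ := S.mem_mem.1 (hmem a)
    change _ = S.tp (S.con w' ((k * m) (S.tp a w))) w
    rw [← hb]
    simp [hww']
  have hinj : Function.Injective α₀ := fun a a' e =>
    S.tp_injective hw0 ((k * m).injective (by simp only [hα₀, e]))
  have := H.isT_of_fix_member hcl hw hw0 (M.mul_mem hk hm) (LinearEquiv.ofInjectiveEndo α₀ hinj) hα₀
  simpa using S.isT_mul (S.isT_inv hkT) this

/-- An element fixing a singular member pointwise lives on the second factor. -/
theorem eq_right_of_fix (hcl : Clean S M) {g : V ≃ₗ[F] V} (hg : g ∈ M) {w : B} (hw : S.be w w = 0)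
    (hw0 : w ≠ 0) (hfix : ∀ a, g (S.tp a w) = S.tp a w) :
    ∃ y : B ≃ₗ[F] B, (∀ u v, S.be (y u) (y v) = S.be u v) ∧ ∀ a z, g (S.tp a z) = S.tp a (y z) := by
  obtain ⟨x, y, hxy⟩ := H.isT_of_point hcl hg hw hw0 hw hw0 fun a => by rw [hfix]; exact S.tp_mem a w
  obtain ⟨w', hw', hww'⟩ := S.beN.exists_partner hw0 hw
  have hc : ∀ a, S.be (y w) w' • x a = a := fun a => by
    have h1 := congrArg (S.con w') ((hxy a w).symm.trans (hfix a))
    simpa [hww'] using h1
  set c := S.be (y w) w'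
  obtain ⟨a₀, a₁, -, -, ha⟩ := S.fN.exists_pair H.hA3
  have hc0 : c ≠ 0 := fun h0 => (S.fN.ne_zero_of_pair ha).1 (by rw [← hc a₀, h0, zero_smul])
  have hy : ∀ a z, g (S.tp a z) = S.tp a (c⁻¹ • y z) := fun a z => by
    rw [hxy]
    conv_rhs => rw [← hc a]
    rw [map_smul, map_smul, LinearMap.smul_apply, smul_smul, inv_mul_cancel₀ hc0, one_smul]
  refine ⟨y.trans (LinearEquiv.smulOfNeZero F B c⁻¹ (inv_ne_zero hc0)), fun u v => ?_, hy⟩
  have := H.iso g hg (S.tp a₀ u) (S.tp a₁ v)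
  rw [hy, hy, S.form_tp, S.form_tp, ha, one_mul, one_mul] at this
  exact this

end Ctx

end CfsgLib.OTensor96
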